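import Cfsg.Agent.Lib.Helper96.PiDefs
import Cfsg.Agent.Lib.Helper96.PiGlueB
import Cfsg.Agent.Lib.Helper96.PiOmega
import Cfsg.Agent.Lib.Helper9.HeUNIPPOW

/-!
Project PI (S5989, helper96): piece CONA (helper64).
-/

set_option autoImplicit false
set_option linter.unusedSectionVars false
set_option linter.unusedVariables false

namespace Cfsg.Agent.Lib.Helper64.Pi

open Module Cfsg.Agent.Lib.Helper96.Sp Cfsg.Agent.Lib.Helper96.BG Cfsg.Agent.Lib.Helper96.Hy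
  Cfsg.Agent.Lib.Helper96.Pi Cfsg.Agent.Lib.Helper47

universe u

section Concrete

open Matrix
open scoped MatrixGroups

variable {F : Type u} [Field F] [Fintype F]

/-- a skew matrix with square `-1` in even dimension -/
theorem cona_skew (e : ℕ) :
    ∃ S : Matrix (Fin (e + e)) (Fin (e + e)) F, Sᵀ = -S ∧ S * S = -1 := by
  obtain ⟨J, hJ⟩ : ∃ J : Matrix (Fin e ⊕ Fin e) (Fin e ⊕ Fin e) F,
      J = Matrix.fromBlocks 0 1 (-1) 0 := ⟨_, rfl⟩
  have hJT : Jᵀ = -J := by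
    rw [hJ, Matrix.fromBlocks_transpose, Matrix.fromBlocks_neg]
    simp
  have hJJ : J * J = -1 := by
    rw [hJ, Matrix.fromBlocks_multiply, ← Matrix.fromBlocks_one, Matrix.fromBlocks_neg]
    simp
  refine ⟨J.submatrix finSumFinEquiv.symm finSumFinEquiv.symm, ?_, ?_⟩
  · rw [Matrix.transpose_submatrix, hJT]
    rfl
  · rw [Matrix.submatrix_mul_equiv, hJJ]
    have h1 : ((-1 : Matrix (Fin e ⊕ Fin e) (Fin e ⊕ Fin e) F).submatrix finSumFinEquiv.symm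
        finSumFinEquiv.symm) = -((1 : Matrix (Fin e ⊕ Fin e) (Fin e ⊕ Fin e) F).submatrix
        finSumFinEquiv.symm finSumFinEquiv.symm) := rfl
    rw [h1, Matrix.submatrix_one_equiv]

-- PIECE CONA
theorem exists_unip_A (h2 : (2 : F) ≠ 0) (d : ℕ) (hd : Even d) (hd1 : 1 ≤ d) :
    ∃ x : GL (Fin d ⊕ Fin d) F,
      (∀ v, Cfsg.quadFormPlus d F ((x : Matrix (Fin d ⊕ Fin d) (Fin d ⊕ Fin d) F) *ᵥ v)
        = Cfsg.quadFormPlus d F v) ∧
      (∀ z : F, (x : Matrix (Fin d ⊕ Fin d) (Fin d ⊕ Fin d) F)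
        ≠ z • (1 : Matrix (Fin d ⊕ Fin d) (Fin d ⊕ Fin d) F)) ∧
      (Matrix.toLin' (x : Matrix (Fin d ⊕ Fin d) (Fin d ⊕ Fin d) F) - 1)
        * (Matrix.toLin' (x : Matrix (Fin d ⊕ Fin d) (Fin d ⊕ Fin d) F) - 1) = 0 ∧
      LinearMap.ker (Matrix.toLin' (x : Matrix (Fin d ⊕ Fin d) (Fin d ⊕ Fin d) F) - 1)
        ≤ LinearMap.range (Matrix.toLin' (x : Matrix (Fin d ⊕ Fin d) (Fin d ⊕ Fin d) F) - 1) := by
  obtain ⟨e, rfl⟩ := hd
  obtain ⟨S, hST, hSS⟩ := cona_skew (F := F) e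
  have hdot : ∀ y : Fin (e + e) → F, (S *ᵥ y) ⬝ᵥ y = 0 := by
    intro y
    have h1 : (S *ᵥ y) ⬝ᵥ y = -((S *ᵥ y) ⬝ᵥ y) := by
      calc (S *ᵥ y) ⬝ᵥ y = y ⬝ᵥ (S *ᵥ y) := dotProduct_comm _ _
        _ = (y ᵥ* S) ⬝ᵥ y := Matrix.dotProduct_mulVec _ _ _
        _ = (Sᵀ *ᵥ y) ⬝ᵥ y := by rw [Matrix.mulVec_transpose]
        _ = -((S *ᵥ y) ⬝ᵥ y) := by rw [hST, Matrix.neg_mulVec, neg_dotProduct]
    have h3 : (2 : F) * ((S *ᵥ y) ⬝ᵥ y) = 0 := by linear_combination h1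
    rcases mul_eq_zero.mp h3 with h | h
    · exact absurd h h2
    · exact h
  have hSinj : ∀ y : Fin (e + e) → F, S *ᵥ y = 0 → y = 0 := by
    intro y hy
    have h1 : S *ᵥ (S *ᵥ y) = -y := by
      rw [Matrix.mulVec_mulVec, hSS, Matrix.neg_mulVec, Matrix.one_mulVec]
    rw [hy, Matrix.mulVec_zero] at h1
    exact neg_eq_zero.mp h1.symm
  obtain ⟨M, hM⟩ : ∃ M : Matrix (Fin (e + e) ⊕ Fin (e + e)) (Fin (e + e) ⊕ Fin (e + e)) F,
      M = Matrix.fromBlocks 1 S 0 1 := ⟨_, rfl⟩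
  have hMinv1 : M * Matrix.fromBlocks 1 (-S) 0 1 = 1 := by
    rw [hM, Matrix.fromBlocks_multiply, ← Matrix.fromBlocks_one]
    simp
  have hMinv2 : Matrix.fromBlocks 1 (-S) 0 1 * M = 1 := by
    rw [hM, Matrix.fromBlocks_multiply, ← Matrix.fromBlocks_one]
    simp
  have hMv : ∀ v : Fin (e + e) ⊕ Fin (e + e) → F, M *ᵥ v =
      Sum.elim (v ∘ Sum.inl + S *ᵥ (v ∘ Sum.inr)) (v ∘ Sum.inr) := by
    intro v
    rw [hM, Matrix.fromBlocks_mulVec]
    simp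
  have hNv : ∀ v : Fin (e + e) ⊕ Fin (e + e) → F, (Matrix.toLin' M - 1) v =
      Sum.elim (S *ᵥ (v ∘ Sum.inr)) 0 := by
    intro v
    rw [LinearMap.sub_apply, Matrix.toLin'_apply, hMv]
    funext i
    cases i with
    | inl i => simp
    | inr i => simp
  refine ⟨⟨M, Matrix.fromBlocks 1 (-S) 0 1, hMinv1, hMinv2⟩, ?_, ?_, ?_, ?_⟩
  · intro v
    show Cfsg.quadFormPlus (e + e) F (M *ᵥ v) = Cfsg.quadFormPlus (e + e) F v
    rw [hMv]
    unfold Cfsg.quadFormPlus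
    simp only [Sum.elim_inl, Sum.elim_inr, Pi.add_apply, Function.comp_apply, add_mul]
    rw [Finset.sum_add_distrib]
    have h3 : ∑ i, (S *ᵥ (v ∘ Sum.inr)) i * v (Sum.inr i) = 0 := hdot (v ∘ Sum.inr)
    rw [h3, add_zero]
  · intro z hz
    have hz' : M = z • (1 : Matrix (Fin (e + e) ⊕ Fin (e + e)) (Fin (e + e) ⊕ Fin (e + e)) F) :=
      hz
    have hS0 : S = 0 := by
      ext i k
      have h1 := congrFun (congrFun hz' (Sum.inl i)) (Sum.inr k)
      simpa [hM] using h1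
    rw [hS0] at hSS
    have h1 := congrFun (congrFun hSS ⟨0, by omega⟩) ⟨0, by omega⟩
    simp at h1
  · show (Matrix.toLin' M - 1) * (Matrix.toLin' M - 1) = 0
    apply LinearMap.ext
    intro v
    rw [Module.End.mul_apply, hNv, hNv]
    funext i
    cases i with
    | inl i =>
      have h1 : (Sum.elim (S *ᵥ (v ∘ Sum.inr)) (0 : Fin (e + e) → F)) ∘ Sum.inr = 0 := by
        funext k; simp
      rw [h1, Matrix.mulVec_zero]; rfl
    | inr i => rfl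
  · show LinearMap.ker (Matrix.toLin' M - 1) ≤ LinearMap.range (Matrix.toLin' M - 1)
    intro v hv
    rw [LinearMap.mem_ker, hNv] at hv
    have hy : v ∘ Sum.inr = 0 := by
      apply hSinj
      funext i
      have h1 := congrFun hv (Sum.inl i)
      simpa using h1
    rw [LinearMap.mem_range]
    refine ⟨Sum.elim 0 (-(S *ᵥ (v ∘ Sum.inl))), ?_⟩
    rw [hNv]
    funext i
    cases i with
    | inl i =>
      have h1 : (Sum.elim (0 : Fin (e + e) → F) (-(S *ᵥ (v ∘ Sum.inl)))) ∘ Sum.inr =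
          -(S *ᵥ (v ∘ Sum.inl)) := by
        funext k; simp
      rw [h1, Matrix.mulVec_neg, Matrix.mulVec_mulVec, hSS, Matrix.neg_mulVec,
        Matrix.one_mulVec, neg_neg]
      rfl
    | inr i =>
      have h1 := congrFun hy i
      simp only [Sum.elim_inr]
      exact h1.symm

end Concrete

end Cfsg.Agent.Lib.Helper64.Pi
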