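import Mathlib
import Cfsg.Agent.Lib.Helper22.BFDefs

/-!
# S4503 piece SYL (helper64 for helper22): an element of order `p` has a nontrivial conjugate in
a given Sylow `p`-subgroup
-/

set_option autoImplicit false

namespace Cfsg.Agent.Lib.Helper64.BFT

open Cfsg Cfsg.Agent.Lib.Helper22.BFD
open scoped ComplexConjugate

universe u

variable {G : Type u} [Group G] [Fintype G]

/-- PIECE SYL -/
theorem syl_conj (p : ℕ) [Fact p.Prime] (P : Sylow p G) (z : G) (hz : orderOf z = p) :
    ∃ g : G, g * z * g⁻¹ ∈ (P : Subgroup G) ∧ g * z * g⁻¹ ≠ 1 := by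
  have hpg : IsPGroup p (Subgroup.zpowers z) :=
    IsPGroup.of_card (n := 1) (by rw [Nat.card_zpowers, hz, pow_one])
  obtain ⟨Q, hQ⟩ := hpg.exists_le_sylow
  obtain ⟨g, hg⟩ := MulAction.exists_smul_eq G Q P
  have hzQ : z ∈ (Q : Subgroup G) := hQ (Subgroup.mem_zpowers z)
  refine ⟨g, ?_, ?_⟩
  · rw [← hg, Sylow.coe_subgroup_smul]
    exact Subgroup.smul_mem_pointwise_smul z (MulAut.conj g) (Q : Subgroup G) hzQ
  · intro h
    have h1 : z = 1 := by
      have h2 := congrArg (fun x => g⁻¹ * x * g) h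
      simpa [mul_assoc] using h2
    rw [h1, orderOf_one] at hz
    exact (Fact.out : p.Prime).one_lt.ne hz

end Cfsg.Agent.Lib.Helper64.BFT
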