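import Mathlib
import Cfsg.Prelude.Def_GeometricClasses
import Cfsg.Agent.Lib.Helper71.SLP0

/-!
# SLP piece N3 (helper64 for helper71): `SL_n(F)` does not normalise a field subalgebra `K ≠ F`
-/

set_option autoImplicit false
set_option linter.unusedSectionVars false

namespace Cfsg.Agent.Lib.Helper64.SLPN3

open Matrix Cfsg.Geo Cfsg.Agent.Lib.Helper71.SLP

variable {n : ℕ} {F : Type*} [Field F] [Fintype F]

/-- a matrix mapping every vector into its own span is scalar -/
theorem N3_scalar (hn : 1 ≤ n) (x : Matrix (Fin n) (Fin n) F)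
    (h : ∀ v : Fin n → F, x *ᵥ v ∈ Submodule.span F {v}) : ∃ c : F, x = c • 1 := by
  have hc : ∀ i : Fin n, ∃ c : F, x *ᵥ Pi.single i 1 = c • Pi.single i 1 := by
    intro i
    obtain ⟨c, hc⟩ := Submodule.mem_span_singleton.mp (h (Pi.single i 1))
    exact ⟨c, hc.symm⟩
  choose c hc using hc
  have hcc : ∀ i j : Fin n, c i = c j := by
    intro i j
    by_cases hij : i = j
    · rw [hij]
    obtain ⟨d, hd⟩ := Submodule.mem_span_singleton.mp
      (h (Pi.single i 1 + Pi.single j 1))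
    rw [Matrix.mulVec_add, hc i, hc j] at hd
    have h1 := congrFun hd i
    have h2 := congrFun hd j
    simp only [Pi.smul_apply, Pi.add_apply, Pi.single_eq_same, smul_eq_mul, mul_one,
      Pi.single_eq_of_ne hij, Pi.single_eq_of_ne (Ne.symm hij), add_zero, zero_add, mul_zero]
      at h1 h2
    rw [← h1, ← h2]
  refine ⟨c ⟨0, by omega⟩, ?_⟩
  ext k i
  have h1 := congrFun (hc i) k
  have e1 : (x *ᵥ Pi.single i (1 : F)) k = x k i := by
    rw [Matrix.mulVec_single_one]
    rfl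
  rw [e1] at h1
  rw [h1, hcc i ⟨0, by omega⟩, Matrix.smul_apply, Pi.smul_apply, Matrix.one_apply, Pi.single_apply]

/-- N3 -/
theorem N3 (hn : 3 ≤ n) (r : ℕ) (hr : r.Prime) (K : Subalgebra F (Matrix (Fin n) (Fin n) F))
    (hK : IsFieldSubalgebra r K) : ¬ specialLinear (Fin n) F ≤ subalgebraNormalizer K := by
  intro hle
  -- (a) a non-scalar element of `K`
  obtain ⟨x, hxK, hxs⟩ : ∃ x ∈ K, ¬ ∃ c : F, x = c • (1 : Matrix (Fin n) (Fin n) F) := by
    by_contra hcon
    have hall : ∀ x ∈ K, ∃ c : F, x = c • (1 : Matrix (Fin n) (Fin n) F) := by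
      intro x hx
      by_contra h
      exact hcon ⟨x, hx, h⟩
    have h1 : Subalgebra.toSubmodule K ≤ Submodule.span F {(1 : Matrix (Fin n) (Fin n) F)} := by
      intro x hx
      obtain ⟨c, hc⟩ := hall x hx
      rw [hc]
      exact Submodule.smul_mem _ _ (Submodule.subset_span rfl)
    have h2 := Submodule.finrank_mono h1
    have h3 : Module.finrank F (Submodule.span F {(1 : Matrix (Fin n) (Fin n) F)}) ≤ 1 := by
      have := finrank_span_finset_le_card (R := F) ({(1 : Matrix (Fin n) (Fin n) F)} : Finset _)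
      rw [Finset.coe_singleton, Finset.card_singleton] at this
      exact this
    have h4 : Module.finrank F (Subalgebra.toSubmodule K) = r := hK.finrank_eq
    have := hr.two_le
    omega
  -- (b) a vector not mapped into its span
  obtain ⟨w, hw⟩ : ∃ w : Fin n → F, x *ᵥ w ∉ Submodule.span F {w} := by
    by_contra hcon
    apply hxs
    apply N3_scalar (by omega) x
    intro v
    by_contra h
    exact hcon ⟨v, h⟩
  -- (c) elements of `K` with nontrivial kernel vanish
  have hker : ∀ y ∈ K, ∀ v : Fin n → F, v ≠ 0 → y *ᵥ v = 0 → y = 0 := by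
    intro y hy v hv hyv
    by_contra hy0
    obtain ⟨z, hz, hyz⟩ := hK.inv y hy hy0
    have hzy : z * y = 1 := by rw [← hK.comm y hy z hz, hyz]
    apply hv
    have h1 : (z * y) *ᵥ v = v := by rw [hzy, Matrix.one_mulVec]
    rw [← h1, ← Matrix.mulVec_mulVec, hyv, Matrix.mulVec_zero]
  -- (d) a functional vanishing on `w` and `x w`
  have hspan : Submodule.span F ({w, x *ᵥ w} : Set (Fin n → F)) ≠ ⊤ := by
    intro htop
    classical
    have h1 : Module.finrank F (Submodule.span F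
        ((({w, x *ᵥ w} : Finset (Fin n → F)) : Set (Fin n → F))))
        ≤ ({w, x *ᵥ w} : Finset (Fin n → F)).card :=
      finrank_span_finset_le_card (R := F) ({w, x *ᵥ w} : Finset (Fin n → F))
    have h2 : ((({w, x *ᵥ w} : Finset (Fin n → F)) : Set (Fin n → F))) = {w, x *ᵥ w} := by
      simp
    rw [h2, htop, finrank_top, Module.finrank_fin_fun] at h1
    have h3 : ({w, x *ᵥ w} : Finset (Fin n → F)).card ≤ 2 := Finset.card_le_two
    omega
  obtain ⟨φ, hφ0, hφ⟩ := exists_dual_ne_zero _ hspan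
  have hφw : φ ⬝ᵥ w = 0 := hφ w (Submodule.subset_span (by simp))
  have hφu : φ ⬝ᵥ (x *ᵥ w) = 0 := hφ _ (Submodule.subset_span (by simp))
  obtain ⟨i, hi⟩ : ∃ i, φ i ≠ 0 := by
    by_contra hcon
    apply hφ0
    funext i
    by_contra h
    exact hcon ⟨i, h⟩
  obtain ⟨a, ha⟩ : ∃ a : Fin n → F, φ ⬝ᵥ a = 1 := by
    refine ⟨(φ i)⁻¹ • Pi.single i 1, ?_⟩
    rw [dotProduct_smul, dotProduct_single, mul_one, smul_eq_mul, inv_mul_cancel₀ hi]
  -- the transvection
  obtain ⟨g, hgdef⟩ : ∃ g : GL (Fin n) F, g = tv w φ hφw := ⟨_, rfl⟩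
  have hgSL : g ∈ specialLinear (Fin n) F := by
    rw [hgdef]
    exact tv_mem_specialLinear _ _ _
  have hgv : ∀ v : Fin n → F, g.1 *ᵥ v = v + (φ ⬝ᵥ v) • w := by
    intro v
    rw [hgdef]
    exact tv_mulVec w φ hφw v
  have hgiv : ∀ v : Fin n → F, (g⁻¹ : GL (Fin n) F).1 *ᵥ v = v - (φ ⬝ᵥ v) • w := by
    intro v
    rw [hgdef]
    exact tv_inv_mulVec w φ hφw v
  have hyK : g.1 * x * (g⁻¹ : GL (Fin n) F).1 ∈ K := ((hle hgSL) x).mp hxK
  have hyw : (g.1 * x * (g⁻¹ : GL (Fin n) F).1) *ᵥ w = x *ᵥ w := by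
    rw [← Matrix.mulVec_mulVec, ← Matrix.mulVec_mulVec, hgiv, hφw, zero_smul, sub_zero, hgv, hφu,
      zero_smul, add_zero]
  have hw0 : w ≠ 0 := by
    rintro rfl
    apply hw
    rw [Matrix.mulVec_zero]
    exact Submodule.zero_mem _
  have hyx : g.1 * x * (g⁻¹ : GL (Fin n) F).1 - x = 0 := by
    apply hker _ (K.sub_mem hyK hxK) w hw0
    rw [Matrix.sub_mulVec, hyw, sub_self]
  have hcomm : g.1 * x = x * g.1 := by
    have h1 : g.1 * x * (g⁻¹ : GL (Fin n) F).1 = x := sub_eq_zero.mp hyx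
    have h2 : g.1 * x * (g⁻¹ : GL (Fin n) F).1 * g.1 = x * g.1 := by rw [h1]
    rw [mul_assoc, Units.inv_mul, mul_one] at h2
    exact h2
  have h1 : (g.1 * x) *ᵥ a = (x * g.1) *ᵥ a := by rw [hcomm]
  rw [← Matrix.mulVec_mulVec, ← Matrix.mulVec_mulVec, hgv, hgv, ha, one_smul, Matrix.mulVec_add]
    at h1
  have h2 : x *ᵥ w = (φ ⬝ᵥ (x *ᵥ a)) • w := (add_left_cancel h1).symm
  apply hw
  rw [h2]
  exact Submodule.smul_mem _ _ (Submodule.subset_span rfl)

end Cfsg.Agent.Lib.Helper64.SLPN3
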