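import Cfsg.Agent.Lib.Helper47.UniDefs

/-!
# S2676 piece SAME (helper64 for helper47): two triples with frames of identical data are
isometric
-/

set_option autoImplicit false

namespace Cfsg.Agent.Lib.Helper64.Uni

open Cfsg.Agent.Lib.Helper47 Module

universe u

variable {F : Type u} [Field F]

/-- a linear map which is isometric on a basis is an isometry -/
theorem form_eq_of_basis {V V' : Type*} [AddCommGroup V] [Module F V] [AddCommGroup V']
    [Module F V'] {κ : Type*} {B : V → V → F} {B' : V' → V' → F}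
    (hB : IsSForm (RingHom.id F) (-1) B) (hB' : IsSForm (RingHom.id F) (-1) B')
    (b : Basis κ F V) (φ : V →ₗ[F] V')
    (h : ∀ s t, B' (φ (b s)) (φ (b t)) = B (b s) (b t)) :
    ∀ u v, B' (φ u) (φ v) = B u v := by
  have h1 : ∀ s v, B' (φ (b s)) (φ v) = B (b s) v := by
    intro s v
    let R₁ : V →ₗ[F] F :=
      { toFun := fun v => B (b s) v
        map_add' := fun v w => hB.add_right _ _ _
        map_smul' := fun c v => by simpa using hB.smul_right c (b s) v }
    let R₂ : V →ₗ[F] F :=
      { toFun := fun v => B' (φ (b s)) (φ v)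
        map_add' := fun v w => by rw [map_add]; exact hB'.add_right _ _ _
        map_smul' := fun c v => by
          rw [map_smul]; simpa using hB'.smul_right c (φ (b s)) (φ v) }
    have h2 : R₂ = R₁ := b.ext (fun t => h s t)
    exact LinearMap.congr_fun h2 v
  intro u v
  have h3 : (hB'.lin (φ v)).comp φ = hB.lin v := b.ext (fun s => h1 s v)
  exact LinearMap.congr_fun h3 u

-- PIECE SAME
theorem triple_iso_of_same_frame {V V' : Type*} [AddCommGroup V] [Module F V]
    [AddCommGroup V'] [Module F V']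
    {ι : Type*} [Fintype ι] {B : V → V → F} {N : V →ₗ[F] V}
    {B' : V' → V' → F} {N' : V' →ₗ[F] V'} {d : ι → ℕ} {G : ι → ι → F} {x : ι → V}
    {y : ι → V'}
    (hB : IsSForm (RingHom.id F) (-1) B) (hB' : IsSForm (RingHom.id F) (-1) B')
    (hx : IsFrame B N d G x) (hy : IsFrame B' N' d G y)
    (hli : LinearIndependent F (fun s : (i : ι) × Fin (d i) => (N ^ (s.2 : ℕ)) (x s.1)))
    (hsp : Submodule.span F
      (Set.range (fun s : (i : ι) × Fin (d i) => (N ^ (s.2 : ℕ)) (x s.1))) = ⊤)
    (hli' : LinearIndependent F (fun s : (i : ι) × Fin (d i) => (N' ^ (s.2 : ℕ)) (y s.1)))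
    (hsp' : Submodule.span F
      (Set.range (fun s : (i : ι) × Fin (d i) => (N' ^ (s.2 : ℕ)) (y s.1))) = ⊤) :
    TripleIso B N B' N' := by
  classical
  let b : Basis ((i : ι) × Fin (d i)) F V := Basis.mk hli hsp.ge
  let b' : Basis ((i : ι) × Fin (d i)) F V' := Basis.mk hli' hsp'.ge
  have hb : ∀ s, b s = (N ^ (s.2 : ℕ)) (x s.1) := fun s => Basis.mk_apply hli hsp.ge s
  have hb' : ∀ s, b' s = (N' ^ (s.2 : ℕ)) (y s.1) := fun s => Basis.mk_apply hli' hsp'.ge s
  let φ : V ≃ₗ[F] V' := b.equiv b' (Equiv.refl _)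
  have hφ : ∀ s, φ (b s) = b' s := fun s => by simp [φ]
  refine ⟨φ, ?_, ?_⟩
  · apply form_eq_of_basis hB hB' b φ.toLinearMap
    intro s t
    change B' (φ (b s)) (φ (b t)) = _
    rw [hφ, hφ, hb', hb', hb, hb, hy.gram, hx.gram]
  · have h4 : (φ : V →ₗ[F] V').comp N = N'.comp (φ : V →ₗ[F] V') := by
      apply b.ext
      intro s
      simp only [LinearMap.comp_apply, LinearEquiv.coe_coe]
      rw [hφ, hb, hb', ← Module.End.mul_apply, ← pow_succ', ← Module.End.mul_apply, ← pow_succ']
      by_cases hlt : (s.2 : ℕ) + 1 < d s.1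
      · have h5 := hφ ⟨s.1, ⟨s.2 + 1, hlt⟩⟩
        rw [hb, hb'] at h5
        exact h5
      · have heq : (s.2 : ℕ) + 1 = d s.1 := by
          have := s.2.2
          omega
        rw [heq, hx.kill, hy.kill, map_zero]
    intro v
    exact LinearMap.congr_fun h4 v

end Cfsg.Agent.Lib.Helper64.Uni
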