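import Cfsg.Agent.Lib.Helper96.SpTI
import Cfsg.Agent.Lib.Helper96.SpElem

/-!
# S5955 piece TI-CNT-C (helper64 for helper96): the number of totally isotropic `m`-spaces of a
symplectic space over a finite field of characteristic `p` is prime to `p` (flag counting)
-/

set_option autoImplicit false

namespace Cfsg.Agent.Lib.Helper64.SpTICntC

open Module Cfsg.Agent.Lib.Helper96.Sp

theorem card_sigma_modEq {α : Type*} [Finite α] {β : α → Type*} [∀ a, Finite (β a)] (p : ℕ)
    (h : ∀ a, Nat.card (β a) ≡ 1 [MOD p]) : Nat.card (Σ a, β a) ≡ Nat.card α [MOD p] := by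
  classical
  have := Fintype.ofFinite α
  rw [Nat.card_sigma]
  have h1 : Nat.card α = ∑ _a : α, 1 := by simp [Nat.card_eq_fintype_card]
  rw [h1]
  exact Nat.ModEq.sum (fun a _ => h a)

/-- TI-CNT-C. -/
theorem not_dvd_card_ti {F : Type*} [Field F] [Fintype F] {p : ℕ} [Fact p.Prime] [CharP F p]
    {V : Type*} [AddCommGroup V] [Module F V] [FiniteDimensional F V]
    {B : LinearMap.BilinForm F V} (hA : B.IsAlt) (hN : ND B ⊤)
    (hext : ∀ (W₀ : Submodule F V), Orth B W₀ W₀ → ∀ j : ℕ, finrank F W₀ = j →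
      2 * (j + 1) ≤ finrank F V →
      Nat.card {W₁ : Submodule F V // W₀ ≤ W₁ ∧ finrank F W₁ = j + 1 ∧ Orth B W₁ W₁} ≡ 1 [MOD p])
    (hhyp : ∀ (W₁ : Submodule F V) (j : ℕ), finrank F W₁ = j + 1 →
      Nat.card {W₀ : Submodule F V // W₀ ≤ W₁ ∧ finrank F W₀ = j} ≡ 1 [MOD p])
    (m : ℕ) (hm : 2 * m ≤ finrank F V) :
    ¬ p ∣ Nat.card {W : Submodule F V // finrank F W = m ∧ Orth B W W} := by
  classical
  have hp : p.Prime := Fact.out
  have hfinV : Finite V := Module.finite_of_finite F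
  have key : ∀ j : ℕ, 2 * j ≤ finrank F V →
      Nat.card {W : Submodule F V // finrank F W = j ∧ Orth B W W} ≡ 1 [MOD p] := by
    intro j
    induction j with
    | zero =>
      intro _
      have h0 : Nat.card {W : Submodule F V // finrank F W = 0 ∧ Orth B W W} = 1 := by
        rw [Nat.card_eq_one_iff_unique]
        refine ⟨⟨?_⟩, ⟨⟨⊥, finrank_bot F V, ?_⟩⟩⟩
        · rintro ⟨W, hW, -⟩ ⟨W', hW', -⟩
          apply Subtype.ext
          change W = W'
          rw [Submodule.finrank_eq_zero.mp hW, Submodule.finrank_eq_zero.mp hW']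
        · intro u hu v _
          rw [Submodule.mem_bot] at hu
          rw [hu]
          simp
      rw [h0]
    | succ j ih =>
      intro hj
      have ih' := ih (by omega)
      let Fl := {q : Submodule F V × Submodule F V //
        q.1 ≤ q.2 ∧ finrank F q.1 = j ∧ finrank F q.2 = j + 1 ∧ Orth B q.2 q.2}
      have e1 : Fl ≃ Σ W₁ : {W : Submodule F V // finrank F W = j + 1 ∧ Orth B W W},
          {W₀ : Submodule F V // W₀ ≤ W₁.1 ∧ finrank F W₀ = j} :=
        { toFun := fun q => ⟨⟨q.1.2, q.2.2.2.1, q.2.2.2.2⟩, ⟨q.1.1, q.2.1, q.2.2.1⟩⟩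
          invFun := fun s => ⟨(s.2.1, s.1.1), s.2.2.1, s.2.2.2, s.1.2.1, s.1.2.2⟩
          left_inv := fun q => rfl
          right_inv := fun s => rfl }
      have e2 : Fl ≃ Σ W₀ : {W : Submodule F V // finrank F W = j ∧ Orth B W W},
          {W₁ : Submodule F V // W₀.1 ≤ W₁ ∧ finrank F W₁ = j + 1 ∧ Orth B W₁ W₁} :=
        { toFun := fun q => ⟨⟨q.1.1, q.2.2.1,
              fun u hu v hv => q.2.2.2.2 u (q.2.1 hu) v (q.2.1 hv)⟩,
            ⟨q.1.2, q.2.1, q.2.2.2.1, q.2.2.2.2⟩⟩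
          invFun := fun s => ⟨(s.1.1, s.2.1), s.2.2.1, s.1.2.1, s.2.2.2.1, s.2.2.2.2⟩
          left_inv := fun q => rfl
          right_inv := fun s => rfl }
      have c1 : Nat.card Fl ≡
          Nat.card {W : Submodule F V // finrank F W = j + 1 ∧ Orth B W W} [MOD p] := by
        rw [Nat.card_congr e1]
        exact card_sigma_modEq p (fun W₁ => hhyp W₁.1 j W₁.2.1)
      have c2 : Nat.card Fl ≡
          Nat.card {W : Submodule F V // finrank F W = j ∧ Orth B W W} [MOD p] := by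
        rw [Nat.card_congr e2]
        exact card_sigma_modEq p (fun W₀ => hext W₀.1 W₀.2.2 j W₀.2.1 hj)
      exact (c1.symm.trans c2).trans ih'
  intro hdvd
  have h1 := key m hm
  have h2 : Nat.card {W : Submodule F V // finrank F W = m ∧ Orth B W W} ≡ 0 [MOD p] :=
    (Nat.modEq_zero_iff_dvd).mpr hdvd
  have h3 : (0 : ℕ) ≡ 1 [MOD p] := h2.symm.trans h1
  have h4 := (Nat.modEq_iff_dvd' (by norm_num : 0 ≤ 1)).mp h3
  exact hp.one_lt.ne' (Nat.dvd_one.mp h4)

end Cfsg.Agent.Lib.Helper64.SpTICntC
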