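import Mathlib
import Cfsg.Agent.Lib.Helper22.BFDefs

/-!
# S4503 piece SCONJ (helper64 for helper22): `Str` and `Rk1` are invariant under `z ↦ g z g⁻¹`
-/

set_option autoImplicit false

namespace Cfsg.Agent.Lib.Helper64.BFT

open Cfsg Cfsg.Agent.Lib.Helper22.BFD
open scoped ComplexConjugate

universe u

variable {G : Type u} [Group G] [Fintype G]

omit [Fintype G] in
theorem sconj_isConj_iff (g a b : G) : IsConj (g * a * g⁻¹) (g * b * g⁻¹) ↔ IsConj a b := by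
  have ha : IsConj a (g * a * g⁻¹) := isConj_iff.mpr ⟨g, rfl⟩
  have hb : IsConj b (g * b * g⁻¹) := isConj_iff.mpr ⟨g, rfl⟩
  constructor
  · intro h
    exact ha.trans (h.trans hb.symm)
  · intro h
    exact ha.symm.trans (h.trans hb)

theorem sconj_Ef (p : ℕ) [Fact p.Prime] (z g : G) : Ef p (g * z * g⁻¹) = Ef p z := by
  ext k
  simp only [Ef, Finset.mem_filter, Finset.mem_univ, true_and]
  rw [conj_pow, sconj_isConj_iff]

theorem sconj_mem_Kf (p : ℕ) (z g y : G) :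
    y ∈ Kf p (g * z * g⁻¹) ↔ g⁻¹ * y * g ∈ Kf p z := by
  unfold Kf
  simp only [Finset.mem_filter, Finset.mem_univ, true_and]
  have ho : orderOf (g⁻¹ * y * g) = orderOf y := by
    have h1 := (MulAut.conj g⁻¹).orderOf_eq y
    rw [MulAut.conj_apply, inv_inv] at h1
    exact h1
  rw [ho]
  constructor
  · rintro ⟨h1, h2⟩
    refine ⟨?_, h2⟩
    calc g⁻¹ * y * g * z = g⁻¹ * (y * (g * z * g⁻¹)) * g := by group
      _ = g⁻¹ * (g * z * g⁻¹ * y) * g := by rw [h1]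
      _ = z * (g⁻¹ * y * g) := by group
  · rintro ⟨h1, h2⟩
    refine ⟨?_, h2⟩
    calc y * (g * z * g⁻¹) = g * (g⁻¹ * y * g * z) * g⁻¹ := by group
      _ = g * (z * (g⁻¹ * y * g)) * g⁻¹ := by rw [h1]
      _ = g * z * g⁻¹ * y := by group

omit [Fintype G] in
theorem sconj_sP (p : ℕ) [Fact p.Prime] (z g : G) (φ : G → ℂ)
    (hφ : ∀ x h : G, φ (h * x * h⁻¹) = φ x) : sP p (g * z * g⁻¹) φ = sP p z φ := by
  unfold sP
  refine Finset.sum_congr rfl (fun t _ => ?_)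
  rw [conj_pow, hφ]

/-- PIECE SCONJ (two statements) -/
theorem str_conj (p : ℕ) [Fact p.Prime] (ζ : ℂ) (z g : G) (hz : orderOf z = p) (φ : G → ℂ)
    (hφ : ∀ x h : G, φ (h * x * h⁻¹) = φ x) (h : Str p ζ z φ) : Str p ζ (g * z * g⁻¹) φ := by
  obtain ⟨d, r, e, w, hd, hre, hval, hs⟩ := h
  refine ⟨d, r, e, w, hd, ?_, ?_, ?_⟩
  · rw [sconj_Ef]
    exact hre
  · intro t ht
    rw [conj_pow, hφ]
    exact hval t ht
  · rw [sconj_sP p z g φ hφ]
    exact hs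

theorem rk1_conj (p : ℕ) [Fact p.Prime] (z g : G) (hz : orderOf z = p) (φ : G → ℂ)
    (hφ : ∀ x h : G, φ (h * x * h⁻¹) = φ x) (h : Rk1 p z φ) : Rk1 p (g * z * g⁻¹) φ := by
  obtain ⟨γ, Θ, hr⟩ := h
  refine ⟨γ, fun y => Θ (g⁻¹ * y * g), ?_⟩
  intro t ht y hy
  rw [sconj_Ef]
  rw [sconj_mem_Kf] at hy
  rw [← hr t ht _ hy]
  refine Finset.sum_congr rfl (fun k _ => ?_)
  rw [conj_pow]
  have h1 : g * z ^ (k * t).val * g⁻¹ * y = g * (z ^ (k * t).val * (g⁻¹ * y * g)) * g⁻¹ := by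
    group
  rw [h1, hφ]

end Cfsg.Agent.Lib.Helper64.BFT
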