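import Mathlib
import Cfsg.Agent.Lib.Helper10.BR0
import Cfsg.Agent.Lib.Helper82.CharCore
import Cfsg.Agent.Lib.Helper4.BRX7
import Cfsg.Agent.Lib.Helper85.BRX8

/-!
# S0997 piece BW-C1 (helper5's project; written by helper64)

The character sum `Σ_ψ ψ(w)² conj(ψ x) / ψ(1)` split by blocks in the self-centralizing case.
-/

set_option autoImplicit false

namespace Cfsg.Agent.Lib.Helper5.BW

open Cfsg
open Cfsg.Agent.Lib.Helper83 (trivIrr)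
open Cfsg.Agent.Lib.Helper10.BR (DOut)
open scoped ComplexConjugate

/-- BW-C1 -/
theorem br_formula {G : Type*} [Group G] [Fintype G] (p : ℕ) [Fact p.Prime] (M : Ideal AlgInt)
    (hM : IsPModular p M) (P : Sylow p G) (hP : Nat.card P = p)
    (hCP : Subgroup.centralizer ((P : Subgroup G) : Set G) = (P : Subgroup G)) (e : ℕ)
    (X Y : Set (IrrCharacter G)) (εX : IrrCharacter G → ℤ) (ε : ℤ)
    (hD : DOut G p M (P : Subgroup G) e X Y εX ε)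
    (hsumY : ∀ x ∈ (P : Subgroup G), x ≠ 1 → ∑ᶠ θ ∈ Y, (θ : G → ℂ) x = -(ε : ℂ))
    (θ₀ : IrrCharacter G) (hθ₀ : θ₀ ∈ Y) (x : G) (hx : x ∈ (P : Subgroup G)) (hx1 : x ≠ 1)
    (w : G) (hw : ¬ p ∣ orderOf w) :
    ∑ᶠ ψ : IrrCharacter G, (ψ : G → ℂ) w * (ψ : G → ℂ) w * conj ((ψ : G → ℂ) x) / (ψ : G → ℂ) 1 =
      ∑ᶠ χ ∈ X, (εX χ : ℂ) * ((χ : G → ℂ) w * (χ : G → ℂ) w) / (χ : G → ℂ) 1
        - (ε : ℂ) * ((θ₀ : G → ℂ) w * (θ₀ : G → ℂ) w) / (θ₀ : G → ℂ) 1 := by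
  classical
  have hp : p.Prime := Fact.out
  have hfin : Finite (IrrCharacter G) := Cfsg.Agent.Lib.Helper82.finite_irrCharacter G
  have hft : Fintype (IrrCharacter G) := Fintype.ofFinite _
  have hox : p ∣ orderOf x := by
    have h1 : orderOf (⟨x, hx⟩ : (P : Subgroup G)) ∣ p := by
      have h0 := orderOf_dvd_natCard (⟨x, hx⟩ : (P : Subgroup G))
      rwa [hP] at h0
    have h2 : orderOf (⟨x, hx⟩ : (P : Subgroup G)) = orderOf x := Subgroup.orderOf_mk x hx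
    rw [h2] at h1
    rcases (Nat.dvd_prime hp).1 h1 with h | h
    · exact absurd (orderOf_eq_one_iff.1 h) hx1
    · rw [h]
  have hone : ¬ p ∣ orderOf (1 : G) := by
    rw [orderOf_one, Nat.dvd_one]; exact hp.ne_one
  have hXval : ∀ χ ∈ X, (χ : G → ℂ) x = (εX χ : ℂ) := by
    intro χ hχ
    have := hD.valX χ hχ x hx hx1 1 (Subgroup.one_mem _) hone
    rwa [mul_one] at this
  have hYw : ∀ θ ∈ Y, (θ : G → ℂ) w = (θ₀ : G → ℂ) w :=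
    fun θ hθ => hD.regY θ hθ θ₀ hθ₀ w hw
  have hY1 : ∀ θ ∈ Y, (θ : G → ℂ) 1 = (θ₀ : G → ℂ) 1 :=
    fun θ hθ => hD.regY θ hθ θ₀ hθ₀ 1 hone
  have hrest : ∀ ψ : IrrCharacter G, ψ ∉ X → ψ ∉ Y → (ψ : G → ℂ) x = 0 := by
    intro ψ hψX hψY
    have hdvd : p ∣ charDegree (ψ : G → ℂ) := by
      by_contra hnd
      have hmem :=
        Cfsg.Agent.Lib.Helper10.BR.mem_principal_of_self_centralizing p M hM P hP hCP ψ hnd
      rw [hD.block] at hmem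
      rcases hmem with h | h
      · exact hψX h
      · exact hψY h
    exact Cfsg.Agent.Lib.Helper10.BR.vanish_of_dvd p P hP ψ hdvd x hox
  rw [finsum_eq_sum_of_fintype]
  have hXs : ∑ᶠ χ ∈ X, (εX χ : ℂ) * ((χ : G → ℂ) w * (χ : G → ℂ) w) / (χ : G → ℂ) 1 =
      ∑ χ ∈ X.toFinset, (εX χ : ℂ) * ((χ : G → ℂ) w * (χ : G → ℂ) w) / (χ : G → ℂ) 1 := by
    rw [← finsum_mem_coe_finset, Set.coe_toFinset]
  have hYs' : ∑ θ ∈ Y.toFinset, (θ : G → ℂ) x = -(ε : ℂ) := by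
    rw [← hsumY x hx hx1, ← finsum_mem_coe_finset, Set.coe_toFinset]
  rw [hXs]
  have hdisj : Disjoint X.toFinset Y.toFinset := Set.disjoint_toFinset.2 hD.disj
  rw [← Finset.sum_sdiff (Finset.subset_univ (X.toFinset ∪ Y.toFinset)), Finset.sum_union hdisj]
  have h3 : ∑ ψ ∈ Finset.univ \ (X.toFinset ∪ Y.toFinset),
      (ψ : G → ℂ) w * (ψ : G → ℂ) w * conj ((ψ : G → ℂ) x) / (ψ : G → ℂ) 1 = 0 := by
    apply Finset.sum_eq_zero
    intro ψ hψ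
    rw [Finset.mem_sdiff, Finset.mem_union, Set.mem_toFinset, Set.mem_toFinset] at hψ
    have h0 := hrest ψ (fun h => hψ.2 (Or.inl h)) (fun h => hψ.2 (Or.inr h))
    rw [h0]; simp
  have h1 : ∑ ψ ∈ X.toFinset,
      (ψ : G → ℂ) w * (ψ : G → ℂ) w * conj ((ψ : G → ℂ) x) / (ψ : G → ℂ) 1 =
      ∑ χ ∈ X.toFinset, (εX χ : ℂ) * ((χ : G → ℂ) w * (χ : G → ℂ) w) / (χ : G → ℂ) 1 := by
    apply Finset.sum_congr rfl
    intro χ hχ
    rw [Set.mem_toFinset] at hχ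
    rw [hXval χ hχ, map_intCast]
    ring
  have h2 : ∑ ψ ∈ Y.toFinset,
      (ψ : G → ℂ) w * (ψ : G → ℂ) w * conj ((ψ : G → ℂ) x) / (ψ : G → ℂ) 1 =
      -((ε : ℂ) * ((θ₀ : G → ℂ) w * (θ₀ : G → ℂ) w) / (θ₀ : G → ℂ) 1) := by
    have hterm : ∀ ψ ∈ Y.toFinset,
        (ψ : G → ℂ) w * (ψ : G → ℂ) w * conj ((ψ : G → ℂ) x) / (ψ : G → ℂ) 1 =
        ((θ₀ : G → ℂ) w * (θ₀ : G → ℂ) w / (θ₀ : G → ℂ) 1) * conj ((ψ : G → ℂ) x) := by
      intro ψ hψ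
      rw [Set.mem_toFinset] at hψ
      rw [hYw ψ hψ, hY1 ψ hψ]; ring
    rw [Finset.sum_congr rfl hterm, ← Finset.mul_sum, ← map_sum, hYs', map_neg,
      map_intCast]
    ring
  rw [h1, h2, h3]; ring

end Cfsg.Agent.Lib.Helper5.BW
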