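import Mathlib
import Cfsg.Prelude.Def_GeometricClasses
import Cfsg.Prelude.Def_ClassicalGeometry
import Cfsg.Agent.Lib.Helper98.F75Defs

/-!
S5975 piece F75-AUT0 (helper98's project; written by helper64): an element of the normaliser of a
field subalgebra `K` (with model `ρ : L →ₐ[F] Mat`) induces an `F`-algebra automorphism of `L`.
-/

set_option autoImplicit false

universe u

namespace Cfsg.Agent.Lib.Helper98.F75

open Matrix Polynomial

theorem exists_aut_of_normalizer {F : Type*} [Field F] {ι : Type} [Fintype ι] [DecidableEq ι]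
    {L : Type*} [Field L] [Algebra F L] (K : Subalgebra F (Matrix ι ι F))
    (ρ : L →ₐ[F] Matrix ι ι F) (hρ : ∀ a : Matrix ι ι F, a ∈ K ↔ ∃ c : L, ρ c = a)
    (y : GL ι F) (hy : y ∈ Cfsg.Geo.subalgebraNormalizer K) :
    ∃ τ : L ≃ₐ[F] L, ∀ c : L, (y : Matrix ι ι F) * ρ c = ρ (τ c) * (y : Matrix ι ι F) := by
  rcases isEmpty_or_nonempty ι with hι | hι
  · exact ⟨AlgEquiv.refl, fun c => Subsingleton.elim _ _⟩
  have hinj : Function.Injective ρ := (ρ : L →+* Matrix ι ι F).injective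
  have hYYi : (y : Matrix ι ι F) * ((y⁻¹ : GL ι F) : Matrix ι ι F) = 1 := by
    rw [← Units.val_mul, mul_inv_cancel, Units.val_one]
  have hYiY : ((y⁻¹ : GL ι F) : Matrix ι ι F) * (y : Matrix ι ι F) = 1 := by
    rw [← Units.val_mul, inv_mul_cancel, Units.val_one]
  have hy' : ∀ k : Matrix ι ι F, k ∈ K ↔
      (y : Matrix ι ι F) * k * ((y⁻¹ : GL ι F) : Matrix ι ι F) ∈ K := hy
  have hex : ∀ c : L, ∃ c' : L,
      ρ c' = (y : Matrix ι ι F) * ρ c * ((y⁻¹ : GL ι F) : Matrix ι ι F) := fun c =>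
    (hρ _).1 ((hy' (ρ c)).1 ((hρ _).2 ⟨c, rfl⟩))
  choose t ht using hex
  have hconj_mul : ∀ a b : Matrix ι ι F,
      (y : Matrix ι ι F) * (a * b) * ((y⁻¹ : GL ι F) : Matrix ι ι F) =
        ((y : Matrix ι ι F) * a * ((y⁻¹ : GL ι F) : Matrix ι ι F)) *
          ((y : Matrix ι ι F) * b * ((y⁻¹ : GL ι F) : Matrix ι ι F)) := by
    intro a b
    calc (y : Matrix ι ι F) * (a * b) * ((y⁻¹ : GL ι F) : Matrix ι ι F)
        = (y : Matrix ι ι F) * a * 1 * b * ((y⁻¹ : GL ι F) : Matrix ι ι F) := by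
          simp [mul_assoc]
      _ = ((y : Matrix ι ι F) * a * ((y⁻¹ : GL ι F) : Matrix ι ι F)) *
          ((y : Matrix ι ι F) * b * ((y⁻¹ : GL ι F) : Matrix ι ι F)) := by
          rw [← hYiY]; simp only [mul_assoc]
  have h1 : t 1 = 1 := by
    apply hinj
    rw [ht, map_one, mul_one, hYYi]
  have hmul : ∀ a b : L, t (a * b) = t a * t b := by
    intro a b
    apply hinj
    rw [ht, map_mul, map_mul, ht, ht, hconj_mul]
  have hadd : ∀ a b : L, t (a + b) = t a + t b := by
    intro a b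
    apply hinj
    rw [ht, map_add, map_add, ht, ht, mul_add, add_mul]
  have h0 : t 0 = 0 := by
    apply hinj
    rw [ht, map_zero, mul_zero, zero_mul]
  have hcomm : ∀ a : F, t (algebraMap F L a) = algebraMap F L a := by
    intro a
    apply hinj
    rw [ht, AlgHom.commutes]
    have hc : (y : Matrix ι ι F) * algebraMap F (Matrix ι ι F) a =
        algebraMap F (Matrix ι ι F) a * (y : Matrix ι ι F) :=
      (Algebra.commutes a (y : Matrix ι ι F)).symm
    rw [hc, mul_assoc, hYYi, mul_one]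
  let τ₀ : L →ₐ[F] L :=
    { toFun := t
      map_one' := h1
      map_mul' := hmul
      map_zero' := h0
      map_add' := hadd
      commutes' := hcomm }
  have hτ₀ : ∀ c, τ₀ c = t c := fun c => rfl
  have hbij : Function.Bijective τ₀ := by
    constructor
    · intro a b hab
      rw [hτ₀, hτ₀] at hab
      apply hinj
      have h2 : (y : Matrix ι ι F) * ρ a * ((y⁻¹ : GL ι F) : Matrix ι ι F) =
          (y : Matrix ι ι F) * ρ b * ((y⁻¹ : GL ι F) : Matrix ι ι F) := by
        rw [← ht, ← ht, hab]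
      calc ρ a = ((y⁻¹ : GL ι F) : Matrix ι ι F) *
            ((y : Matrix ι ι F) * ρ a * ((y⁻¹ : GL ι F) : Matrix ι ι F)) * (y : Matrix ι ι F) := by
            rw [mul_assoc (y : Matrix ι ι F), ← mul_assoc ((y⁻¹ : GL ι F) : Matrix ι ι F), hYiY,
              one_mul, mul_assoc, hYiY, mul_one]
        _ = ((y⁻¹ : GL ι F) : Matrix ι ι F) *
            ((y : Matrix ι ι F) * ρ b * ((y⁻¹ : GL ι F) : Matrix ι ι F)) * (y : Matrix ι ι F) := by
            rw [h2]
        _ = ρ b := by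
            rw [mul_assoc (y : Matrix ι ι F), ← mul_assoc ((y⁻¹ : GL ι F) : Matrix ι ι F), hYiY,
              one_mul, mul_assoc, hYiY, mul_one]
    · intro c
      have h2 : ((y⁻¹ : GL ι F) : Matrix ι ι F) * ρ c * (y : Matrix ι ι F) ∈ K := by
        rw [hy']
        have : (y : Matrix ι ι F) * (((y⁻¹ : GL ι F) : Matrix ι ι F) * ρ c * (y : Matrix ι ι F)) *
            ((y⁻¹ : GL ι F) : Matrix ι ι F) = ρ c := by
          rw [mul_assoc ((y⁻¹ : GL ι F) : Matrix ι ι F), ← mul_assoc (y : Matrix ι ι F), hYYi,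
            one_mul, mul_assoc, hYYi, mul_one]
        rw [this]
        exact (hρ _).2 ⟨c, rfl⟩
      obtain ⟨c'', hc''⟩ := (hρ _).1 h2
      refine ⟨c'', ?_⟩
      rw [hτ₀]
      apply hinj
      rw [ht, hc'', mul_assoc ((y⁻¹ : GL ι F) : Matrix ι ι F), ← mul_assoc (y : Matrix ι ι F), hYYi,
        one_mul, mul_assoc, hYYi, mul_one]
  refine ⟨AlgEquiv.ofBijective τ₀ hbij, fun c => ?_⟩
  have h3 : (AlgEquiv.ofBijective τ₀ hbij) c = t c := rfl
  rw [h3, ht, mul_assoc, hYiY, mul_one]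

end Cfsg.Agent.Lib.Helper98.F75
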