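import Mathlib

set_option autoImplicit false

/-!
Group-ring lifting for fixed-point-free modules (helper64).

`nrm R a = ∑_{i < orderOf a} a^i ∈ R[G]`, `idl R T` = left ideal generated by the `nrm R a`, `a ∈ T`.
Main result `no_int_mem`: if `T` is conjugation invariant, `p ∤ |G|` and `1 ∉ idl (ZMod p) T`, then
no nonzero integer lies in `idl ℤ T`, and `one_notMem_zmod`: `1 ∉ idl (ZMod r) T` for every prime `r`.
-/

namespace Cfsg.Agent.Lib.Helper64.FrobLift

open MonoidAlgebra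

universe u

variable {G : Type u} [Group G]

/-- The norm element `1 + a + ... + a^(n-1)` of `a`, `n = orderOf a`. -/
noncomputable def nrm (R : Type*) [Semiring R] (a : G) : MonoidAlgebra R G :=
  ∑ i ∈ Finset.range (orderOf a), MonoidAlgebra.of R G (a ^ i)

/-- The left ideal generated by the norm elements of the elements of `T`. -/
noncomputable def idl (R : Type*) [Ring R] (T : Set G) : Ideal (MonoidAlgebra R G) :=
  Ideal.span ((nrm R) '' T)

theorem nrm_mem {R : Type*} [Ring R] {T : Set G} {a : G} (ha : a ∈ T) : nrm R a ∈ idl R T :=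
  Ideal.subset_span ⟨a, ha, rfl⟩

theorem of_mul_nrm [Finite G] (R : Type*) [Semiring R] (a : G) :
    MonoidAlgebra.of R G a * nrm R a = nrm R a := by
  unfold nrm
  rw [Finset.mul_sum]
  have h1 : ∀ i ∈ Finset.range (orderOf a),
      MonoidAlgebra.of R G a * MonoidAlgebra.of R G (a ^ i) = MonoidAlgebra.of R G (a ^ (i + 1)) := by
    intro i _
    rw [← map_mul, pow_succ']
  rw [Finset.sum_congr rfl h1]
  have hpos : 0 < orderOf a := orderOf_pos a
  obtain ⟨n, hn⟩ : ∃ n, orderOf a = n + 1 := ⟨orderOf a - 1, by omega⟩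
  rw [hn, Finset.sum_range_succ, Finset.sum_range_succ']
  rw [← hn, pow_orderOf_eq_one, pow_zero]

theorem of_pow_mul_nrm [Finite G] (R : Type*) [Semiring R] (a : G) (i : ℕ) :
    MonoidAlgebra.of R G (a ^ i) * nrm R a = nrm R a := by
  induction i with
  | zero => rw [pow_zero, map_one, one_mul]
  | succ i ih => rw [pow_succ, map_mul, mul_assoc, of_mul_nrm, ih]

theorem nrm_mul_nrm [Finite G] (R : Type*) [Semiring R] (a : G) :
    nrm R a * nrm R a = orderOf a • nrm R a := by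
  have h : nrm R a * nrm R a
      = ∑ i ∈ Finset.range (orderOf a), MonoidAlgebra.of R G (a ^ i) * nrm R a := by
    rw [← Finset.sum_mul]; rfl
  rw [h, Finset.sum_congr rfl (fun i _ => of_pow_mul_nrm R a i)]
  simp

theorem nrm_mul_of (R : Type*) [Semiring R] (a g : G) :
    nrm R a * MonoidAlgebra.of R G g = MonoidAlgebra.of R G g * nrm R (g⁻¹ * a * g) := by
  unfold nrm
  have ho : orderOf (g⁻¹ * a * g) = orderOf a := by
    have : g⁻¹ * a * g = MulAut.conj g⁻¹ a := by simp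
    rw [this]
    exact MulEquiv.orderOf_eq _ _
  rw [ho, Finset.sum_mul, Finset.mul_sum]
  refine Finset.sum_congr rfl fun i _ => ?_
  rw [← map_mul, ← map_mul]
  congr 1
  have : (g⁻¹ * a * g) ^ i = g⁻¹ * a ^ i * g := by
    have h := conj_pow (a := g⁻¹) (b := a) (i := i)
    simpa using h
  rw [this]
  group

/-- If `T` is conjugation invariant, `idl R T` is also a right ideal. -/
theorem idl_mul_mem {R : Type*} [CommRing R] {T : Set G} (hT : ∀ a ∈ T, ∀ g : G, g⁻¹ * a * g ∈ T)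
    {x : MonoidAlgebra R G} (hx : x ∈ idl R T) (y : MonoidAlgebra R G) : x * y ∈ idl R T := by
  induction y using MonoidAlgebra.induction_on with
  | of g =>
    unfold idl at hx ⊢
    induction hx using Submodule.span_induction with
    | mem z hz =>
      obtain ⟨a, ha, rfl⟩ := hz
      rw [nrm_mul_of]
      exact Ideal.mul_mem_left _ _ (Ideal.subset_span ⟨_, hT a ha g, rfl⟩)
    | zero => simp
    | add z w _ _ hz hw => rw [add_mul]; exact Ideal.add_mem _ hz hw
    | smul c z _ hz => rw [smul_eq_mul, mul_assoc]; exact Ideal.mul_mem_left _ _ hz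
  | add y z hy hz => rw [mul_add]; exact Ideal.add_mem _ hy hz
  | smul r y hy =>
    rw [mul_smul_comm]
    exact Submodule.smul_of_tower_mem _ r hy


section Reduction

/-- reduction of coefficients mod `p` -/
noncomputable def red (G : Type u) [Group G] (p : ℕ) :
    MonoidAlgebra ℤ G →+* MonoidAlgebra (ZMod p) G :=
  MonoidAlgebra.mapRingHom G (Int.castRingHom (ZMod p))

theorem red_nrm (p : ℕ) (a : G) : red G p (nrm ℤ a) = nrm (ZMod p) a := by
  unfold nrm red
  rw [map_sum]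
  refine Finset.sum_congr rfl fun i _ => ?_
  simp [MonoidAlgebra.of_apply]

theorem red_surjective (p : ℕ) : Function.Surjective (red G p) := by
  intro x
  induction x using MonoidAlgebra.induction_on with
  | of g => exact ⟨MonoidAlgebra.of ℤ G g, by simp [red, MonoidAlgebra.of_apply]⟩
  | add x y hx hy =>
    obtain ⟨x', rfl⟩ := hx
    obtain ⟨y', rfl⟩ := hy
    exact ⟨x' + y', map_add _ _ _⟩
  | smul r x hx =>
    obtain ⟨x', rfl⟩ := hx
    obtain ⟨k, rfl⟩ := ZMod.intCast_surjective r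
    refine ⟨k • x', ?_⟩
    rw [map_zsmul, ← Int.cast_smul_eq_zsmul (ZMod p)]

theorem red_eq_zero (p : ℕ) {x : MonoidAlgebra ℤ G} (hx : red G p x = 0) :
    ∃ y : MonoidAlgebra ℤ G, x = (p : ℤ) • y := by
  refine ⟨MonoidAlgebra.ofCoeff (x.coeff.mapRange (fun n => n / (p : ℤ)) (by simp)), ?_⟩
  ext g
  have h := congrArg (fun z => z.coeff g) hx
  simp only [red, MonoidAlgebra.coeff_mapRingHom, MonoidAlgebra.coeff_zero, Finsupp.coe_zero,
    Pi.zero_apply, eq_intCast] at h
  rw [ZMod.intCast_zmod_eq_zero_iff_dvd] at h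
  rw [MonoidAlgebra.coeff_smul_apply, MonoidAlgebra.coeff_ofCoeff, Finsupp.mapRange_apply,
    smul_eq_mul, Int.mul_ediv_cancel' h]

theorem red_smul (p : ℕ) (y : MonoidAlgebra ℤ G) : red G p ((p : ℤ) • y) = 0 := by
  rw [map_zsmul, ← Int.cast_smul_eq_zsmul (ZMod p), Int.cast_natCast, ZMod.natCast_self, zero_smul]

theorem red_mem {p : ℕ} {T : Set G} {x : MonoidAlgebra ℤ G} (hx : x ∈ idl ℤ T) :
    red G p x ∈ idl (ZMod p) T := by
  unfold idl at hx
  induction hx using Submodule.span_induction with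
  | mem z hz =>
    obtain ⟨a, ha, rfl⟩ := hz
    rw [red_nrm]
    exact nrm_mem ha
  | zero => simp
  | add z w _ _ hz hw => rw [map_add]; exact Ideal.add_mem _ hz hw
  | smul c z _ hz => rw [smul_eq_mul, map_mul]; exact Ideal.mul_mem_left _ _ hz

theorem exists_red_eq {p : ℕ} {T : Set G} {x : MonoidAlgebra (ZMod p) G}
    (hx : x ∈ idl (ZMod p) T) : ∃ i ∈ idl ℤ T, red G p i = x := by
  unfold idl at hx
  induction hx using Submodule.span_induction with
  | mem z hz =>
    obtain ⟨a, ha, rfl⟩ := hz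
    exact ⟨nrm ℤ a, nrm_mem ha, red_nrm p a⟩
  | zero => exact ⟨0, Ideal.zero_mem _, map_zero _⟩
  | add z w _ _ hz hw =>
    obtain ⟨i, hi, rfl⟩ := hz
    obtain ⟨j, hj, rfl⟩ := hw
    exact ⟨i + j, Ideal.add_mem _ hi hj, map_add _ _ _⟩
  | smul c z _ hz =>
    obtain ⟨i, hi, rfl⟩ := hz
    obtain ⟨c', rfl⟩ := red_surjective p c
    exact ⟨c' * i, Ideal.mul_mem_left _ _ hi, map_mul _ _ _⟩

end Reduction

/-- Maschke: every left ideal of `k[G]` is generated by a right identity. -/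
theorem exists_idem [Finite G] (k : Type*) [Field k] [NeZero (Nat.card G : k)]
    (I : Ideal (MonoidAlgebra k G)) : ∃ e ∈ I, ∀ x ∈ I, x * e = x := by
  obtain ⟨q, hq⟩ := MonoidAlgebra.Submodule.exists_isCompl (k := k) (G := G) I
  have h1 : (1 : MonoidAlgebra k G) ∈ I ⊔ q := by rw [hq.sup_eq_top]; trivial
  obtain ⟨e, he, c, hc, hec⟩ := Submodule.mem_sup.mp h1
  refine ⟨e, he, fun x hx => ?_⟩
  have h2 : x * c ∈ q := q.smul_mem x hc
  have h4 : x * c = x - x * e := by rw [eq_sub_iff_add_eq', ← mul_add, hec, mul_one]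
  have h3 : x * c ∈ I := by
    rw [h4]
    exact Ideal.sub_mem _ hx (Ideal.mul_mem_left _ x he)
  have h5 : x * c = 0 := by
    have : x * c ∈ I ⊓ q := ⟨h3, h2⟩
    rw [hq.inf_eq_bot] at this
    simpa using this
  rw [h5] at h4
  exact (sub_eq_zero.mp h4.symm).symm

section Key

variable {Λ : Type*} [Ring Λ]

theorem newton_id1 (f : Λ) :
    (3 * (f * f) - 2 * (f * f * f)) - f = -((f * f - f) * (2 * f - 1)) := by noncomm_ring

theorem newton_id2 (f : Λ) :
    (3 * (f * f) - 2 * (f * f * f)) * (3 * (f * f) - 2 * (f * f * f))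
        - (3 * (f * f) - 2 * (f * f * f))
      = (f * f - f) * (f * f - f) * (4 * (f * f) - 4 * f - 3) := by noncomm_ring

theorem newton (I : Ideal Λ) (p : ℤ) (e : Λ) (he : e ∈ I) (hee : ∃ y, e * e - e = p • y) (k : ℕ) :
    ∃ f ∈ I, (∃ y, f - e = p • y) ∧ ∃ w, f * f - f = (p ^ (k + 1)) • w := by
  induction k with
  | zero => exact ⟨e, he, ⟨0, by simp⟩, by simpa using hee⟩
  | succ k ih =>
    obtain ⟨f, hf, ⟨y, hy⟩, d, hd⟩ := ih
    refine ⟨3 * (f * f) - 2 * (f * f * f), ?_, ?_, ?_⟩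
    · have : 3 * (f * f) - 2 * (f * f * f) = (3 * f - 2 * (f * f)) * f := by noncomm_ring
      rw [this]
      exact Ideal.mul_mem_left _ _ hf
    · refine ⟨-(p ^ k • (d * (2 * f - 1))) + y, ?_⟩
      have h1 : 3 * (f * f) - 2 * (f * f * f) - e
          = (3 * (f * f) - 2 * (f * f * f) - f) + (f - e) := by abel
      rw [h1, newton_id1, hd, hy, smul_mul_assoc]
      module
    · refine ⟨p ^ k • (d * d * (4 * (f * f) - 4 * f - 3)), ?_⟩
      rw [newton_id2, hd]
      simp only [smul_mul_assoc, mul_smul_comm]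
      module


theorem key (I : Ideal Λ) (hI : ∀ x ∈ I, ∀ y, x * y ∈ I) (S : Set Λ) (hS : I = Ideal.span S)
    (p : ℤ) (hp : p ≠ 0)
    (htf : ∀ n : ℤ, n ≠ 0 → ∀ y : Λ, n • y = 0 → y = 0)
    (hSn : ∀ N ∈ S, ∃ n : ℤ, IsCoprime n p ∧ N * N = n • N)
    (e : Λ) (he : e ∈ I) (hex : ∀ x ∈ I, ∃ y, x - x * e = p • y)
    (j : ℕ) (i : Λ) (hi : i ∈ I) (y : Λ) (hj : (p ^ j) • (1 : Λ) = i + (p ^ (j + 1)) • y) :
    ∃ z, 1 - e = p • z := by
  obtain ⟨y0, hy0⟩ := hex e he
  obtain ⟨f, hf, ⟨y1, hy1⟩, w, hw⟩ :=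
    newton I p e he ⟨-y0, by rw [smul_neg, ← hy0]; abel⟩ j
  have hg : (1 - f) * (1 - f) - (1 - f) = (p ^ (j + 1)) • w := by
    rw [← hw]; noncomm_ring
  have P1 : ∀ x ∈ I, ∃ y, x * (1 - f) = p • y := by
    intro x hx
    obtain ⟨y2, hy2⟩ := hex x hx
    refine ⟨y2 - x * y1, ?_⟩
    have : x * (1 - f) = (x - x * e) - x * (f - e) := by noncomm_ring
    rw [this, hy2, hy1, mul_smul_comm, smul_sub]
  have P : ∀ t : ℕ, t ≤ j → ∀ x ∈ I, ∃ y, x * (1 - f) = (p ^ (t + 1)) • y := by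
    intro t
    induction t with
    | zero =>
      intro _ x hx
      obtain ⟨y, hy⟩ := P1 x hx
      exact ⟨y, by rw [hy]; simp⟩
    | succ t ih =>
      intro ht x hx
      have iht := ih (by omega)
      rw [hS] at hx
      induction hx using Submodule.span_induction with
      | mem N hN =>
        obtain ⟨n, hn, hNN⟩ := hSn N hN
        have hNI : N ∈ I := hS ▸ Ideal.subset_span hN
        obtain ⟨y2, hy2⟩ := iht N hNI
        have h1 : y2 * (1 - f) = y2 + (p ^ (j - t)) • (N * w) := by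
          have h2 : (p ^ (t + 1)) • (y2 * (1 - f) - (y2 + (p ^ (j - t)) • (N * w))) = 0 := by
            have h3 : N * (1 - f) * (1 - f)
                = N * (1 - f) + N * ((1 - f) * (1 - f) - (1 - f)) := by noncomm_ring
            rw [hg, hy2] at h3
            have h4 : (p : ℤ) ^ (j + 1) = p ^ (t + 1) * p ^ (j - t) := by
              rw [← pow_add]; congr 1; omega
            rw [smul_mul_assoc, mul_smul_comm, h4, mul_smul] at h3
            rw [smul_sub, smul_add, h3]; abel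
          exact sub_eq_zero.mp (htf _ (pow_ne_zero _ hp) _ h2)
        obtain ⟨y3, hy3⟩ := P1 (N * y2) (hI N hNI y2)
        have h5 : N * y2 = p • (y3 - (p ^ (j - t - 1)) • (N * (N * w))) := by
          have h6 : N * y2 = N * y2 * (1 - f) - N * ((p ^ (j - t)) • (N * w)) := by
            rw [mul_assoc, h1]; noncomm_ring
          have h7 : (p : ℤ) ^ (j - t) = p * p ^ (j - t - 1) := by
            rw [← pow_succ']; congr 1; omega
          rw [h6, hy3, mul_smul_comm, h7, mul_smul, smul_sub]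
        have hn' : IsCoprime n (p ^ (j + 1)) := hn.pow_right
        obtain ⟨s, c, hsc⟩ := hn'
        refine ⟨s • (y3 - (p ^ (j - t - 1)) • (N * (N * w)))
          + (p ^ (j - t - 1)) • (c • (N * (1 - f))), ?_⟩
        have h8 : N * (1 - f) = s • (N * (N * (1 - f))) + (c * p ^ (j + 1)) • (N * (1 - f)) := by
          rw [← mul_assoc, hNN, smul_mul_assoc, smul_smul, ← add_smul, hsc, one_smul]
        have h9 : (p : ℤ) ^ (j + 1) = p ^ (t + 1 + 1) * p ^ (j - t - 1) := by
          rw [← pow_add]; congr 1; omega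
        have h10 : N * (N * (1 - f)) = (p ^ (t + 1 + 1)) • (y3 - (p ^ (j - t - 1)) • (N * (N * w))) := by
          rw [hy2, mul_smul_comm, h5, smul_smul]
          congr 1
          ring
        refine h8.trans ?_
        rw [h10, h9]
        module
      | zero => exact ⟨0, by simp⟩
      | add a b _ _ ha hb =>
        obtain ⟨ya, hya⟩ := ha
        obtain ⟨yb, hyb⟩ := hb
        exact ⟨ya + yb, by rw [add_mul, hya, hyb, smul_add]⟩
      | smul c a _ ha =>
        obtain ⟨ya, hya⟩ := ha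
        exact ⟨c * ya, by rw [smul_eq_mul, mul_assoc, hya, mul_smul_comm]⟩
  obtain ⟨y5, hy5⟩ := P j le_rfl i hi
  have h10 : (p ^ j) • ((1 - f) - p • (y5 + y * (1 - f))) = 0 := by
    have h11 : ((p ^ j) • (1 : Λ)) * (1 - f)
        = i * (1 - f) + ((p ^ (j + 1)) • y) * (1 - f) := by rw [hj, add_mul]
    rw [smul_mul_assoc, one_mul, hy5, smul_mul_assoc] at h11
    rw [smul_sub, h11]
    module
  have h12 := sub_eq_zero.mp (htf _ (pow_ne_zero _ hp) _ h10)
  refine ⟨y5 + y * (1 - f) + y1, ?_⟩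
  have h14 : 1 - e = (1 - f) + (f - e) := by abel
  have h13 : 1 - f + (f - e) = p • (y5 + y * (1 - f)) + p • y1 := by
    rw [hy1]
    exact congrArg (· + p • y1) h12
  rw [h14, h13, ← smul_add]

end Key

section Main

theorem tf_int (n : ℤ) (hn : n ≠ 0) (y : MonoidAlgebra ℤ G) (h : n • y = 0) : y = 0 := by
  ext g
  have h1 := congrArg (fun z => z.coeff g) h
  simp only [MonoidAlgebra.coeff_smul_apply, smul_eq_mul, MonoidAlgebra.coeff_zero,
    Finsupp.coe_zero, Pi.zero_apply, mul_eq_zero] at h1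
  simpa using h1.resolve_left hn

variable [Finite G]

/-- Main lifting theorem: if `T` is conjugation invariant, `p ∤ |G|` and `1 ∉ idl (ZMod p) T`,
then no nonzero integer lies in `idl ℤ T`. -/
theorem no_int_mem {T : Set G} (hT : ∀ a ∈ T, ∀ g : G, g⁻¹ * a * g ∈ T) (p : ℕ) [Fact p.Prime]
    (hp : ¬ p ∣ Nat.card G) (h1 : (1 : MonoidAlgebra (ZMod p) G) ∉ idl (ZMod p) T)
    (m : ℤ) (hm : m ≠ 0) : (m : MonoidAlgebra ℤ G) ∉ idl ℤ T := by
  intro hmem
  have : NeZero (Nat.card G : ZMod p) := ⟨by rwa [Ne, ZMod.natCast_eq_zero_iff]⟩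
  obtain ⟨ebar, hebar, hebar2⟩ := exists_idem (ZMod p) (idl (ZMod p) T)
  obtain ⟨e, he, rfl⟩ := exists_red_eq hebar
  have hex : ∀ x ∈ idl ℤ T, ∃ y, x - x * e = (p : ℤ) • y := by
    intro x hx
    apply red_eq_zero
    rw [map_sub, map_mul, hebar2 _ (red_mem hx), sub_self]
  have hpp := (Fact.out : p.Prime)
  obtain ⟨j, m', hm', hmm⟩ :=
    Nat.exists_eq_pow_mul_and_not_dvd (Int.natAbs_ne_zero.mpr hm) p hpp.ne_one
  have hcop : IsCoprime (m' : ℤ) (p : ℤ) := by
    rw [Nat.isCoprime_iff_coprime]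
    exact (Nat.Coprime.symm ((Nat.Prime.coprime_iff_not_dvd hpp).mpr hm'))
  obtain ⟨s, c, hsc⟩ := hcop
  have habs : ((m.natAbs : ℤ) : MonoidAlgebra ℤ G) ∈ idl ℤ T := by
    rcases Int.natAbs_eq m with h | h
    · rw [← h]; exact hmem
    · have : ((m.natAbs : ℤ) : MonoidAlgebra ℤ G) = -(m : MonoidAlgebra ℤ G) := by
        rw [← Int.cast_neg]; congr 1; omega
      rw [this]; exact (Submodule.neg_mem_iff _).mpr hmem
  have hk := key (idl ℤ T) (fun x hx y => idl_mul_mem hT hx y) (nrm ℤ '' T) rfl (p : ℤ)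
    (by exact_mod_cast hpp.ne_zero) tf_int ?_ e he hex j
    (s • ((m.natAbs : ℤ) : MonoidAlgebra ℤ G)) ?_ (c • 1) ?_
  · obtain ⟨z, hz⟩ := hk
    apply h1
    have h2 : red G p (1 - e) = 0 := by rw [hz, red_smul]
    rw [map_sub, map_one, sub_eq_zero] at h2
    rw [h2]; exact hebar
  · rintro N ⟨a, ha, rfl⟩
    refine ⟨(orderOf a : ℤ), ?_, ?_⟩
    · rw [Nat.isCoprime_iff_coprime]
      exact (Nat.Coprime.symm ((Nat.Prime.coprime_iff_not_dvd hpp).mpr
        (fun h => hp (h.trans (orderOf_dvd_natCard a)))))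
    · rw [nrm_mul_nrm, natCast_zsmul]
  · exact Submodule.smul_of_tower_mem _ s habs
  · rw [hmm, ← zsmul_one ((p ^ j * m' : ℕ) : ℤ)]
    simp only [smul_smul, ← add_smul]
    congr 1
    push_cast
    linear_combination (-(p : ℤ) ^ j) * hsc

/-- For every prime `r`, `1 ∉ idl (ZMod r) T`. -/
theorem one_notMem_zmod {T : Set G} (hT : ∀ a ∈ T, ∀ g : G, g⁻¹ * a * g ∈ T) (p : ℕ)
    [Fact p.Prime] (hp : ¬ p ∣ Nat.card G)
    (h1 : (1 : MonoidAlgebra (ZMod p) G) ∉ idl (ZMod p) T)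
    (r : ℕ) [Fact r.Prime] : (1 : MonoidAlgebra (ZMod r) G) ∉ idl (ZMod r) T := by
  intro hr
  obtain ⟨i, hi, hi1⟩ := exists_red_eq hr
  obtain ⟨l, hl⟩ := red_eq_zero r (x := 1 - i) (by rw [map_sub, map_one, hi1, sub_self])
  let I' : Submodule ℤ (MonoidAlgebra ℤ G) := (idl ℤ T).restrictScalars ℤ
  have : Module.Finite ℤ (MonoidAlgebra ℤ G) := Module.Finite.of_basis (MonoidAlgebra.basis G ℤ)
  have hfg : (⊤ : Submodule ℤ (MonoidAlgebra ℤ G ⧸ I')).FG := Module.Finite.fg_top
  have hle : (⊤ : Submodule ℤ (MonoidAlgebra ℤ G ⧸ I')) ≤ Ideal.span {(r : ℤ)} • ⊤ := by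
    intro x _
    obtain ⟨z, rfl⟩ := Submodule.Quotient.mk_surjective I' x
    have hz : z - (r : ℤ) • (l * z) = i * z := by
      have h2 : (1 - i) * z = ((r : ℤ) • l) * z := by rw [hl]
      rw [smul_mul_assoc] at h2
      rw [← h2]; noncomm_ring
    have h3 : (Submodule.Quotient.mk z : MonoidAlgebra ℤ G ⧸ I')
        = (r : ℤ) • Submodule.Quotient.mk (l * z) := by
      rw [← Submodule.Quotient.mk_smul, Submodule.Quotient.eq, hz]
      exact idl_mul_mem hT hi z
    rw [h3]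
    exact Submodule.smul_mem_smul (Ideal.mem_span_singleton_self _) trivial
  obtain ⟨s, hs1, hs2⟩ :=
    Submodule.exists_sub_one_mem_and_smul_eq_zero_of_fg_of_le_smul _ _ hfg hle
  have hs0 : s ≠ 0 := by
    rintro rfl
    rw [Ideal.mem_span_singleton] at hs1
    have h4 : (r : ℤ) ∣ 1 := by
      have := (dvd_neg (a := (r : ℤ)) (b := 0 - 1)).mpr hs1
      simpa using this
    have h5 : r ∣ 1 := by exact_mod_cast h4
    exact (Fact.out : r.Prime).one_lt.ne' (Nat.dvd_one.mp h5)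
  apply no_int_mem hT p hp h1 s hs0
  have h3 := hs2 (Submodule.Quotient.mk 1) trivial
  rw [← Submodule.Quotient.mk_smul, Submodule.Quotient.mk_eq_zero, zsmul_one] at h3
  exact h3

end Main

end Cfsg.Agent.Lib.Helper64.FrobLift
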