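import Mathlib
import Cfsg.Agent.Lib.Helper64.FrobLift
import Cfsg.Agent.Lib.Helper76.FrobAction
import Cfsg.Agent.S0042
import Cfsg.Agent.S0034

set_option autoImplicit false

/-!
Frobenius complements and the norm ideal (helper64).

* `exists_frob_of_one_notMem`: if `1 ∉ idl (ZMod r) T` (`r ∤ |X|`, `T` conjugation invariant, every
  nonidentity element has a power in `T`) then `X` is a Frobenius complement.
* `one_notMem_prod`: product construction.
* `exists_prime_one_notMem`: a Frobenius complement `H` has `1 ∉ idl (ZMod p) {h ≠ 1}` for a prime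
  `p ∤ |H|`.
-/

namespace Cfsg.Agent.Lib.Helper64.FrobLift

open MonoidAlgebra

open scoped Pointwise

universe u v

section LayerF

variable {X : Type u} [Group X] [Finite X]

theorem exists_frob_of_one_notMem [Nontrivial X] (r : ℕ) [Fact r.Prime]
    (hr : ¬ r ∣ Nat.card X) (T : Set X) (hT : ∀ a ∈ T, ∀ g : X, g⁻¹ * a * g ∈ T)
    (hpow : ∀ g : X, g ≠ 1 → ∃ n : ℕ, g ^ n ∈ T)
    (h1 : (1 : MonoidAlgebra (ZMod r) X) ∉ idl (ZMod r) T) :
    ∃ (L : Type) (_ : Group L) (_ : Finite L) (C : Subgroup L),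
      Cfsg.IsFrobeniusComplement C ∧ Nonempty (X ≃* C) := by
  have hts : (idl (ZMod r) T).IsTwoSided := ⟨fun b ha => idl_mul_mem hT ha b⟩
  have hfin0 : Finite (X →₀ ZMod r) :=
    Finite.of_injective (fun f : X →₀ ZMod r => (f : X → ZMod r)) DFunLike.coe_injective
  have hfin : Finite (MonoidAlgebra (ZMod r) X) := Finite.of_equiv _ MonoidAlgebra.coeffEquiv.symm
  have hfinR : Finite (MonoidAlgebra (ZMod r) X ⧸ idl (ZMod r) T) :=
    Finite.of_surjective _ (Ideal.Quotient.mk_surjective (I := idl (ZMod r) T))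
  have hnt : Nontrivial (MonoidAlgebra (ZMod r) X ⧸ idl (ZMod r) T) :=
    Ideal.Quotient.nontrivial_iff.mpr (fun h => h1 ((Ideal.eq_top_iff_one _).mp h))
  let mk : MonoidAlgebra (ZMod r) X →+* MonoidAlgebra (ZMod r) X ⧸ idl (ZMod r) T :=
    Ideal.Quotient.mk (idl (ZMod r) T)
  let ψ : X →* (MonoidAlgebra (ZMod r) X ⧸ idl (ZMod r) T)ˣ :=
    (mk.toMonoidHom.comp (MonoidAlgebra.of (ZMod r) X)).toHomUnits
  apply Cfsg.Agent.Lib.Helper76.exists_frobenius_of_units_hom ψ
  intro g hg x hx
  obtain ⟨n, hn⟩ := hpow g hg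
  obtain ⟨y, rfl⟩ := Ideal.Quotient.mk_surjective x
  have hx' : mk (MonoidAlgebra.of (ZMod r) X g) * mk y = mk y := hx
  have hpw : ∀ k : ℕ, mk (MonoidAlgebra.of (ZMod r) X (g ^ k)) * mk y = mk y := by
    intro k
    induction k with
    | zero => rw [pow_zero, map_one, map_one, one_mul]
    | succ k ih => rw [pow_succ, map_mul, map_mul, mul_assoc, hx', ih]
  have hsum : mk (nrm (ZMod r) (g ^ n)) * mk y = (orderOf (g ^ n)) • mk y := by
    unfold nrm
    rw [map_sum, Finset.sum_mul]
    have : ∀ i ∈ Finset.range (orderOf (g ^ n)),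
        mk (MonoidAlgebra.of (ZMod r) X ((g ^ n) ^ i)) * mk y = mk y := by
      intro i _
      rw [← pow_mul]
      exact hpw _
    rw [Finset.sum_congr rfl this]
    simp
  have hzero : mk (nrm (ZMod r) (g ^ n)) * mk y = 0 := by
    rw [← map_mul]
    exact Ideal.Quotient.eq_zero_iff_mem.mpr (idl_mul_mem hT (nrm_mem hn) y)
  have hry : r • mk y = 0 := by
    rw [← map_nsmul]
    have : r • y = 0 := by
      rw [← Nat.cast_smul_eq_nsmul (ZMod r), ZMod.natCast_self, zero_smul]
    rw [this, map_zero]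
  have hcop : Nat.Coprime (orderOf (g ^ n)) r := by
    have hpp := (Fact.out : r.Prime)
    exact Nat.Coprime.symm ((Nat.Prime.coprime_iff_not_dvd hpp).mpr
      (fun h => hr (h.trans (orderOf_dvd_natCard _))))
  have hoy : (orderOf (g ^ n)) • mk y = 0 := by rw [← hsum, hzero]
  obtain ⟨a, b, hab⟩ := (Nat.isCoprime_iff_coprime.mpr hcop)
  have : mk y = (a * (orderOf (g ^ n) : ℤ) + b * (r : ℤ)) • mk y := by rw [hab, one_smul]
  rw [this, add_smul, mul_smul, mul_smul, natCast_zsmul, natCast_zsmul, hoy, hry]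
  simp

end LayerF

section LayerP

variable {A : Type u} {B : Type v} [Group A] [Group B]

/-- the embedding `k[A] → k[A × B]` -/
noncomputable def iA (k : Type*) [CommRing k] (A : Type u) (B : Type v) [Group A] [Group B] :
    MonoidAlgebra k A →ₐ[k] MonoidAlgebra k (A × B) :=
  MonoidAlgebra.mapDomainAlgHom k k (MonoidHom.inl A B)

/-- the embedding `k[B] → k[A × B]` -/
noncomputable def iB (k : Type*) [CommRing k] (A : Type u) (B : Type v) [Group A] [Group B] :
    MonoidAlgebra k B →ₐ[k] MonoidAlgebra k (A × B) :=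
  MonoidAlgebra.mapDomainAlgHom k k (MonoidHom.inr A B)

theorem iA_single (k : Type*) [CommRing k] (a : A) (s : k) :
    iA k A B (MonoidAlgebra.single a s) = MonoidAlgebra.single (a, (1 : B)) s := by
  simp [iA]

theorem iB_single (k : Type*) [CommRing k] (b : B) (s : k) :
    iB k A B (MonoidAlgebra.single b s) = MonoidAlgebra.single ((1 : A), b) s := by
  simp [iB]

theorem iA_nrm (k : Type*) [CommRing k] (a : A) :
    iA k A B (nrm k a) = nrm k (a, (1 : B)) := by
  unfold nrm
  have ho : orderOf (a, (1 : B)) = orderOf a :=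
    orderOf_injective (MonoidHom.inl A B) (fun x y h => (Prod.ext_iff.mp h).1) a
  rw [ho, map_sum]
  refine Finset.sum_congr rfl fun i _ => ?_
  rw [MonoidAlgebra.of_apply, iA_single, MonoidAlgebra.of_apply]
  simp

theorem iB_nrm (k : Type*) [CommRing k] (b : B) :
    iB k A B (nrm k b) = nrm k ((1 : A), b) := by
  unfold nrm
  have ho : orderOf ((1 : A), b) = orderOf b :=
    orderOf_injective (MonoidHom.inr A B) (fun x y h => (Prod.ext_iff.mp h).2) b
  rw [ho, map_sum]
  refine Finset.sum_congr rfl fun i _ => ?_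
  rw [MonoidAlgebra.of_apply, iB_single, MonoidAlgebra.of_apply]
  simp

theorem iA_iB_comm (k : Type*) [CommRing k] (x : MonoidAlgebra k A) (y : MonoidAlgebra k B) :
    iA k A B x * iB k A B y = iB k A B y * iA k A B x := by
  induction x using MonoidAlgebra.induction_on with
  | of a =>
    induction y using MonoidAlgebra.induction_on with
    | of b =>
      rw [MonoidAlgebra.of_apply, MonoidAlgebra.of_apply, iA_single, iB_single,
        MonoidAlgebra.single_mul_single, MonoidAlgebra.single_mul_single]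
      simp
    | add y z hy hz => rw [map_add, mul_add, add_mul, hy, hz]
    | smul c y hy => rw [map_smul, mul_smul_comm, smul_mul_assoc, hy]
  | add x z hx hz => rw [map_add, mul_add, add_mul, hx, hz]
  | smul c x hx => rw [map_smul, mul_smul_comm, smul_mul_assoc, hx]

theorem iA_iB_coeff (k : Type*) [CommRing k] (x : MonoidAlgebra k A) (y : MonoidAlgebra k B)
    (a : A) (b : B) : (iA k A B x * iB k A B y).coeff (a, b) = x.coeff a * y.coeff b := by
  classical
  induction x using MonoidAlgebra.induction_linear with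
  | zero => simp
  | add x z hx hz => rw [map_add, add_mul, MonoidAlgebra.coeff_add, Finsupp.add_apply, hx, hz,
      MonoidAlgebra.coeff_add, Finsupp.add_apply, add_mul]
  | single a' s =>
    induction y using MonoidAlgebra.induction_linear with
    | zero => simp
    | add y z hy hz => rw [map_add, mul_add, MonoidAlgebra.coeff_add, Finsupp.add_apply, hy, hz,
        MonoidAlgebra.coeff_add, Finsupp.add_apply, mul_add]
    | single b' t =>
      rw [iA_single, iB_single, MonoidAlgebra.single_mul_single]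
      simp only [MonoidAlgebra.coeff_single, Finsupp.single_apply, Prod.mk_mul_mk, mul_one, one_mul,
        Prod.mk.injEq]
      by_cases h1 : a' = a <;> by_cases h2 : b' = b <;> simp [h1, h2]

theorem one_notMem_prod [Finite A] [Finite B] (r : ℕ) [Fact r.Prime]
    (hA : ¬ r ∣ Nat.card A) (hB : ¬ r ∣ Nat.card B)
    (h1A : (1 : MonoidAlgebra (ZMod r) A) ∉ idl (ZMod r) {a : A | a ≠ 1})
    (h1B : (1 : MonoidAlgebra (ZMod r) B) ∉ idl (ZMod r) {b : B | b ≠ 1}) :
    (1 : MonoidAlgebra (ZMod r) (A × B)) ∉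
      idl (ZMod r) {x : A × B | x ≠ 1 ∧ (x.1 = 1 ∨ x.2 = 1)} := by
  intro h1
  have : NeZero (Nat.card A : ZMod r) := ⟨by rwa [Ne, ZMod.natCast_eq_zero_iff]⟩
  have : NeZero (Nat.card B : ZMod r) := ⟨by rwa [Ne, ZMod.natCast_eq_zero_iff]⟩
  obtain ⟨eA, heA, heA2⟩ := exists_idem (ZMod r) (idl (ZMod r) {a : A | a ≠ 1})
  obtain ⟨eB, heB, heB2⟩ := exists_idem (ZMod r) (idl (ZMod r) {b : B | b ≠ 1})
  set w : MonoidAlgebra (ZMod r) (A × B) := iA (ZMod r) A B (1 - eA) * iB (ZMod r) A B (1 - eB)
    with hw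
  have hkill : ∀ x ∈ idl (ZMod r) {x : A × B | x ≠ 1 ∧ (x.1 = 1 ∨ x.2 = 1)}, x * w = 0 := by
    intro x hx
    unfold idl at hx
    induction hx using Submodule.span_induction with
    | mem z hz =>
      obtain ⟨⟨a, b⟩, ⟨hne, hab⟩, rfl⟩ := hz
      rcases hab with ha | hb
      · simp only at ha
        subst ha
        have hb1 : b ≠ 1 := fun h => hne (by rw [h]; rfl)
        have h2 : nrm (ZMod r) b * (1 - eB) = 0 := by
          rw [mul_sub, mul_one, heB2 _ (nrm_mem hb1), sub_self]
        rw [hw, ← iB_nrm, ← mul_assoc, ← iA_iB_comm, mul_assoc, ← map_mul, h2, map_zero,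
          mul_zero]
      · simp only at hb
        subst hb
        have ha1 : a ≠ 1 := fun h => hne (by rw [h]; rfl)
        have h2 : nrm (ZMod r) a * (1 - eA) = 0 := by
          rw [mul_sub, mul_one, heA2 _ (nrm_mem ha1), sub_self]
        rw [hw, ← iA_nrm, ← mul_assoc, ← map_mul, h2, map_zero, zero_mul]
    | zero => simp
    | add z z' _ _ hz hz' => rw [add_mul, hz, hz', add_zero]
    | smul c z _ hz => rw [smul_eq_mul, mul_assoc, hz, mul_zero]
  have hw0 : w = 0 := by rw [← one_mul w]; exact hkill 1 h1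
  have hA1 : (1 - eA) ≠ 0 := fun h => h1A (by rw [sub_eq_zero.mp h]; exact heA)
  have hB1 : (1 - eB) ≠ 0 := fun h => h1B (by rw [sub_eq_zero.mp h]; exact heB)
  obtain ⟨a, ha⟩ : ∃ a, (1 - eA).coeff a ≠ 0 := by
    by_contra hcon
    push Not at hcon
    exact hA1 (MonoidAlgebra.ext (Finsupp.ext hcon))
  obtain ⟨b, hb⟩ : ∃ b, (1 - eB).coeff b ≠ 0 := by
    by_contra hcon
    push Not at hcon
    exact hB1 (MonoidAlgebra.ext (Finsupp.ext hcon))
  have h3 := iA_iB_coeff (ZMod r) (1 - eA) (1 - eB) a b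
  rw [← hw, hw0] at h3
  simp only [MonoidAlgebra.coeff_zero, Finsupp.coe_zero, Pi.zero_apply] at h3
  exact mul_ne_zero ha hb h3.symm

end LayerP

section LayerS

/-- A fixed-point-free action on an abelian group with `p`-torsion gives
`1 ∉ idl (ZMod p) {h ≠ 1}`. -/
theorem one_notMem_of_fpf {H : Type u} [Group H] [Finite H] {V : Type v} [AddCommGroup V]
    (φ : H →* AddMonoid.End V) (hfpf : ∀ h : H, h ≠ 1 → ∀ v : V, φ h v = v → v = 0)
    (p : ℕ) (v₀ : V) (hv₀ : v₀ ≠ 0) (hpv : p • v₀ = 0) :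
    (1 : MonoidAlgebra (ZMod p) H) ∉ idl (ZMod p) {h : H | h ≠ 1} := by
  intro h1
  obtain ⟨i, hi, hi1⟩ := exists_red_eq h1
  obtain ⟨l, hl⟩ := red_eq_zero p (x := 1 - i) (by rw [map_sub, map_one, hi1, sub_self])
  let ρ : MonoidAlgebra ℤ H →ₐ[ℤ] AddMonoid.End V := MonoidAlgebra.lift ℤ (AddMonoid.End V) H φ
  have hρ : ∀ x ∈ idl ℤ {h : H | h ≠ 1}, ρ x = 0 := by
    intro x hx
    unfold idl at hx
    induction hx using Submodule.span_induction with
    | mem z hz =>
      obtain ⟨a, ha, rfl⟩ := hz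
      ext v
      apply hfpf a ha
      have h2 : ρ (MonoidAlgebra.of ℤ H a * nrm ℤ a) = ρ (nrm ℤ a) := by rw [of_mul_nrm]
      rw [map_mul, MonoidAlgebra.lift_of] at h2
      exact congrArg (fun f : AddMonoid.End V => f v) h2
    | zero => simp
    | add z w _ _ hz hw => rw [map_add, hz, hw, add_zero]
    | smul c z _ hz => rw [smul_eq_mul, map_mul, hz, mul_zero]
  have h2 : ρ 1 = ρ ((p : ℤ) • l) := by
    have h3 : (1 : MonoidAlgebra ℤ H) = i + (p : ℤ) • l := by rw [← hl]; abel
    conv_lhs => rw [h3]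
    rw [map_add, hρ i hi, zero_add]
  rw [map_one, map_zsmul] at h2
  have h3 := congrArg (fun f : AddMonoid.End V => f v₀) h2
  have h4 : v₀ = p • (ρ l) v₀ := by simpa using h3
  apply hv₀
  rw [h4, ← map_nsmul, hpv, map_zero]

/-- conjugation by `h` on the centre of a normal subgroup -/
def conjCenter {L : Type u} [Group L] (N : Subgroup L) [hN : N.Normal] (h : L) :
    Subgroup.center N →* Subgroup.center N where
  toFun z := ⟨⟨h * ((z : N) : L) * h⁻¹, hN.conj_mem _ (z : N).2 h⟩, by
    rw [Subgroup.mem_center_iff]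
    intro n
    have hz := Subgroup.mem_center_iff.mp z.2 ⟨h⁻¹ * (n : L) * h, by
      have := hN.conj_mem _ n.2 h⁻¹
      simpa using this⟩
    apply Subtype.ext
    have hz' : h⁻¹ * (n : L) * h * ((z : N) : L) = ((z : N) : L) * (h⁻¹ * (n : L) * h) :=
      congrArg Subtype.val hz
    show (n : L) * (h * ((z : N) : L) * h⁻¹) = h * ((z : N) : L) * h⁻¹ * (n : L)
    calc (n : L) * (h * ((z : N) : L) * h⁻¹)
        = h * (h⁻¹ * (n : L) * h * ((z : N) : L)) * h⁻¹ := by group
      _ = h * (((z : N) : L) * (h⁻¹ * (n : L) * h)) * h⁻¹ := by rw [hz']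
      _ = h * ((z : N) : L) * h⁻¹ * (n : L) := by group⟩
  map_one' := by ext; simp
  map_mul' z w := by ext; simp

theorem conjCenter_coe {L : Type u} [Group L] (N : Subgroup L) [hN : N.Normal] (h : L)
    (z : Subgroup.center N) : (((conjCenter N h z : Subgroup.center N) : N) : L)
      = h * ((z : N) : L) * h⁻¹ := rfl

theorem conjCenter_one {L : Type u} [Group L] (N : Subgroup L) [hN : N.Normal] :
    conjCenter N (1 : L) = MonoidHom.id _ := by
  refine MonoidHom.ext fun z => Subtype.ext (Subtype.ext ?_)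
  rw [conjCenter_coe]
  simp

theorem conjCenter_mul {L : Type u} [Group L] (N : Subgroup L) [hN : N.Normal] (h k : L) :
    conjCenter N (h * k) = (conjCenter N h).comp (conjCenter N k) := by
  refine MonoidHom.ext fun z => Subtype.ext (Subtype.ext ?_)
  rw [MonoidHom.comp_apply, conjCenter_coe, conjCenter_coe, conjCenter_coe]
  simp [mul_assoc]

/-- the action of a subgroup on the centre of a normal subgroup, additively -/
def conjCenterHom {L : Type u} [Group L] (N : Subgroup L) [hN : N.Normal] (H : Subgroup L) :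
    H →* AddMonoid.End (Additive (Subgroup.center N)) where
  toFun h := MonoidHom.toAdditive (conjCenter N (h : L))
  map_one' := by
    rw [Subgroup.coe_one, conjCenter_one]
    rfl
  map_mul' h k := by
    rw [Subgroup.coe_mul, conjCenter_mul]
    rfl

theorem conjCenterHom_apply {L : Type u} [Group L] (N : Subgroup L) [hN : N.Normal]
    (H : Subgroup L) (h : H) (z : Subgroup.center N) :
    conjCenterHom N H h (Additive.ofMul z) = Additive.ofMul (conjCenter N (h : L) z) := rfl

/-- The Frobenius kernel of a Frobenius complement: normal, nilpotent, nontrivial, of order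
coprime to `|H|`, and `H` acts on it without fixed points. -/
theorem frob_kernel_data {L : Type u} [Group L] [Finite L] (H : Subgroup L)
    (hH : Cfsg.IsFrobeniusComplement H) :
    ∃ N : Subgroup L, N.Normal ∧ Group.IsNilpotent N ∧ Nontrivial N ∧
      (Nat.card N).Coprime (Nat.card H) ∧
      ∀ h ∈ H, h ≠ 1 → ∀ n ∈ N, h * n = n * h → n = 1 := by
  obtain ⟨N, hN, hNn, hNnil⟩ := Cfsg.Agent.S0042.result H hH
  obtain ⟨hcard, hmod⟩ := Cfsg.Agent.S0034.result H hH
  have hNcard : Nat.card N = H.index := by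
    rw [← hcard]
    exact Nat.card_congr (Equiv.setCongr hN)
  refine ⟨N, hNn, hNnil, ?_, ?_, ?_⟩
  · rw [← Finite.one_lt_card_iff_nontrivial, hNcard]
    have h0 : H.index ≠ 0 := Subgroup.index_ne_zero_of_finite
    have h1 : H.index ≠ 1 := fun h => hH.2.1 (Subgroup.index_eq_one.mp h)
    omega
  · rw [hNcard]
    have h2 : H.index ≡ 1 [MOD Nat.card H] := hmod
    unfold Nat.Coprime
    rw [h2.gcd_eq]
    simp
  · intro h hh h1 n hn hcomm
    by_contra hn1
    have hnK : n ∈ Cfsg.frobeniusKernel H := by rw [← hN]; exact hn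
    have hnH : n ∉ H := by
      rcases hnK with h | h
      · exact absurd h hn1
      · have := h 1
        simpa using this
    have hbot := hH.2.2 n hnH
    have hmem : h ∈ H ⊓ (MulAut.conj n • H) := by
      refine Subgroup.mem_inf.mpr ⟨hh, ?_⟩
      rw [Subgroup.mem_pointwise_smul_iff_inv_smul_mem]
      have h3 : (MulAut.conj n)⁻¹ • h = h := by
        rw [MulAut.smul_def, ← map_inv, MulAut.conj_apply, inv_inv, mul_assoc, hcomm,
          ← mul_assoc, inv_mul_cancel, one_mul]
      rw [h3]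
      exact hh
    rw [hbot] at hmem
    exact h1 (Subgroup.mem_bot.mp hmem)

open scoped IsMulCommutative in
/-- A Frobenius complement `H` has `1 ∉ idl (ZMod p) {h ≠ 1}` for some prime `p ∤ |H|`. -/
theorem exists_prime_one_notMem {L : Type u} [Group L] [Finite L] (H : Subgroup L)
    (hH : Cfsg.IsFrobeniusComplement H) :
    ∃ p : ℕ, p.Prime ∧ ¬ p ∣ Nat.card H ∧
      (1 : MonoidAlgebra (ZMod p) H) ∉ idl (ZMod p) {h : H | h ≠ 1} := by
  obtain ⟨N, hNn, hNnil, hNnt, hcop, hfpf⟩ := frob_kernel_data H hH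
  have hZ : Subgroup.center N ≠ ⊥ := Group.IsNilpotent.center_ne_bot _
  have hZc : Nat.card (Subgroup.center N) ≠ 1 := fun h => hZ (Subgroup.card_eq_one.mp h)
  obtain ⟨p, hp, hpd⟩ := Nat.exists_prime_and_dvd hZc
  have := Fact.mk hp
  obtain ⟨z₀, hz₀⟩ := exists_prime_orderOf_dvd_card' p hpd
  refine ⟨p, hp, ?_, ?_⟩
  · intro hpH
    have h1 : p ∣ Nat.card N := hpd.trans (Subgroup.card_subgroup_dvd_card _)
    have h2 := Nat.dvd_gcd h1 hpH
    rw [hcop] at h2
    exact hp.one_lt.ne' (Nat.dvd_one.mp h2)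
  · apply one_notMem_of_fpf (conjCenterHom N H) ?_ p (Additive.ofMul z₀) ?_ ?_
    · intro h hh v hv
      obtain ⟨z, rfl⟩ := Additive.ofMul.surjective v
      rw [conjCenterHom_apply] at hv
      have hz : conjCenter N (h : L) z = z := Additive.ofMul.injective hv
      have hz' := congrArg (fun w : Subgroup.center N => ((w : N) : L)) hz
      simp only [conjCenter_coe] at hz'
      have h3 : ((z : N) : L) = 1 :=
        hfpf h h.2 (fun h1 => hh (Subtype.ext h1)) _ (z : N).2 (mul_inv_eq_iff_eq_mul.mp hz')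
      have h4 : z = 1 := Subtype.ext (Subtype.ext h3)
      rw [h4]
      rfl
    · intro h0
      have h5 : z₀ = 1 := Additive.ofMul.injective h0
      rw [h5, orderOf_one] at hz₀
      exact hp.one_lt.ne' hz₀.symm
    · rw [← ofMul_pow, ← hz₀, pow_orderOf_eq_one]
      rfl

end LayerS

end Cfsg.Agent.Lib.Helper64.FrobLift
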