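import Mathlib
import Cfsg.Agent.Lib.Helper22.HPDefs

/-!
# S4504 (HP project of helper22), piece MOMENT, part A (helper64): the centre has no element of
order `p`
-/

set_option autoImplicit false
set_option linter.unusedSectionVars false

namespace Cfsg.Agent.Lib.Helper64.HPT

open Cfsg Cfsg.Agent.Lib.Helper22.BFD Cfsg.Agent.Lib.Helper22.HPD

universe u

section

variable {G : Type u} [Group G] [Fintype G]

/-- a central element of order `p` generates a normal subgroup of order `p` -/
theorem mom_no_central (p : ℕ) [Fact p.Prime]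
    (hnn : ∀ H : Subgroup G, H.Normal → Nat.card H ≠ p) (v : G)
    (hv : v ∈ Subgroup.center G) (ho : orderOf v = p) : False := by
  apply hnn (Subgroup.zpowers v) ?_ (by rw [Nat.card_zpowers, ho])
  constructor
  intro n hn g
  obtain ⟨k, rfl⟩ := Subgroup.mem_zpowers_iff.mp hn
  have hc : Commute g v := Subgroup.mem_center_iff.mp hv g
  have h1 : g * v ^ k * g⁻¹ = v ^ k := by
    rw [(hc.zpow_right k).eq, mul_inv_cancel_right]
  rw [h1]
  exact Subgroup.zpow_mem_zpowers v k

/-- MOM-A: a power of `z` lying in the centre is trivial -/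
theorem mom_pow_center (p : ℕ) [Fact p.Prime]
    (hnn : ∀ H : Subgroup G, H.Normal → Nat.card H ≠ p) (z : G) (hz : orderOf z = p) (j : ℕ)
    (h : z ^ j ∈ Subgroup.center G) : p ∣ j := by
  have hp : p.Prime := Fact.out
  by_contra hndvd
  have hcop : Nat.Coprime (orderOf z) j := by
    rw [hz]
    exact (Nat.Prime.coprime_iff_not_dvd hp).mpr hndvd
  have ho : orderOf (z ^ j) = p := by
    rw [hcop.orderOf_pow, hz]
  exact mom_no_central p hnn (z ^ j) h ho

/-- MOM-A': central elements are `p`-regular -/
theorem mom_center_reg (p : ℕ) [Fact p.Prime]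
    (hnn : ∀ H : Subgroup G, H.Normal → Nat.card H ≠ p) (u : G)
    (hu : u ∈ Subgroup.center G) : ¬ p ∣ orderOf u := by
  intro hdvd
  have ho : orderOf (u ^ (orderOf u / p)) = p :=
    orderOf_pow_orderOf_div (orderOf_pos u).ne' hdvd
  exact mom_no_central p hnn _ (Subgroup.pow_mem _ hu _) ho

end

end Cfsg.Agent.Lib.Helper64.HPT
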