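import Mathlib
import Cfsg.Agent.Lib.Helper22.HPDefs
import Cfsg.Agent.Lib.Helper83.IrrBasic
import Cfsg.Agent.Lib.Helper83.Twist
import Cfsg.Agent.Lib.Helper83.Central
import Cfsg.Agent.Lib.Helper67.BFZCENT
import Cfsg.Agent.Lib.Helper64.HPMOMA

/-!
# S4504 (HP project of helper22), piece MOMENT, part B (helper64): the moment computation from
the formula for sums over the `p`-singular elements
-/

set_option autoImplicit false
set_option linter.unusedSectionVars false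

namespace Cfsg.Agent.Lib.Helper64.HPT

open Cfsg Cfsg.Agent.Lib.Helper22.BFD Cfsg.Agent.Lib.Helper22.HPD
open scoped ComplexConjugate

universe u

/-- the final real arithmetic -/
theorem mom_arith (e : ℕ) (he : 2 ≤ e) (Gc Zc S2 S4 R2 R4 A4 : ℝ) (hZc : 0 < Zc)
    (hA4 : A4 = if Even e then (e : ℝ) * ((e : ℝ) ^ 2 + 4 * e + 2) / 2
      else (e : ℝ) * ((e : ℝ) + 1) ^ 2 / 2)
    (hS2 : ((2 * (e : ℝ) + 1) * e * Zc) * S2 = Gc * (Zc * ((e : ℝ) * (e + 1))))
    (hS4 : ((2 * (e : ℝ) + 1) * e * Zc) * S4 = Gc * (Zc * A4))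
    (hR : R4 ≤ R2)
    (h2 : Zc * (e : ℝ) ^ 2 + S2 + R2 = Gc)
    (h4 : Gc * (1 + ((e / 2 : ℕ) : ℝ)) ≤ Zc * (e : ℝ) ^ 4 + S4 + R4) :
    2 * Gc ≤ Zc * ((2 * (e : ℝ) + 1) * (4 * (e : ℝ) ^ 2 + 4 * e)) := by
  have heR : (2 : ℝ) ≤ (e : ℝ) := by exact_mod_cast he
  have hS2' : (2 * (e : ℝ) + 1) * e * S2 = Gc * ((e : ℝ) * (e + 1)) := by
    have h : Zc * ((2 * (e : ℝ) + 1) * e * S2) = Zc * (Gc * ((e : ℝ) * (e + 1))) := by
      linear_combination hS2
    exact mul_left_cancel₀ hZc.ne' h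
  have hS4' : (2 * (e : ℝ) + 1) * e * S4 = Gc * A4 := by
    have h : Zc * ((2 * (e : ℝ) + 1) * e * S4) = Zc * (Gc * A4) := by
      linear_combination hS4
    exact mul_left_cancel₀ hZc.ne' h
  have h5 : Gc * ((e / 2 : ℕ) : ℝ) ≤ Zc * (e : ℝ) ^ 4 - Zc * (e : ℝ) ^ 2 + S4 - S2 := by
    linarith
  have hc : (0 : ℝ) ≤ (2 * (e : ℝ) + 1) * e := by positivity
  have h6 := mul_le_mul_of_nonneg_left h5 hc
  have h7 : (2 * (e : ℝ) + 1) * e * (Zc * (e : ℝ) ^ 4 - Zc * (e : ℝ) ^ 2 + S4 - S2) =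
      (2 * (e : ℝ) + 1) * e * Zc * ((e : ℝ) ^ 4 - (e : ℝ) ^ 2) + Gc * A4
        - Gc * ((e : ℝ) * (e + 1)) := by
    linear_combination hS4' - hS2'
  rw [h7] at h6
  have key : Gc * ((e : ℝ) ^ 2 * ((e : ℝ) - 1)) ≤
      (2 * Zc * (2 * (e : ℝ) + 1) * e * ((e : ℝ) + 1)) * ((e : ℝ) ^ 2 * ((e : ℝ) - 1)) := by
    rcases Nat.even_or_odd' e with ⟨k, hk | hk⟩
    · have hdiv : e / 2 = k := by omega
      have hev : Even e := ⟨k, by omega⟩
      rw [if_pos hev] at hA4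
      rw [hdiv] at h6
      have hek : (k : ℝ) = (e : ℝ) / 2 := by
        rw [hk]
        push_cast
        ring
      have h8 : Gc * ((e : ℝ) ^ 2 * ((e : ℝ) - 1)) =
          2 * ((2 * (e : ℝ) + 1) * e * (Gc * (k : ℝ))) - 2 * (Gc * A4)
            + 2 * (Gc * ((e : ℝ) * (e + 1))) := by
        rw [hA4, hek]
        ring
      calc Gc * ((e : ℝ) ^ 2 * ((e : ℝ) - 1)) =
          2 * ((2 * (e : ℝ) + 1) * e * (Gc * (k : ℝ))) - 2 * (Gc * A4)
            + 2 * (Gc * ((e : ℝ) * (e + 1))) := h8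
        _ ≤ 2 * ((2 * (e : ℝ) + 1) * e * Zc * ((e : ℝ) ^ 4 - (e : ℝ) ^ 2)) := by linarith
        _ = (2 * Zc * (2 * (e : ℝ) + 1) * e * ((e : ℝ) + 1)) * ((e : ℝ) ^ 2 * ((e : ℝ) - 1)) := by
          ring
    · have hdiv : e / 2 = k := by omega
      have hev : ¬ Even e := by
        rw [Nat.not_even_iff_odd]
        exact ⟨k, hk⟩
      rw [if_neg hev] at hA4
      rw [hdiv] at h6
      have hek : (k : ℝ) = ((e : ℝ) - 1) / 2 := by
        rw [hk]
        push_cast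
        ring
      have h8 : Gc * ((e : ℝ) ^ 2 * ((e : ℝ) - 1)) =
          2 * ((2 * (e : ℝ) + 1) * e * (Gc * (k : ℝ))) - 2 * (Gc * A4)
            + 2 * (Gc * ((e : ℝ) * (e + 1))) := by
        rw [hA4, hek]
        ring
      calc Gc * ((e : ℝ) ^ 2 * ((e : ℝ) - 1)) =
          2 * ((2 * (e : ℝ) + 1) * e * (Gc * (k : ℝ))) - 2 * (Gc * A4)
            + 2 * (Gc * ((e : ℝ) * (e + 1))) := h8
        _ ≤ 2 * ((2 * (e : ℝ) + 1) * e * Zc * ((e : ℝ) ^ 4 - (e : ℝ) ^ 2)) := by linarith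
        _ = (2 * Zc * (2 * (e : ℝ) + 1) * e * ((e : ℝ) + 1)) * ((e : ℝ) ^ 2 * ((e : ℝ) - 1)) := by
          ring
  have hpos : (0 : ℝ) < (e : ℝ) ^ 2 * ((e : ℝ) - 1) := mul_pos (by positivity) (by linarith)
  have hG := le_of_mul_le_mul_right key hpos
  calc 2 * Gc ≤ 2 * (2 * Zc * (2 * (e : ℝ) + 1) * e * ((e : ℝ) + 1)) := by linarith
    _ = Zc * ((2 * (e : ℝ) + 1) * (4 * (e : ℝ) ^ 2 + 4 * e)) := by ring

section

variable {G : Type u} [Group G] [Fintype G]

/-- the values of `χ` on `z^t u`, `u` central -/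
theorem mom_val (p : ℕ) [Fact p.Prime] (χ : IrrCharacter G) (z : G) (ζ : ℂ)
    (hHP : HP p ζ z χ.1) (t : ZMod p) (u : G) (hu : u ∈ Subgroup.center G) :
    ‖χ.1 (z ^ t.val * u)‖ = ‖eta p ζ t‖ := by
  have h1 := Cfsg.Agent.Lib.Helper83.irr_central_mul χ u hu (z ^ t.val)
  have h2 := Cfsg.Agent.Lib.Helper83.irr_central_norm χ u hu
  obtain ⟨hpos, hdeg⟩ := Cfsg.Agent.Lib.Helper83.irr_degree χ.2
  have h3 : u * z ^ t.val = z ^ t.val * u := (Subgroup.mem_center_iff.mp hu (z ^ t.val)).symm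
  rw [h3] at h1
  have h4 := congrArg norm h1
  rw [norm_mul, norm_mul, h2, hdeg, Complex.norm_natCast, hHP.hval] at h4
  have hne : (charDegree χ.1 : ℝ) ≠ 0 := by exact_mod_cast hpos.ne'
  rw [mul_comm] at h4
  exact mul_left_cancel₀ hne h4

/-- `∑ ‖χ‖² = |G|` -/
theorem mom_total2 (χ : IrrCharacter G) : ∑ g : G, ‖χ.1 g‖ ^ 2 = (Nat.card G : ℝ) := by
  have h1 := Cfsg.Agent.Lib.Helper83.irr_orthonormal χ χ
  rw [if_pos rfl] at h1
  unfold classInner at h1
  have hG : (Nat.card G : ℂ) ≠ 0 := by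
    exact_mod_cast (Nat.card_pos (α := G)).ne'
  have h2 : ∑ g : G, χ.1 g * conj (χ.1 g) = (Nat.card G : ℂ) := by
    have h3 := congrArg (fun x => (Nat.card G : ℂ) * x) h1
    simp only [mul_one] at h3
    rw [← mul_assoc, mul_inv_cancel₀ hG, one_mul] at h3
    exact h3
  have h4 : ((∑ g : G, ‖χ.1 g‖ ^ 2 : ℝ) : ℂ) = ((Nat.card G : ℝ) : ℂ) := by
    push_cast
    rw [← h2]
    refine Finset.sum_congr rfl fun g _ => ?_
    rw [Complex.mul_conj']
  exact Complex.ofReal_injective h4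

open Classical in
/-- splitting a sum over `G` into the central, the `p`-singular and the remaining elements -/
theorem mom_split (p : ℕ) [Fact p.Prime]
    (hnn : ∀ H : Subgroup G, H.Normal → Nat.card H ≠ p) (f : G → ℝ) :
    ∑ g : G, f g = ∑ g ∈ Finset.univ.filter (fun g : G => g ∈ Subgroup.center G), f g +
      ∑ g ∈ Finset.univ.filter (fun g : G => p ∣ orderOf g), f g +
      ∑ g ∈ Finset.univ.filter (fun g : G => g ∉ Subgroup.center G ∧ ¬ p ∣ orderOf g), f g := by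
  rw [Finset.sum_filter, Finset.sum_filter, Finset.sum_filter, ← Finset.sum_add_distrib,
    ← Finset.sum_add_distrib]
  refine Finset.sum_congr rfl fun g _ => ?_
  by_cases hc : g ∈ Subgroup.center G
  · have hreg := mom_center_reg p hnn g hc
    rw [if_pos hc, if_neg hreg, if_neg (fun h => h.1 hc)]
    ring
  · by_cases hs : p ∣ orderOf g
    · rw [if_neg hc, if_pos hs, if_neg (fun h => h.2 hs)]
      ring
    · rw [if_neg hc, if_neg hs, if_pos ⟨hc, hs⟩]
      ring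

open Classical in
/-- the number of central elements as a filter -/
theorem mom_card_center :
    ((Finset.univ.filter (fun g : G => g ∈ Subgroup.center G)).card : ℝ) =
      (Nat.card (Subgroup.center G) : ℝ) := by
  rw [Nat.card_eq_fintype_card, Fintype.card_subtype]

open Classical in
/-- sums over the pairs `(t, u)`, `t ≠ 0`, `u` central, of a function of `t` -/
theorem mom_pair_sum (p : ℕ) [Fact p.Prime] (h : ZMod p → ℝ) :
    ∑ q ∈ Finset.univ.filter (fun q : ZMod p × G => q.1 ≠ 0 ∧ q.2 ∈ Subgroup.center G), h q.1 =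
      (Nat.card (Subgroup.center G) : ℝ) *
        ∑ t ∈ Finset.univ.filter (fun t : ZMod p => t ≠ 0), h t := by
  have hT : Finset.univ.filter (fun q : ZMod p × G => q.1 ≠ 0 ∧ q.2 ∈ Subgroup.center G) =
      (Finset.univ.filter (fun t : ZMod p => t ≠ 0)) ×ˢ
        (Finset.univ.filter (fun g : G => g ∈ Subgroup.center G)) := by
    ext q
    simp only [Finset.mem_filter, Finset.mem_univ, true_and, Finset.mem_product]
  rw [hT, Finset.sum_product, Finset.mul_sum]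
  refine Finset.sum_congr rfl fun t _ => ?_
  dsimp only
  rw [Finset.sum_const, nsmul_eq_mul, mom_card_center]

end

end Cfsg.Agent.Lib.Helper64.HPT
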