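import Mathlib
import Cfsg.Agent.Lib.Helper22.HPDefs
import Cfsg.Agent.Lib.Helper83.IrrBasic
import Cfsg.Agent.Lib.Helper4.CharSimple
import Cfsg.Agent.Lib.Helper4.HPN4ARITH
import Cfsg.Agent.Lib.Helper64.HPMOMA
import Cfsg.Agent.Lib.Helper64.HPMOMB

/-!
# S4504 (HP project of helper22), piece NORM4, core (helper64): from the decomposition of `χ χ̄`,
the basic inequality for its constituents and the values of `χ` on `C_G(z)`
-/

set_option autoImplicit false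
set_option linter.unusedSectionVars false
set_option maxHeartbeats 1000000

namespace Cfsg.Agent.Lib.Helper64.HPT

open Cfsg Cfsg.Agent.Lib.Helper22.BFD Cfsg.Agent.Lib.Helper22.HPD
open scoped ComplexConjugate

universe u

section

variable {G : Type u} [Group G] [Fintype G]

open Classical in
/-- `∑_{t ≠ 0} ‖η_t‖² = e (e + 1)` -/
theorem n4_A2 (p : ℕ) [Fact p.Prime] (ζ : ℂ) (e : ℕ) (hdeg : 2 * e + 1 = p)
    (heta0 : eta p ζ 0 = (((p - 1) / 2 : ℕ) : ℂ))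
    (hpars : ∑ t : ZMod p, eta p ζ t * conj (eta p ζ t) = ((p * ((p - 1) / 2) : ℕ) : ℂ)) :
    ∑ t ∈ Finset.univ.filter (fun t : ZMod p => t ≠ 0), ‖eta p ζ t‖ ^ 2 =
      (e : ℝ) * ((e : ℝ) + 1) := by
  have hpe : (p - 1) / 2 = e := by omega
  rw [hpe] at heta0 hpars
  have hpR : (p : ℝ) = 2 * (e : ℝ) + 1 := by
    rw [← hdeg]
    push_cast
    ring
  have h1 : ((∑ t : ZMod p, ‖eta p ζ t‖ ^ 2 : ℝ) : ℂ) = (((p * e : ℕ) : ℝ) : ℂ) := by
    have h0 : (((p * e : ℕ) : ℝ) : ℂ) = ((p * e : ℕ) : ℂ) := by norm_cast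
    rw [h0, ← hpars]
    push_cast
    refine Finset.sum_congr rfl fun t _ => ?_
    rw [Complex.mul_conj']
  have h2 : ∑ t : ZMod p, ‖eta p ζ t‖ ^ 2 = ((p * e : ℕ) : ℝ) := Complex.ofReal_injective h1
  have h3 : ‖eta p ζ 0‖ ^ 2 = (e : ℝ) ^ 2 := by rw [heta0, Complex.norm_natCast]
  have h5 := Finset.add_sum_erase Finset.univ (fun t : ZMod p => ‖eta p ζ t‖ ^ 2)
    (Finset.mem_univ (0 : ZMod p))
  rw [h2, h3] at h5
  have h6 : Finset.univ.filter (fun t : ZMod p => t ≠ 0) = Finset.univ.erase 0 := by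
    ext t
    simp
  rw [h6]
  push_cast at h5
  rw [hpR] at h5
  linear_combination h5

open Classical in
theorem hp_norm4_core [Fintype (IrrCharacter G)] (p : ℕ) [Fact p.Prime]
    (χ : IrrCharacter G) (e : ℕ) (he : charDegree χ.1 = e) (hdeg : 2 * e + 1 = p) (z : G)
    (ζ : ℂ) (hHP : HP p ζ z χ.1)
    (m : IrrCharacter G → ℕ)
    (hdec : ∀ g : G, χ.1 g * conj (χ.1 g) = ∑ φ : IrrCharacter G, (m φ : ℂ) * φ.1 g)
    (hinner : ∀ φ : IrrCharacter G,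
      classInner (fun g => χ.1 g * conj (χ.1 g)) φ.1 = (m φ : ℂ))
    (hm1 : ∀ φ : IrrCharacter G, φ.1 = (fun _ => 1) → m φ = 1)
    (hmdeg : ∑ φ : IrrCharacter G, m φ * charDegree φ.1 = charDegree χ.1 ^ 2)
    (hm4 : ∑ g : G, ‖χ.1 g‖ ^ 4 = (Nat.card G : ℝ) * ∑ φ : IrrCharacter G, (m φ : ℝ) ^ 2)
    (hnolin : ∀ μ : IrrCharacter G, charDegree μ.1 = 1 →
      classInner (fun g => χ.1 g * conj (χ.1 g)) μ.1 ≠ 0 → μ.1 = fun _ => 1)
    (hlb : ∀ φ : IrrCharacter G, charDegree φ.1 ≠ 1 →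
      ∃ s : ℝ, ∑ t ∈ Finset.univ.filter (fun t : ZMod p => t ≠ 0),
          ∑ y ∈ Kf p z, φ.1 (z ^ t.val * y) = (s : ℂ) ∧
        ((e : ℝ) + 1) * s ≤ (e : ℝ) * charDegree φ.1 * (Kf p z).card ∧
        (((e : ℝ) + 1) * s = (e : ℝ) * charDegree φ.1 * (Kf p z).card →
          charDegree φ.1 ≤ p + 1))
    (hkfz : ∀ y : G, y ∈ Kf p z ↔ y ∈ Subgroup.center G)
    (heta0 : eta p ζ 0 = (((p - 1) / 2 : ℕ) : ℂ))
    (hpars : ∑ t : ZMod p, eta p ζ t * conj (eta p ζ t) = ((p * ((p - 1) / 2) : ℕ) : ℂ)) :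
    (Nat.card G : ℝ) * (1 + ((e / 2 : ℕ) : ℝ)) ≤ ∑ g : G, ‖χ.1 g‖ ^ 4 := by
  obtain ⟨hpos, hχ1⟩ := Cfsg.Agent.Lib.Helper83.irr_degree χ.2
  rw [he] at hpos hχ1 hmdeg
  obtain ⟨o, hodef⟩ : ∃ o : IrrCharacter G, o = ⟨fun _ => 1,
    Cfsg.Agent.Lib.Helper4.isIrrCharacter_one⟩ := ⟨_, rfl⟩
  have ho1 : o.1 = fun _ => 1 := by rw [hodef]
  have hKpos : 0 < (Kf p z).card :=
    Finset.card_pos.mpr ⟨1, (hkfz 1).mpr (Subgroup.one_mem _)⟩
  obtain ⟨σ, hσ⟩ : ∃ σ : IrrCharacter G → ℂ, ∀ φ : IrrCharacter G, σ φ =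
      ∑ t ∈ Finset.univ.filter (fun t : ZMod p => t ≠ 0), ∑ y ∈ Kf p z, φ.1 (z ^ t.val * y) :=
    ⟨_, fun _ => rfl⟩
  -- the sum of `χ χ̄` over the singular part of the centralizer, in two ways
  have hS1 : ∑ t ∈ Finset.univ.filter (fun t : ZMod p => t ≠ 0), ∑ y ∈ Kf p z,
      (χ.1 (z ^ t.val * y) * conj (χ.1 (z ^ t.val * y))) =
      ∑ φ : IrrCharacter G, (m φ : ℂ) * σ φ := by
    calc ∑ t ∈ Finset.univ.filter (fun t : ZMod p => t ≠ 0), ∑ y ∈ Kf p z,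
        (χ.1 (z ^ t.val * y) * conj (χ.1 (z ^ t.val * y)))
        = ∑ t ∈ Finset.univ.filter (fun t : ZMod p => t ≠ 0), ∑ y ∈ Kf p z,
            ∑ φ : IrrCharacter G, (m φ : ℂ) * φ.1 (z ^ t.val * y) := by
          refine Finset.sum_congr rfl fun t _ => Finset.sum_congr rfl fun y _ => ?_
          rw [hdec]
      _ = ∑ t ∈ Finset.univ.filter (fun t : ZMod p => t ≠ 0), ∑ φ : IrrCharacter G,
            ∑ y ∈ Kf p z, (m φ : ℂ) * φ.1 (z ^ t.val * y) := by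
          refine Finset.sum_congr rfl fun t _ => ?_
          rw [Finset.sum_comm]
      _ = ∑ φ : IrrCharacter G, ∑ t ∈ Finset.univ.filter (fun t : ZMod p => t ≠ 0),
            ∑ y ∈ Kf p z, (m φ : ℂ) * φ.1 (z ^ t.val * y) := by
          rw [Finset.sum_comm]
      _ = ∑ φ : IrrCharacter G, (m φ : ℂ) * σ φ := by
          refine Finset.sum_congr rfl fun φ _ => ?_
          rw [hσ, Finset.mul_sum]
          refine Finset.sum_congr rfl fun t _ => ?_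
          rw [Finset.mul_sum]
  have hS2 : ∑ t ∈ Finset.univ.filter (fun t : ZMod p => t ≠ 0), ∑ y ∈ Kf p z,
      (χ.1 (z ^ t.val * y) * conj (χ.1 (z ^ t.val * y))) =
      ((((Kf p z).card : ℝ) * e * ((e : ℝ) + 1) : ℝ) : ℂ) := by
    have h1 : ∀ t ∈ Finset.univ.filter (fun t : ZMod p => t ≠ 0), ∑ y ∈ Kf p z,
        (χ.1 (z ^ t.val * y) * conj (χ.1 (z ^ t.val * y))) =
        ((((Kf p z).card : ℝ) * ‖eta p ζ t‖ ^ 2 : ℝ) : ℂ) := by
      intro t _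
      rw [Finset.sum_congr rfl (fun y hy => by
        rw [Complex.mul_conj', mom_val p χ z ζ hHP t y ((hkfz y).mp hy)]),
        Finset.sum_const, nsmul_eq_mul]
      push_cast
      ring
    rw [Finset.sum_congr rfl h1, ← Complex.ofReal_sum, ← Finset.mul_sum,
      n4_A2 p ζ e hdeg heta0 hpars]
    push_cast
    ring
  have hS3 : ∑ φ : IrrCharacter G, (m φ : ℝ) * (σ φ).re =
      ((Kf p z).card : ℝ) * e * ((e : ℝ) + 1) := by
    have h1 := congrArg Complex.re (hS1.symm.trans hS2)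
    rw [Complex.ofReal_re, Complex.re_sum] at h1
    rw [← h1]
    refine Finset.sum_congr rfl fun φ _ => ?_
    rw [Complex.mul_re, Complex.natCast_re, Complex.natCast_im, zero_mul, sub_zero]
  -- the trivial character
  have hd1 : charDegree o.1 = 1 := by
    rw [ho1]
    simp [charDegree]
  have hs1 : (σ o).re = 2 * (e : ℝ) * (Kf p z).card := by
    rw [hσ, ho1]
    simp only [Finset.sum_const, nsmul_eq_mul, mul_one]
    have h6 : Finset.univ.filter (fun t : ZMod p => t ≠ 0) = Finset.univ.erase 0 := by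
      ext t
      simp
    rw [h6, Finset.card_erase_of_mem (Finset.mem_univ _), Finset.card_univ, ZMod.card]
    have h7 : p - 1 = 2 * e := by omega
    rw [h7]
    norm_cast
  -- the basic inequality
  have hlb' : ∀ φ : IrrCharacter G, φ ≠ o → m φ ≠ 0 →
      ((e : ℝ) + 1) * (σ φ).re ≤ (e : ℝ) * (charDegree φ.1 : ℕ) * ((Kf p z).card : ℕ) ∧
      (((e : ℝ) + 1) * (σ φ).re = (e : ℝ) * (charDegree φ.1 : ℕ) * ((Kf p z).card : ℕ) →
        charDegree φ.1 ≤ 2 * e + 2) := by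
    intro φ hφo hmφ
    have hd : charDegree φ.1 ≠ 1 := by
      intro h1
      apply hφo
      apply Subtype.ext
      rw [ho1]
      apply hnolin φ h1
      rw [hinner φ]
      exact_mod_cast hmφ
    obtain ⟨s, hs, hle, heq⟩ := hlb φ hd
    have hre : (σ φ).re = s := by rw [hσ, hs, Complex.ofReal_re]
    rw [hre]
    refine ⟨hle, fun h => ?_⟩
    have h2 := heq h
    omega
  have h5 := Cfsg.Agent.Lib.Helper4.HPT.norm4_arith o m (fun φ => charDegree φ.1)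
    (fun φ => (σ φ).re) e (Kf p z).card hKpos hpos (hm1 o ho1) hd1 hs1 hmdeg hS3 hlb'
  have h6 : (1 + ((e / 2 : ℕ) : ℝ)) ≤ ∑ φ : IrrCharacter G, (m φ : ℝ) ^ 2 := by
    have h7 : ((1 + e / 2 : ℕ) : ℝ) ≤ ((∑ φ : IrrCharacter G, m φ ^ 2 : ℕ) : ℝ) := by
      exact_mod_cast h5
    push_cast at h7
    exact h7
  rw [hm4]
  exact mul_le_mul_of_nonneg_left h6 (Nat.cast_nonneg _)

end

end Cfsg.Agent.Lib.Helper64.HPT
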