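import Mathlib
import Cfsg.Agent.Lib.Helper72.JRDefs

/-!
# JR piece HA (helper64, for helper72's S2950 project)

Every `J(T)`-component of a 2-local subgroup `H ⊇ K ⊔ J(T)` normalizes `YOf M T K`.
-/

set_option autoImplicit false

namespace Cfsg.Agent.Lib.Helper64.JR

open Cfsg.Agent.Lib.Helper72.JR Cfsg.Agent.Lib.Helper72.JP Cfsg.Agent.Lib.Helper72.JM
  Cfsg.Agent.Lib.Helper72.JL Cfsg.Agent.Lib.Helper72.SC Cfsg.Agent.Lib.Helper78.Jc

open scoped commutatorElement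

universe u

/-- An element normalizing every member of a family normalizes the join (one direction). -/
theorem ha_conj_mem {G : Type*} [Group G] (S : Set (Subgroup G)) (W : Subgroup G → Subgroup G)
    (x : G) (hx : ∀ A ∈ S, x ∈ Subgroup.normalizer (W A : Set G)) :
    ∀ y ∈ (⨆ A ∈ S, W A), x * y * x⁻¹ ∈ (⨆ A ∈ S, W A) := by
  have h1 : (⨆ A ∈ S, W A) ≤ (⨆ A ∈ S, W A).comap (MulAut.conj x).toMonoidHom := by
    refine iSup₂_le fun A hA => ?_
    intro w hw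
    rw [Subgroup.mem_comap]
    have h2 : x * w * x⁻¹ ∈ W A := (Subgroup.mem_normalizer_iff.mp (hx A hA) w).mp hw
    have h3 : W A ≤ ⨆ A ∈ S, W A := le_iSup₂ (f := fun A (_ : A ∈ S) => W A) A hA
    exact h3 h2
  intro y hy
  exact h1 hy

/-- An element normalizing every member of a family normalizes the join. -/
theorem ha_normalizer_iSup {G : Type*} [Group G] (S : Set (Subgroup G))
    (W : Subgroup G → Subgroup G) (x : G)
    (hx : ∀ A ∈ S, x ∈ Subgroup.normalizer (W A : Set G)) :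
    x ∈ Subgroup.normalizer ((⨆ A ∈ S, W A : Subgroup G) : Set G) := by
  rw [Subgroup.mem_normalizer_iff]
  intro y
  constructor
  · exact ha_conj_mem S W x hx y
  · intro hy
    have h1 := ha_conj_mem S W x⁻¹ (fun A hA => Subgroup.inv_mem _ (hx A hA)) _ hy
    have h2 : x⁻¹ * (x * y * x⁻¹) * x⁻¹⁻¹ = y := by group
    rwa [h2] at h1

/-- JR-HA -/
theorem ha (hLoc : LocStmt.{u}) (hNw : NwStmt.{u}) (hL1 : L1Stmt.{u}) : HaStmt.{u} := by
  intro G _ _ M T K hC hT hK hKM H hH hKH hJH K₁ hK₁ hK₁H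
  have hHM : ¬ H ≤ M := fun h => hKM (hKH.trans h)
  obtain ⟨TH, hTH, hTHne, hHmem, -, hiffH⟩ := hLoc G M T hC hT H hH hHM hJH
  have hK₁N : K₁ ≤ Subgroup.normalizer (Cfsg.wOf K : Set G) :=
    hL1 G hC.hzn TH hTH hTHne H hHmem K₁ K ((hiffH K₁).mpr hK₁) ((hiffH K).mpr hK) hK₁H hKH
  obtain ⟨hJN, hKN, hWp, hWne, -⟩ := hNw G T K hK
  have hN : Cfsg.IsTwoLocal (Subgroup.normalizer (Cfsg.wOf K : Set G)) :=
    ⟨Cfsg.wOf K, hWp, hWne, rfl⟩
  have hNM : ¬ Subgroup.normalizer (Cfsg.wOf K : Set G) ≤ M := fun h => hKM (hKN.trans h)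
  obtain ⟨TN, hTN, hTNne, hNmem, -, hiffN⟩ :=
    hLoc G M T hC hT (Subgroup.normalizer (Cfsg.wOf K : Set G)) hN hNM hJN
  intro x hx
  have hx' : ∀ K' ∈ Fam M T K, x ∈ Subgroup.normalizer (Cfsg.wOf K' : Set G) := by
    intro K' hK'
    obtain ⟨hK'c, -, hK'N⟩ := hK'
    exact hL1 G hC.hzn TN hTN hTNne (Subgroup.normalizer (Cfsg.wOf K : Set G)) hNmem K₁ K'
      ((hiffN K₁).mpr hK₁) ((hiffN K').mpr hK'c) hK₁N hK'N hx
  exact ha_normalizer_iSup (Fam M T K) (fun A => Cfsg.wOf A) x hx'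

end Cfsg.Agent.Lib.Helper64.JR
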