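import Cfsg.Agent.Lib.Helper47.OmcDefs

/-!
# OMC piece COUNTSTD (helper64 for helper47): the number of vectors `a` with prescribed zero
coordinates and `Q a` in the Artin–Schreier image, for the standard plus form (sign-sum argument)
-/

set_option autoImplicit false

namespace Cfsg.Agent.Lib.Helper64.Omc

open Cfsg.Agent.Lib.Helper47 Matrix

variable {F : Type*} [Field F]

open Classical in
/-- the sign character of the Artin–Schreier image -/
noncomputable def wpSign (c : F) : ℤ := if IsWP c then 1 else -1

theorem isWP_zero : IsWP (0 : F) := ⟨0, by ring⟩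

theorem wpSign_zero : wpSign (0 : F) = 1 := by
  unfold wpSign
  rw [if_pos isWP_zero]

theorem wpSign_add {q : ℕ} (hwp : WPFacts F q) (c c' : F) :
    wpSign (c + c') = wpSign c * wpSign c' := by
  obtain ⟨h1, h2, h3, -, -⟩ := hwp
  unfold wpSign
  by_cases hc : IsWP c <;> by_cases hc' : IsWP c'
  · rw [if_pos hc, if_pos hc', if_pos (h1 c c' hc hc')]; norm_num
  · rw [if_pos hc, if_neg hc', if_neg (h3 c c' hc hc')]; norm_num
  · rw [if_neg hc, if_pos hc', if_neg (by rw [add_comm]; exact h3 c' c hc' hc)]; norm_num
  · rw [if_neg hc, if_neg hc', if_pos (h2 c c' hc hc')]; norm_num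

theorem wpSign_sum {q : ℕ} (hwp : WPFacts F q) {ι : Type*} (S : Finset ι) (f : ι → F) :
    wpSign (∑ i ∈ S, f i) = ∏ i ∈ S, wpSign (f i) := by
  classical
  induction S using Finset.induction_on with
  | empty => simp [wpSign_zero]
  | insert i S hi ih =>
    rw [Finset.sum_insert hi, Finset.prod_insert hi, wpSign_add hwp, ih]

theorem sum_wpSign [Fintype F] {q : ℕ} (hF : Fintype.card F = q) (hwp : WPFacts F q) :
    ∑ c : F, wpSign c = 0 := by
  classical
  have h1 : ∑ c : F, wpSign c = ((Finset.univ.filter (fun c : F => IsWP c)).card : ℤ) -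
      ((Finset.univ.filter (fun c : F => ¬ IsWP c)).card : ℤ) := by
    unfold wpSign
    rw [Finset.sum_ite]
    simp
    ring
  have h2 : (Finset.univ.filter (fun c : F => IsWP c)).card +
      (Finset.univ.filter (fun c : F => ¬ IsWP c)).card = q := by
    rw [Finset.card_filter_add_card_filter_not, Finset.card_univ, hF]
  have h3 : (Finset.univ.filter (fun c : F => IsWP c)).card * 2 = q := by
    rw [← hwp.2.2.2.2]
    congr 1
    rw [Nat.card_eq_fintype_card, Fintype.card_subtype]
  rw [h1]
  have h2' : ((Finset.univ.filter (fun c : F => IsWP c)).card : ℤ) +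
      ((Finset.univ.filter (fun c : F => ¬ IsWP c)).card : ℤ) = (q : ℤ) := by exact_mod_cast h2
  have h3' : ((Finset.univ.filter (fun c : F => IsWP c)).card : ℤ) * 2 = (q : ℤ) := by
    exact_mod_cast h3
  linarith

theorem sum_pair [Fintype F] {q : ℕ} (hF : Fintype.card F = q) (hwp : WPFacts F q) :
    ∑ p : F × F, wpSign (p.1 * p.2) = (q : ℤ) := by
  classical
  rw [Fintype.sum_prod_type_right]
  have h1 : ∀ y : F, ∑ x : F, wpSign (x * y) = if y = 0 then (q : ℤ) else 0 := by
    intro y
    by_cases hy : y = 0
    · rw [if_pos hy, hy]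
      simp [wpSign_zero, hF]
    · rw [if_neg hy, ← sum_wpSign hF hwp]
      exact Fintype.sum_equiv (Equiv.mulRight₀ y hy) _ _ (fun x => rfl)
  rw [Finset.sum_congr rfl (fun y _ => h1 y), Finset.sum_ite_eq' Finset.univ (0 : F),
    if_pos (Finset.mem_univ _)]

theorem sum_pair0 [Fintype F] [DecidableEq F] {q : ℕ} (hF : Fintype.card F = q) :
    ∑ p ∈ (Finset.univ ×ˢ {0} : Finset (F × F)), wpSign (p.1 * p.2) = (q : ℤ) := by
  rw [Finset.sum_product]
  simp [wpSign_zero, hF]

theorem prod_ite_lt (q : ℕ) : ∀ (m s : ℕ), s ≤ m →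
    ∏ i ∈ Finset.range m, (if i < s then 1 else q) = q ^ (m - s) := by
  intro m
  induction m with
  | zero => intro s hs; simp
  | succ m ih =>
    intro s hs
    rcases Nat.lt_or_ge m s with h | h
    · have hsm : s = m + 1 := by omega
      subst hsm
      rw [Nat.sub_self, pow_zero]
      apply Finset.prod_eq_one
      intro i hi
      rw [if_pos (Finset.mem_range.mp hi)]
    · rw [Finset.prod_range_succ, ih s h, if_neg (by omega), ← pow_succ]
      congr 1
      omega

-- PIECE COUNTSTD
theorem card_std_wp [Fintype F] [CharP F 2] {q : ℕ} (hF : Fintype.card F = q)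
    (hwp : WPFacts F q) (m s : ℕ) (hs : s ≤ m) :
    Nat.card {a : Fin m ⊕ Fin m → F // (∀ i : Fin m, i.val < s → a (Sum.inr i) = 0) ∧
      IsWP (Cfsg.quadFormPlus m F a)} * 2 = q ^ m * (q ^ (m - s) + 1) := by
  classical
  -- the index sets
  let t : Fin m → Finset (F × F) := fun i => if i.val < s then Finset.univ ×ˢ {0} else Finset.univ
  let T : Finset (Fin m → F × F) := Fintype.piFinset t
  let g : (Fin m → F × F) → F := fun b => ∑ i, (b i).1 * (b i).2
  let e : (Fin m ⊕ Fin m → F) ≃ (Fin m → F × F) :=
    { toFun := fun a i => (a (Sum.inl i), a (Sum.inr i))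
      invFun := fun b => Sum.elim (fun i => (b i).1) (fun i => (b i).2)
      left_inv := fun a => by
        funext j
        rcases j with j | j <;> rfl
      right_inv := fun b => rfl }
  -- Step A
  have hA : Nat.card {a : Fin m ⊕ Fin m → F // (∀ i : Fin m, i.val < s → a (Sum.inr i) = 0) ∧
      IsWP (Cfsg.quadFormPlus m F a)} = (T.filter (fun b => IsWP (g b))).card := by
    have h1 : ∀ a : Fin m ⊕ Fin m → F, ((∀ i : Fin m, i.val < s → a (Sum.inr i) = 0) ∧
        IsWP (Cfsg.quadFormPlus m F a)) ↔ e a ∈ T.filter (fun b => IsWP (g b)) := by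
      intro a
      rw [Finset.mem_filter, Fintype.mem_piFinset]
      have h2 : g (e a) = Cfsg.quadFormPlus m F a := rfl
      rw [h2]
      refine and_congr ?_ Iff.rfl
      refine forall_congr' (fun i => ?_)
      by_cases hi : i.val < s
      · have hti : t i = Finset.univ ×ˢ {0} := if_pos hi
        rw [hti, Finset.mem_product, Finset.mem_singleton]
        change (i.val < s → a (Sum.inr i) = 0) ↔
          (a (Sum.inl i) ∈ Finset.univ ∧ a (Sum.inr i) = 0)
        constructor
        · intro h
          exact ⟨Finset.mem_univ _, h hi⟩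
        · intro h _
          exact h.2
      · have hti : t i = Finset.univ := if_neg hi
        rw [hti]
        constructor
        · intro _
          exact Finset.mem_univ _
        · intro _ h
          exact absurd h hi
    rw [Nat.card_congr (e.subtypeEquiv h1), Nat.card_eq_fintype_card, Fintype.card_coe]
  -- Step B
  have hB : ((T.filter (fun b => IsWP (g b))).card : ℤ) * 2 =
      (T.card : ℤ) + ∑ b ∈ T, wpSign (g b) := by
    have h1 : ∑ b ∈ T, wpSign (g b) = ((T.filter (fun b => IsWP (g b))).card : ℤ) -
        ((T.filter (fun b => ¬ IsWP (g b))).card : ℤ) := by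
      unfold wpSign
      rw [Finset.sum_ite]
      simp
      ring
    have h2 : (T.filter (fun b => IsWP (g b))).card + (T.filter (fun b => ¬ IsWP (g b))).card =
        T.card := Finset.card_filter_add_card_filter_not _
    have h2' : ((T.filter (fun b => IsWP (g b))).card : ℤ) +
        ((T.filter (fun b => ¬ IsWP (g b))).card : ℤ) = (T.card : ℤ) := by exact_mod_cast h2
    rw [h1]
    linarith
  -- Step C
  have hC : ∑ b ∈ T, wpSign (g b) = (q : ℤ) ^ m := by
    have h1 : ∀ b ∈ T, wpSign (g b) = ∏ i, wpSign ((b i).1 * (b i).2) :=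
      fun b _ => wpSign_sum hwp Finset.univ _
    rw [Finset.sum_congr rfl h1]
    have h2 := Finset.prod_univ_sum t (fun i (p : F × F) => wpSign (p.1 * p.2))
    rw [← h2]
    have h3 : ∀ i : Fin m, ∑ p ∈ t i, wpSign (p.1 * p.2) = (q : ℤ) := by
      intro i
      by_cases hi : i.val < s
      · have : t i = Finset.univ ×ˢ {0} := if_pos hi
        rw [this]
        exact sum_pair0 hF
      · have : t i = Finset.univ := if_neg hi
        rw [this]
        exact sum_pair hF hwp
    rw [Finset.prod_congr rfl (fun i _ => h3 i), Finset.prod_const, Finset.card_univ,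
      Fintype.card_fin]
  -- Step D
  have hD : T.card = q ^ m * q ^ (m - s) := by
    rw [Fintype.card_piFinset]
    have h1 : ∀ i : Fin m, (t i).card = q * (if i.val < s then 1 else q) := by
      intro i
      by_cases hi : i.val < s
      · have : t i = Finset.univ ×ˢ {0} := if_pos hi
        rw [this, if_pos hi, Finset.card_product, Finset.card_univ, hF, Finset.card_singleton]
      · have : t i = Finset.univ := if_neg hi
        rw [this, if_neg hi, Finset.card_univ, Fintype.card_prod, hF]
    rw [Finset.prod_congr rfl (fun i _ => h1 i), Finset.prod_mul_distrib, Finset.prod_const,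
      Finset.card_univ, Fintype.card_fin,
      Fin.prod_univ_eq_prod_range (fun i => if i < s then 1 else q) m, prod_ite_lt q m s hs]
  rw [hA]
  have hfin : ((T.filter (fun b => IsWP (g b))).card : ℤ) * 2 =
      ((q ^ m * (q ^ (m - s) + 1) : ℕ) : ℤ) := by
    rw [hB, hC, hD]
    push_cast
    ring
  exact_mod_cast hfin

end Cfsg.Agent.Lib.Helper64.Omc
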