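import Cfsg.Agent.Lib.Helper47.OmcDefs

/-!
# OMC piece TRANSV (helper64 for helper47): the symplectic transvection realizing `Q_a`
-/

set_option autoImplicit false

namespace Cfsg.Agent.Lib.Helper64.Omc

open Cfsg.Agent.Lib.Helper47 Matrix

variable {F : Type*} [Field F]

/-- the transvection matrix `v ↦ v + (c * B(a, v)) • a` -/
theorem transv_mulVec (m : ℕ) (a : Fin m ⊕ Fin m → F) (c : F) (v : Fin m ⊕ Fin m → F) :
    (1 + c • Matrix.vecMulVec a (a ᵥ* Matrix.J (Fin m) F)) *ᵥ v =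
      v + (c * spForm (Fin m) F a v) • a := by
  rw [Matrix.add_mulVec, Matrix.one_mulVec, Matrix.smul_mulVec]
  congr 1
  ext i
  simp only [Pi.smul_apply, smul_eq_mul, Matrix.mulVec, Matrix.vecMulVec_apply, spForm,
    Matrix.dotProduct_mulVec]
  simp only [dotProduct, Finset.mul_sum]
  rw [Finset.sum_mul]
  refine Finset.sum_congr rfl (fun j _ => ?_)
  ring

-- PIECE TRANSV
theorem exists_transv [CharP F 2] (m : ℕ) (a : Fin m ⊕ Fin m → F)
    (ha : IsWP (Cfsg.quadFormPlus m F a)) :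
    ∃ A : Matrix (Fin m ⊕ Fin m) (Fin m ⊕ Fin m) F, A ∈ Matrix.symplecticGroup (Fin m) F ∧
      (∀ v, Cfsg.quadFormPlus m F (A *ᵥ v)
        = Cfsg.quadFormPlus m F v + (spForm (Fin m) F a v) ^ 2) ∧
      ∀ M : Matrix (Fin m ⊕ Fin m) (Fin m ⊕ Fin m) F, M ∈ Matrix.symplecticGroup (Fin m) F →
        M *ᵥ a = a → A * M = M * A := by
  classical
  obtain ⟨z, hz⟩ := ha
  have hB : IsSForm (RingHom.id F) (-1) (spForm (Fin m) F) := spForm_isSForm
  have h2 : (2 : F) = 0 := CharTwo.two_eq_zero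
  obtain ⟨c, hc⟩ : ∃ c : F, c ^ 2 * Cfsg.quadFormPlus m F a + c = 1 := by
    by_cases h0 : Cfsg.quadFormPlus m F a = 0
    · exact ⟨1, by rw [h0]; ring⟩
    · refine ⟨z / Cfsg.quadFormPlus m F a, ?_⟩
      field_simp
      rw [hz]
      ring
  have hsymm : ∀ x y, spForm (Fin m) F y x = -spForm (Fin m) F x y := by
    intro x y
    have := hB.symm x y
    simpa using this
  refine ⟨1 + c • Matrix.vecMulVec a (a ᵥ* Matrix.J (Fin m) F), ?_, ?_, ?_⟩
  · apply mem_sp_of_isometry
    intro x y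
    rw [transv_mulVec, transv_mulVec, hB.add_left, hB.add_right, hB.add_right, hB.smul_left,
      hB.smul_left, hB.smul_right, hB.smul_right, spForm_alt, hsymm a x]
    simp only [RingHom.id_apply]
    ring
  · intro v
    rw [transv_mulVec, qplus_add, qplus_smul, hB.smul_right, hsymm a v]
    simp only [RingHom.id_apply]
    have e1 : Cfsg.quadFormPlus m F v + (c * spForm (Fin m) F a v) ^ 2 * Cfsg.quadFormPlus m F a +
        c * spForm (Fin m) F a v * -spForm (Fin m) F a v =
        Cfsg.quadFormPlus m F v + (spForm (Fin m) F a v) ^ 2 *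
          (c ^ 2 * Cfsg.quadFormPlus m F a + c) - 2 * (c * (spForm (Fin m) F a v) ^ 2) := by ring
    rw [e1, hc, h2]
    ring
  · intro M hM hMa
    apply Matrix.toLin'.injective
    apply LinearMap.ext
    intro v
    rw [Matrix.toLin'_apply, Matrix.toLin'_apply, ← Matrix.mulVec_mulVec, ← Matrix.mulVec_mulVec,
      transv_mulVec, transv_mulVec, Matrix.mulVec_add, Matrix.mulVec_smul, hMa]
    have h3 := spForm_isometry hM a v
    rw [Matrix.toLin'_apply, Matrix.toLin'_apply, hMa] at h3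
    rw [h3]

end Cfsg.Agent.Lib.Helper64.Omc
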