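import Mathlib
import Cfsg.Prelude.Def_GeometricClasses
import Cfsg.Prelude.Def_Classical

/-!
S5981 piece OQ-IDX (helper96's project; written by helper64): the index of the similarity group
of a nondegenerate quadratic form in `SL_n(F)` times a cofactor times the order of the isometry
group is `2 |SL_n(F)|` (the determinant is `±1` on isometries).
-/

set_option autoImplicit false

universe u

namespace Cfsg.Agent.Lib.Helper64.Oq

open Polynomial Matrix
open scoped MatrixGroups

/-- the determinant of an isometry of a nondegenerate quadratic form squares to one -/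
theorem idx_det_sq {F : Type*} [Field F] (n : ℕ)
    (Q : (Fin n → F) → F) (hQ : Cfsg.Geo.IsNondegenerateQuadraticForm Q)
    (g : Matrix (Fin n) (Fin n) F) (hg : ∀ u, Q (g *ᵥ u) = Q u) : g.det * g.det = 1 := by
  classical
  have hB := hQ.polar_bilinear
  obtain ⟨B, hBapp⟩ : ∃ B : LinearMap.BilinForm F (Fin n → F),
      ∀ u v, B u v = QuadraticMap.polar Q u v :=
    ⟨LinearMap.mk₂ F (QuadraticMap.polar Q) hB.add_left
      (fun c x v => by rw [smul_eq_mul]; exact hB.smul_left c x v) hB.add_right
      (fun c v x => by rw [smul_eq_mul]; exact hB.smul_right c v x), fun u v => rfl⟩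
  have hBnd : B.Nondegenerate := by
    refine ⟨?_, ?_⟩
    · intro x hx
      by_contra hx0
      obtain ⟨y, hy⟩ := (hQ.nondegenerate x hx0).2
      exact hy (by rw [← hBapp]; exact hx y)
    · intro y hy
      by_contra hy0
      obtain ⟨x, hx⟩ := (hQ.nondegenerate y hy0).1
      exact hx (by rw [← hBapp]; exact hy x)
  have hMdet : (LinearMap.BilinForm.toMatrix' B).det ≠ 0 :=
    Matrix.nondegenerate_iff_det_ne_zero.1
      (LinearMap.BilinForm.nondegenerate_toMatrix'_iff.2 hBnd)
  have hcomp : B.comp (Matrix.toLin' g) (Matrix.toLin' g) = B := by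
    apply LinearMap.ext₂
    intro u v
    rw [LinearMap.BilinForm.comp_apply, hBapp, hBapp, Matrix.toLin'_apply, Matrix.toLin'_apply]
    unfold QuadraticMap.polar
    rw [← Matrix.mulVec_add, hg, hg, hg]
  have hmat := LinearMap.BilinForm.toMatrix'_comp B (Matrix.toLin' g) (Matrix.toLin' g)
  rw [hcomp, LinearMap.toMatrix'_toLin'] at hmat
  have hd := congrArg Matrix.det hmat
  rw [Matrix.det_mul, Matrix.det_mul, Matrix.det_transpose] at hd
  have h1 : (g.det * g.det) * (LinearMap.BilinForm.toMatrix' B).det =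
      1 * (LinearMap.BilinForm.toMatrix' B).det := by
    rw [one_mul]
    calc (g.det * g.det) * (LinearMap.BilinForm.toMatrix' B).det
        = g.det * (LinearMap.BilinForm.toMatrix' B).det * g.det := by ring
      _ = (LinearMap.BilinForm.toMatrix' B).det := hd.symm
  exact mul_right_cancel₀ hMdet h1

-- PIECE IDX
theorem idx_mul {F : Type*} [Field F] [Fintype F] (n : ℕ)
    (Q : (Fin n → F) → F) (hQ : Cfsg.Geo.IsNondegenerateQuadraticForm Q) :
    ∃ t : ℕ, (Cfsg.Geo.quadSimilarityGroup Q).relIndex (Cfsg.Geo.specialLinear (Fin n) F) * t *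
      Nat.card ↥(Cfsg.isometryGroup F Q) = 2 * Nat.card (Matrix.SpecialLinearGroup (Fin n) F) := by
  classical
  -- the special linear group is the range of `toGL`
  have hS : Cfsg.Geo.specialLinear (Fin n) F =
      (Matrix.SpecialLinearGroup.toGL :
        Matrix.SpecialLinearGroup (Fin n) F →* GL (Fin n) F).range := by
    ext x
    rw [Cfsg.Geo.specialLinear, MonoidHom.mem_ker, MonoidHom.mem_range]
    constructor
    · intro hx
      have hdet : (x : Matrix (Fin n) (Fin n) F).det = 1 := by
        have := congrArg Units.val hx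
        simpa using this
      exact ⟨⟨(x : Matrix (Fin n) (Fin n) F), hdet⟩, Units.ext rfl⟩
    · rintro ⟨A, rfl⟩
      apply Units.ext
      rw [Matrix.GeneralLinearGroup.val_det_apply]
      exact A.2
  have hcardS : Nat.card ↥(Cfsg.Geo.specialLinear (Fin n) F) =
      Nat.card (Matrix.SpecialLinearGroup (Fin n) F) := by
    rw [hS, MonoidHom.range_eq_map,
      Subgroup.card_map_of_injective Matrix.SpecialLinearGroup.toGL_injective, Subgroup.card_top]
  have hImem : ∀ g : GL (Fin n) F, g ∈ Cfsg.isometryGroup F Q ↔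
      ∀ u, Q ((g : Matrix (Fin n) (Fin n) F) *ᵥ u) = Q u :=
    fun g => ⟨fun h u => h u u, fun h u _ => h u⟩
  obtain ⟨K0, hK0⟩ : ∃ K0 : Subgroup (GL (Fin n) F),
      K0 = Cfsg.Geo.specialLinear (Fin n) F ⊓ Cfsg.isometryGroup F Q := ⟨_, rfl⟩
  have hK0le : K0 ≤ Cfsg.Geo.quadSimilarityGroup Q ⊓ Cfsg.Geo.specialLinear (Fin n) F := by
    rw [hK0]
    intro g hg
    exact ⟨⟨1, fun v => by rw [Units.val_one, one_mul]; exact (hImem g).1 hg.2 v⟩, hg.1⟩
  -- the index of `K0` in the isometry group is `1` or `2`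
  have hj : K0.relIndex (Cfsg.isometryGroup F Q) = 1 ∨ K0.relIndex (Cfsg.isometryGroup F Q) = 2 := by
    have h1 : K0.relIndex (Cfsg.isometryGroup F Q) =
        Nat.card ↥((Cfsg.isometryGroup F Q).map
          (Matrix.GeneralLinearGroup.det : GL (Fin n) F →* Fˣ)) := by
      rw [hK0, Subgroup.inf_relIndex_right]
      exact Subgroup.relIndex_ker _ _
    have h2 : (((Cfsg.isometryGroup F Q).map
        (Matrix.GeneralLinearGroup.det : GL (Fin n) F →* Fˣ) : Subgroup Fˣ) : Set Fˣ) ⊆
        (({1, -1} : Finset Fˣ) : Set Fˣ) := by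
      rintro _ ⟨g, hg, rfl⟩
      have hsq := idx_det_sq n Q hQ (g : Matrix (Fin n) (Fin n) F) ((hImem g).1 hg)
      have hor : (g : Matrix (Fin n) (Fin n) F).det = 1 ∨
          (g : Matrix (Fin n) (Fin n) F).det = -1 := mul_self_eq_one_iff.1 hsq
      simp only [Finset.coe_insert, Finset.coe_singleton, Set.mem_insert_iff,
        Set.mem_singleton_iff]
      rcases hor with h | h
      · left
        apply Units.ext
        rw [Matrix.GeneralLinearGroup.val_det_apply, h, Units.val_one]
      · right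
        apply Units.ext
        rw [Matrix.GeneralLinearGroup.val_det_apply, h, Units.val_neg, Units.val_one]
    have h3 : Set.ncard (((Cfsg.isometryGroup F Q).map
        (Matrix.GeneralLinearGroup.det : GL (Fin n) F →* Fˣ) : Subgroup Fˣ) : Set Fˣ) ≤
        Set.ncard ((({1, -1} : Finset Fˣ) : Set Fˣ)) :=
      Set.ncard_le_ncard h2 (Finset.finite_toSet _)
    rw [Set.ncard_coe_finset] at h3
    have h4 : ({1, -1} : Finset Fˣ).card ≤ 2 := Finset.card_le_two
    have h5 : Nat.card ↥((Cfsg.isometryGroup F Q).map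
        (Matrix.GeneralLinearGroup.det : GL (Fin n) F →* Fˣ)) =
        Set.ncard (((Cfsg.isometryGroup F Q).map
          (Matrix.GeneralLinearGroup.det : GL (Fin n) F →* Fˣ) : Subgroup Fˣ) : Set Fˣ) :=
      Nat.card_coe_set_eq _
    have h6 : 0 < Nat.card ↥((Cfsg.isometryGroup F Q).map
        (Matrix.GeneralLinearGroup.det : GL (Fin n) F →* Fˣ)) := Nat.card_pos
    omega
  have hK0I : K0 ≤ Cfsg.isometryGroup F Q := by rw [hK0]; exact inf_le_right
  have hcardI : Nat.card K0 * K0.relIndex (Cfsg.isometryGroup F Q) =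
      Nat.card ↥(Cfsg.isometryGroup F Q) := by
    rw [← Subgroup.relIndex_bot_left (H := K0),
      ← Subgroup.relIndex_bot_left (H := Cfsg.isometryGroup F Q)]
    exact Subgroup.relIndex_mul_relIndex _ _ _ bot_le hK0I
  have hmain : (Cfsg.Geo.quadSimilarityGroup Q).relIndex (Cfsg.Geo.specialLinear (Fin n) F) *
      K0.relIndex (Cfsg.Geo.quadSimilarityGroup Q ⊓ Cfsg.Geo.specialLinear (Fin n) F) *
      Nat.card K0 = Nat.card (Matrix.SpecialLinearGroup (Fin n) F) := by
    rw [← hcardS, ← Subgroup.relIndex_bot_left (H := K0),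
      ← Subgroup.inf_relIndex_right (Cfsg.Geo.quadSimilarityGroup Q)
        (Cfsg.Geo.specialLinear (Fin n) F),
      ← Subgroup.relIndex_bot_left (H := Cfsg.Geo.specialLinear (Fin n) F),
      mul_comm ((Cfsg.Geo.quadSimilarityGroup Q ⊓ Cfsg.Geo.specialLinear (Fin n) F).relIndex _),
      Subgroup.relIndex_mul_relIndex _ _ _ hK0le inf_le_right, mul_comm,
      Subgroup.relIndex_mul_relIndex _ _ _ bot_le (hK0le.trans inf_le_right)]
  rcases hj with hj | hj
  · refine ⟨K0.relIndex (Cfsg.Geo.quadSimilarityGroup Q ⊓ Cfsg.Geo.specialLinear (Fin n) F) * 2,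
      ?_⟩
    rw [← hcardI, hj, mul_one, ← hmain]
    ring
  · refine ⟨K0.relIndex (Cfsg.Geo.quadSimilarityGroup Q ⊓ Cfsg.Geo.specialLinear (Fin n) F), ?_⟩
    rw [← hcardI, hj, ← hmain]
    ring

end Cfsg.Agent.Lib.Helper64.Oq
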