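import Cfsg.Agent.Lib.Helper22.PTDefs
import Cfsg.Agent.Lib.Helper4.CharDecomp
import Cfsg.Agent.Lib.Helper80.Twisted
import Cfsg.Agent.Lib.Helper82.CharCore

/-!
# PT piece DECGEN (helper64, for helper22's S4705 project)

Decomposition of a character with central character `η` along a block structure `Blk`.
-/

set_option autoImplicit false

namespace Cfsg.Agent.Lib.Helper64.PT

open Cfsg Cfsg.Agent.Lib.Helper22.BFD Cfsg.Agent.Lib.Helper22.PT
open scoped ComplexConjugate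

universe u

variable {G : Type u} [Group G] [Fintype G]

/-- Coefficient extraction for combinations of irreducible characters. -/
theorem decgen_coef [Fintype (IrrCharacter G)] (a b : IrrCharacter G → ℂ)
    (h : ∀ g, ∑ φ : IrrCharacter G, a φ * φ.1 g = ∑ φ : IrrCharacter G, b φ * φ.1 g)
    (φ₀ : IrrCharacter G) : a φ₀ = b φ₀ := by
  have h1 : (∑ φ : IrrCharacter G, a φ • (φ : G → ℂ)) =
      ∑ φ : IrrCharacter G, b φ • (φ : G → ℂ) := by
    funext g
    simp only [Finset.sum_apply, Pi.smul_apply, smul_eq_mul]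
    exact h g
  have h2 := Cfsg.Agent.Lib.Helper4.classInner_sum_irr a φ₀
  rw [h1, Cfsg.Agent.Lib.Helper4.classInner_sum_irr] at h2
  exact h2.symm

/-- Constituents of a character with central character `η` have central character `η`. -/
theorem decgen_zc [Fintype (IrrCharacter G)] (η : G → ℂ) (m : IrrCharacter G → ℕ) (Ξ : G → ℂ)
    (hm : ∀ g, Ξ g = ∑ φ : IrrCharacter G, (m φ : ℂ) * φ.1 g) (hz : ZC η Ξ)
    (φ₀ : IrrCharacter G) (h0 : m φ₀ ≠ 0) : ZC η φ₀.1 := by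
  intro c hc g
  have hcomm : ∀ g, c * g = g * c := fun g => (Subgroup.mem_center_iff.mp hc g).symm
  have key : (m φ₀ : ℂ) * Cfsg.Agent.Lib.Helper80.cc φ₀ c = η c * (m φ₀ : ℂ) := by
    refine decgen_coef (fun φ => (m φ : ℂ) * Cfsg.Agent.Lib.Helper80.cc φ c)
      (fun φ => η c * (m φ : ℂ)) ?_ φ₀
    intro g
    have h1 := hz c hc g
    rw [hm, hm, Finset.mul_sum] at h1
    calc ∑ φ : IrrCharacter G, (m φ : ℂ) * Cfsg.Agent.Lib.Helper80.cc φ c * φ.1 g
        = ∑ φ : IrrCharacter G, (m φ : ℂ) * φ.1 (c * g) := by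
          refine Finset.sum_congr rfl fun φ _ => ?_
          rw [hcomm g, Cfsg.Agent.Lib.Helper80.irr_mul_central φ hc g]; ring
      _ = ∑ φ : IrrCharacter G, η c * ((m φ : ℂ) * φ.1 g) := h1
      _ = _ := Finset.sum_congr rfl fun φ _ => by ring
  have h0' : (m φ₀ : ℂ) ≠ 0 := Nat.cast_ne_zero.mpr h0
  have h2 : Cfsg.Agent.Lib.Helper80.cc φ₀ c = η c := by
    have h3 := key
    rw [mul_comm (η c)] at h3
    exact mul_left_cancel₀ h0' h3
  rw [hcomm g, Cfsg.Agent.Lib.Helper80.irr_mul_central φ₀ hc g, h2]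

/-- A unit of `ZMod p` (`p` an odd prime) is not its own negative. -/
theorem decgen_ne_neg (p : ℕ) [Fact p.Prime] (hp2 : p ≠ 2) (k : (ZMod p)ˣ) : k ≠ -k := by
  intro h
  have hp : p.Prime := Fact.out
  have h1 : (k : ZMod p) = -(k : ZMod p) := by
    have := congrArg (fun x : (ZMod p)ˣ => (x : ZMod p)) h
    simpa using this
  have h2 : (2 : ZMod p) * (k : ZMod p) = 0 := by
    have : (k : ZMod p) + (k : ZMod p) = 0 := by
      nth_rewrite 1 [h1]; ring
    rw [two_mul]; exact this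
  have h3 : (2 : ZMod p) ≠ 0 := by
    intro h4
    have h5 : ((2 : ℕ) : ZMod p) = 0 := by exact_mod_cast h4
    rw [ZMod.natCast_eq_zero_iff] at h5
    have := (Nat.prime_dvd_prime_iff_eq hp Nat.prime_two).mp h5
    exact hp2 this
  rcases mul_eq_zero.mp h2 with h4 | h4
  · exact h3 h4
  · exact k.ne_zero h4

/-- The fibres of `Y` have two elements. -/
theorem decgen_fib (p : ℕ) [Fact p.Prime] (hp2 : p ≠ 2) (w : ℂ) (z : G)
    (η : G → ℂ) (u : ZMod p) (χ₁ χ₂ : IrrCharacter G) (Y : (ZMod p)ˣ → IrrCharacter G)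
    (hB : Blk G p w z η u χ₁ χ₂ Y) [DecidableEq (IrrCharacter G)] (φ : IrrCharacter G) :
    ((Finset.univ.filter (fun k : (ZMod p)ˣ => Y k = φ)).card : ℂ) =
      if ∃ k, φ = Y k then 2 else 0 := by
  classical
  by_cases hc : ∃ k, φ = Y k
  · rw [if_pos hc]
    obtain ⟨k₀, rfl⟩ := hc
    have h1 : Finset.univ.filter (fun k : (ZMod p)ˣ => Y k = Y k₀) = {k₀, -k₀} := by
      ext k
      simp only [Finset.mem_filter, Finset.mem_univ, true_and, Finset.mem_insert,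
        Finset.mem_singleton]
      exact hB.eqY k k₀
    rw [h1, Finset.card_pair (decgen_ne_neg p hp2 k₀)]
    norm_num
  · rw [if_neg hc]
    have h1 : Finset.univ.filter (fun k : (ZMod p)ˣ => Y k = φ) = ∅ := by
      ext k
      simp only [Finset.mem_filter, Finset.mem_univ, true_and, Finset.notMem_empty, iff_false]
      intro h
      exact hc ⟨k, h.symm⟩
    rw [h1]; simp

/-- PIECE DECGEN -/
theorem decgen [Fintype (IrrCharacter G)] (p : ℕ) [Fact p.Prime] (hp2 : p ≠ 2) (w : ℂ) (z : G)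
    (η : G → ℂ) (u : ZMod p) (χ₁ χ₂ : IrrCharacter G) (Y : (ZMod p)ˣ → IrrCharacter G)
    (hB : Blk G p w z η u χ₁ χ₂ Y) (Ξ : G → ℂ) (hΞ : IsCharacter G Ξ) (hz : ZC η Ξ) :
    Dec p z χ₁ χ₂ Y Ξ := by
  classical
  obtain ⟨m, hm0⟩ := Cfsg.Agent.Lib.Helper4.exists_decomp_of_isCharacter Ξ hΞ
  have hm : ∀ g, Ξ g = ∑ φ : IrrCharacter G, (m φ : ℂ) * φ.1 g := by
    intro g
    rw [hm0]
    simp only [Finset.sum_apply, Pi.smul_apply, smul_eq_mul]
  have hzc : ∀ φ, m φ ≠ 0 → ZC η φ.1 := fun φ h0 => decgen_zc η m Ξ hm hz φ h0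
  set m' : IrrCharacter G → ℕ :=
    fun φ => if φ = χ₁ ∨ φ = χ₂ ∨ ∃ k, φ = Y k then 0 else m φ with hm'
  have hm'0 : ∀ φ, (φ = χ₁ ∨ φ = χ₂ ∨ ∃ k, φ = Y k) → m' φ = 0 := by
    intro φ hc
    simp only [hm']
    rw [if_pos hc]
  have hm'1 : ∀ φ, ¬ (φ = χ₁ ∨ φ = χ₂ ∨ ∃ k, φ = Y k) → m' φ = m φ := by
    intro φ hc
    simp only [hm']
    rw [if_neg hc]
  have hdeg : ∀ φ : IrrCharacter G, φ.1 1 = ((charDegree φ.1 : ℕ) : ℂ) :=
    fun φ => (Cfsg.Agent.Lib.Helper82.irr_charDegree φ).1.symm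
  refine ⟨m χ₁, m χ₂, fun k => m (Y k),
    fun g => ∑ φ : IrrCharacter G, (m' φ : ℂ) * φ.1 g, ?_, ?_, ?_, ?_, ?_, ?_⟩
  · intro k
    have h1 : Y (-k) = Y k := (hB.eqY (-k) k).mpr (Or.inr rfl)
    show m (Y (-k)) = m (Y k)
    rw [h1]
  · intro g
    have hY : ∑ k : (ZMod p)ˣ, ((m (Y k) : ℕ) : ℂ) * (Y k).1 g =
        ∑ φ : IrrCharacter G, (if ∃ k, φ = Y k then (2 : ℂ) else 0) * ((m φ : ℂ) * φ.1 g) := by
      rw [← Finset.sum_fiberwise (Finset.univ : Finset (ZMod p)ˣ) Y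
        (fun k => ((m (Y k) : ℕ) : ℂ) * (Y k).1 g)]
      refine Finset.sum_congr rfl fun φ _ => ?_
      rw [← decgen_fib p hp2 w z η u χ₁ χ₂ Y hB φ]
      rw [Finset.sum_congr rfl (fun k hk => by
        rw [(Finset.mem_filter.mp hk).2] :
        ∀ k ∈ Finset.univ.filter (fun k : (ZMod p)ˣ => Y k = φ),
          ((m (Y k) : ℕ) : ℂ) * (Y k).1 g = (m φ : ℂ) * φ.1 g)]
      rw [Finset.sum_const, nsmul_eq_mul]
    have h1 : 2 * ((m χ₁ : ℕ) : ℂ) * χ₁.1 g =
        ∑ φ : IrrCharacter G, (if φ = χ₁ then 2 * ((m φ : ℕ) : ℂ) * φ.1 g else 0) := by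
      rw [Finset.sum_ite_eq' Finset.univ χ₁]; simp
    have h2 : 2 * ((m χ₂ : ℕ) : ℂ) * χ₂.1 g =
        ∑ φ : IrrCharacter G, (if φ = χ₂ then 2 * ((m φ : ℕ) : ℂ) * φ.1 g else 0) := by
      rw [Finset.sum_ite_eq' Finset.univ χ₂]; simp
    show 2 * Ξ g = 2 * ((m χ₁ : ℕ) : ℂ) * χ₁.1 g + 2 * ((m χ₂ : ℕ) : ℂ) * χ₂.1 g +
      ∑ k : (ZMod p)ˣ, ((m (Y k) : ℕ) : ℂ) * (Y k).1 g +
      2 * ∑ φ : IrrCharacter G, (m' φ : ℂ) * φ.1 g
    rw [hY, h1, h2, hm, Finset.mul_sum, Finset.mul_sum, ← Finset.sum_add_distrib,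
      ← Finset.sum_add_distrib, ← Finset.sum_add_distrib]
    refine Finset.sum_congr rfl fun φ _ => ?_
    by_cases c1 : φ = χ₁
    · have c2 : ¬ φ = χ₂ := by rw [c1]; exact hB.ne12
      have c3 : ¬ ∃ k, φ = Y k := by
        rintro ⟨k, hk⟩
        exact hB.neY1 k (by rw [← hk, c1])
      rw [if_pos c1, if_neg c2, if_neg c3, hm'0 φ (Or.inl c1)]
      push_cast; ring
    · by_cases c2 : φ = χ₂
      · have c3 : ¬ ∃ k, φ = Y k := by
          rintro ⟨k, hk⟩
          exact hB.neY2 k (by rw [← hk, c2])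
        rw [if_neg c1, if_pos c2, if_neg c3, hm'0 φ (Or.inr (Or.inl c2))]
        push_cast; ring
      · by_cases c3 : ∃ k, φ = Y k
        · rw [if_neg c1, if_neg c2, if_pos c3, hm'0 φ (Or.inr (Or.inr c3))]
          push_cast; ring
        · have c4 : ¬ (φ = χ₁ ∨ φ = χ₂ ∨ ∃ k, φ = Y k) := by
            rintro (h | h | h)
            · exact c1 h
            · exact c2 h
            · exact c3 h
          rw [if_neg c1, if_neg c2, if_neg c3, hm'1 φ c4]
          ring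
  · intro t ht
    apply Finset.sum_eq_zero
    intro φ _
    by_cases hc : φ = χ₁ ∨ φ = χ₂ ∨ ∃ k, φ = Y k
    · rw [hm'0 φ hc]; simp
    · by_cases h0 : m φ = 0
      · rw [hm'1 φ hc, h0]; simp
      · rcases hB.rest φ (hzc φ h0) with h | h | h | h
        · exact absurd (Or.inl h) hc
        · exact absurd (Or.inr (Or.inl h)) hc
        · exact absurd (Or.inr (Or.inr h)) hc
        · rw [h t ht, mul_zero]
  · refine ⟨∑ φ : IrrCharacter G, m' φ * charDegree φ.1, ?_⟩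
    push_cast
    refine Finset.sum_congr rfl fun φ _ => ?_
    rw [hdeg φ]
  · intro h1 g
    have h2 : ∑ φ : IrrCharacter G, m' φ * charDegree φ.1 = 0 := by
      have h3 : ((∑ φ : IrrCharacter G, m' φ * charDegree φ.1 : ℕ) : ℂ) = 0 := by
        rw [← h1]; push_cast
        refine Finset.sum_congr rfl fun φ _ => ?_
        rw [hdeg φ]
      exact_mod_cast h3
    have h3 : ∀ φ, m' φ = 0 := by
      intro φ
      have h4 := (Finset.sum_eq_zero_iff.mp h2) φ (Finset.mem_univ _)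
      rcases Nat.mul_eq_zero.mp h4 with h | h
      · exact h
      · exact absurd h (Cfsg.Agent.Lib.Helper82.irr_charDegree φ).2
    apply Finset.sum_eq_zero
    intro φ _
    rw [h3 φ]; simp
  · intro k
    have h1 : (fun g => ∑ φ : IrrCharacter G, (m' φ : ℂ) * φ.1 g) =
        ∑ φ : IrrCharacter G, ((m' φ : ℂ)) • (φ : G → ℂ) := by
      funext g
      simp only [Finset.sum_apply, Pi.smul_apply, smul_eq_mul]
    have h2 := Cfsg.Agent.Lib.Helper4.classInner_sum_irr (fun φ => (m' φ : ℂ)) (Y k)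
    rw [← h1] at h2
    unfold classInner at h2
    have h3 : m' (Y k) = 0 := hm'0 (Y k) (Or.inr (Or.inr ⟨k, rfl⟩))
    rw [h3] at h2
    have hne : (Nat.card G : ℂ) ≠ 0 := Nat.cast_ne_zero.mpr Nat.card_pos.ne'
    simp only [Nat.cast_zero] at h2
    rcases mul_eq_zero.mp h2 with h | h
    · exact absurd (inv_eq_zero.mp h) hne
    · exact h

end Cfsg.Agent.Lib.Helper64.PT
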