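import Cfsg.Agent.Lib.Helper22.PTDefs
import Cfsg.Agent.Lib.Helper33.TIFour
import Cfsg.Agent.Lib.Helper83.IrrBasic

/-!
# PT piece SQDEC (helper64, for helper22's S4705 project)

The decomposition of `ζ ^ 2` along a block structure `Blk`: either `Y 1` has multiplicity one,
or the decomposition is explicit.
-/

set_option autoImplicit false

namespace Cfsg.Agent.Lib.Helper64.PT

open Cfsg Cfsg.Agent.Lib.Helper22.BFD Cfsg.Agent.Lib.Helper22.PT
open scoped ComplexConjugate

universe u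

variable {G : Type u} [Group G] [Fintype G]

/-- A unit of `ZMod p` (`p` an odd prime) is not its own negative. -/
theorem sqdec_ne_neg (p : ℕ) [Fact p.Prime] (hp2 : p ≠ 2) (k : (ZMod p)ˣ) : k ≠ -k := by
  intro h
  have hp : p.Prime := Fact.out
  have h1 : (k : ZMod p) = -(k : ZMod p) := by
    have := congrArg (fun x : (ZMod p)ˣ => (x : ZMod p)) h
    simpa using this
  have h2 : (2 : ZMod p) * (k : ZMod p) = 0 := by
    have : (k : ZMod p) + (k : ZMod p) = 0 := by
      nth_rewrite 1 [h1]; ring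
    rw [two_mul]; exact this
  have h3 : (2 : ZMod p) ≠ 0 := by
    intro h4
    have h5 : ((2 : ℕ) : ZMod p) = 0 := by exact_mod_cast h4
    rw [ZMod.natCast_eq_zero_iff] at h5
    have := (Nat.prime_dvd_prime_iff_eq hp Nat.prime_two).mp h5
    exact hp2 this
  rcases mul_eq_zero.mp h2 with h4 | h4
  · exact h3 h4
  · exact k.ne_zero h4

/-- Fourier uniqueness over the units of `ZMod p`. -/
theorem sqdec_fourier (p : ℕ) [Fact p.Prime] (w : ℂ) (hw : IsPrimitiveRoot w p) (u : ZMod p)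
    (hu : u ≠ 0) (a : (ZMod p)ˣ → ℂ) (C : ℂ)
    (h : ∀ t : ZMod p, t ≠ 0 → ∑ k : (ZMod p)ˣ, a k * w ^ (u * (k : ZMod p) * t).val = C)
    (k₀ : (ZMod p)ˣ) : a k₀ = -C := by
  classical
  have hp : p.Prime := Fact.out
  have hw1 : w ^ p = 1 := hw.pow_eq_one
  have hp0 : (p : ℂ) ≠ 0 := by exact_mod_cast hp.ne_zero
  obtain ⟨A, hA⟩ : ∃ A : ℂ, A = ∑ k : (ZMod p)ˣ, a k := ⟨_, rfl⟩
  have key : ∀ k₁ : (ZMod p)ˣ, (p : ℂ) * a k₁ = A - C := by
    intro k₁
    have h1 : ∑ t : ZMod p, (∑ k : (ZMod p)ˣ, a k * w ^ (u * (k : ZMod p) * t).val) *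
        w ^ ((-(u * (k₁ : ZMod p))) * t).val = (p : ℂ) * a k₁ := by
      simp_rw [Finset.sum_mul]
      rw [Finset.sum_comm]
      have h2 : ∀ k : (ZMod p)ˣ, ∑ t : ZMod p, a k * w ^ (u * (k : ZMod p) * t).val *
          w ^ ((-(u * (k₁ : ZMod p))) * t).val = a k * (if k = k₁ then (p : ℂ) else 0) := by
        intro k
        have h3 : ∀ t : ZMod p, a k * w ^ (u * (k : ZMod p) * t).val *
            w ^ ((-(u * (k₁ : ZMod p))) * t).val =
            a k * w ^ ((u * ((k : ZMod p) - (k₁ : ZMod p))) * t).val := by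
          intro t
          rw [mul_assoc, ← Cfsg.Agent.Lib.Helper33.TI.pow_val_add p w hw1]
          congr 3
          ring
        simp_rw [h3]
        rw [← Finset.mul_sum, Cfsg.Agent.Lib.Helper33.TI.sum_pow_val p w hw]
        congr 1
        by_cases hk : k = k₁
        · rw [if_pos hk, if_pos (by rw [hk, sub_self, mul_zero])]
        · rw [if_neg hk, if_neg]
          intro h4
          rcases mul_eq_zero.mp h4 with h5 | h5
          · exact hu h5
          · exact hk (Units.ext (sub_eq_zero.mp h5))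
      simp_rw [h2]
      rw [Finset.sum_eq_single k₁]
      · rw [if_pos rfl, mul_comm]
      · intro k _ hk; rw [if_neg hk, mul_zero]
      · intro h0; exact absurd (Finset.mem_univ _) h0
    have h2 : ∑ t : ZMod p, (∑ k : (ZMod p)ˣ, a k * w ^ (u * (k : ZMod p) * t).val) *
        w ^ ((-(u * (k₁ : ZMod p))) * t).val = A - C := by
      have h3 : ∀ t : ZMod p, (∑ k : (ZMod p)ˣ, a k * w ^ (u * (k : ZMod p) * t).val) *
          w ^ ((-(u * (k₁ : ZMod p))) * t).val =
          C * w ^ ((-(u * (k₁ : ZMod p))) * t).val + (if t = 0 then A - C else 0) := by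
        intro t
        by_cases ht : t = 0
        · rw [if_pos ht, ht]
          simp only [mul_zero, ZMod.val_zero, pow_zero, mul_one]
          rw [← hA]; ring
        · rw [if_neg ht, h t ht, add_zero]
      simp_rw [h3]
      rw [Finset.sum_add_distrib, ← Finset.mul_sum,
        Cfsg.Agent.Lib.Helper33.TI.sum_pow_val p w hw, if_neg, mul_zero, zero_add,
        Finset.sum_ite_eq' Finset.univ (0 : ZMod p)]
      · simp
      · intro h4
        rw [neg_eq_zero] at h4
        rcases mul_eq_zero.mp h4 with h5 | h5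
        · exact hu h5
        · exact k₁.ne_zero h5
    rw [← h1, h2]
  have hconst : ∀ k, a k = a k₀ := by
    intro k
    have h1 := (key k).trans (key k₀).symm
    exact mul_left_cancel₀ hp0 h1
  have hAe : A = ((p : ℂ) - 1) * a k₀ := by
    rw [hA, Finset.sum_congr rfl (fun k _ => hconst k), Finset.sum_const, Finset.card_univ,
      nsmul_eq_mul, ZMod.card_units_eq_totient, Nat.totient_prime hp, Nat.cast_sub hp.one_le]
    simp
  have h1 := key k₀
  rw [hAe] at h1
  linear_combination h1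

/-- PIECE SQDEC -/
theorem sqdec (p : ℕ) [Fact p.Prime] (w : ℂ) (hw : IsPrimitiveRoot w p) (z : G) (ζ : G → ℂ)
    (h : Hyp G p z ζ) (u : ZMod p) (hu : u ≠ 0)
    (hex : ∀ t : ZMod p, t ≠ 0 → ζ (z ^ t.val) = -ev p w u t)
    (η : G → ℂ) (χ₁ χ₂ : IrrCharacter G) (Y : (ZMod p)ˣ → IrrCharacter G)
    (hB : Blk G p w z η u χ₁ χ₂ Y)
    (hdec : Dec p z χ₁ χ₂ Y (fun g => ζ g ^ 2)) :
    (∑ g : G, ζ g ^ 2 * conj ((Y 1).1 g) = (Nat.card G : ℂ)) ∨
    (∀ g, 2 * ζ g ^ 2 = ∑ k : (ZMod p)ˣ,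
      (if (k : ZMod p) = 2 ∨ (k : ZMod p) = -2 then (1 : ℂ) else 2) * (Y k).1 g) := by
  classical
  have hp : p.Prime := Fact.out
  have hp5 := h.p5
  have hp2 : p ≠ 2 := by omega
  have hw1 : w ^ p = 1 := hw.pow_eq_one
  have hG0 : (Nat.card G : ℂ) ≠ 0 := Nat.cast_ne_zero.mpr Nat.card_pos.ne'
  obtain ⟨α, β, n, Δ, hn, hD, hΔz, ⟨d, hd⟩, hΔ0, hΔY⟩ := hdec
  have h2ne : (2 : ZMod p) ≠ 0 := by
    intro h4
    have h5 : ((2 : ℕ) : ZMod p) = 0 := by exact_mod_cast h4
    rw [ZMod.natCast_eq_zero_iff] at h5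
    have := Nat.le_of_dvd (by norm_num) h5
    omega
  have h3ne : (3 : ZMod p) ≠ 0 := by
    intro h4
    have h5 : ((3 : ℕ) : ZMod p) = 0 := by exact_mod_cast h4
    rw [ZMod.natCast_eq_zero_iff] at h5
    have := Nat.le_of_dvd (by norm_num) h5
    omega
  obtain ⟨k2, hk2v⟩ : ∃ k2 : (ZMod p)ˣ, (k2 : ZMod p) = 2 := ⟨Units.mk0 2 h2ne, rfl⟩
  have hk2ne : k2 ≠ -k2 := sqdec_ne_neg p hp2 k2
  have hind : ∀ k : (ZMod p)ˣ,
      (if (k : ZMod p) = 2 ∨ (k : ZMod p) = -2 then (1 : ℂ) else 0) =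
      (if k = k2 then (1 : ℂ) else 0) + (if k = -k2 then (1 : ℂ) else 0) := by
    intro k
    by_cases c1 : k = k2
    · have c2 : ¬ k = -k2 := by rw [c1]; exact hk2ne
      rw [if_pos c1, if_neg c2, if_pos (Or.inl (by rw [c1, hk2v]))]; norm_num
    · by_cases c2 : k = -k2
      · rw [if_neg c1, if_pos c2, if_pos (Or.inr (by rw [c2, Units.val_neg, hk2v]))]; norm_num
      · rw [if_neg c1, if_neg c2, if_neg]
        · norm_num
        · rintro (h1 | h1)
          · exact c1 (Units.ext (by rw [h1, hk2v]))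
          · exact c2 (Units.ext (by rw [h1, Units.val_neg, hk2v]))
  -- Fourier step
  have hF : ∀ k : (ZMod p)ˣ, (n k : ℂ) +
      (if (k : ZMod p) = 2 ∨ (k : ZMod p) = -2 then (1 : ℂ) else 0) = 2 - α + β := by
    intro k
    have h1 := sqdec_fourier p w hw u hu
      (fun k => (n k : ℂ) + (if (k : ZMod p) = 2 ∨ (k : ZMod p) = -2 then (1 : ℂ) else 0))
      ((α : ℂ) - β - 2) ?_ k
    · rw [h1]; ring
    · intro t ht
      have hE := hD (z ^ t.val)
      simp only at hE
      rw [hex t ht, hB.val1 t ht, hB.val2 t ht, hΔz t ht] at hE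
      simp_rw [hB.valY _ t ht] at hE
      unfold ev at hE
      have hneg : ∑ k : (ZMod p)ˣ, (n k : ℂ) * w ^ (-(u * (k : ZMod p) * t)).val =
          ∑ k : (ZMod p)ˣ, (n k : ℂ) * w ^ (u * (k : ZMod p) * t).val := by
        rw [← Equiv.sum_comp (Equiv.neg (ZMod p)ˣ)]
        refine Finset.sum_congr rfl fun k _ => ?_
        rw [Equiv.neg_apply, hn k, Units.val_neg]
        congr 3; ring
      have hsq1 : (w ^ (u * t).val) ^ 2 = w ^ (u * (k2 : ZMod p) * t).val := by
        rw [pow_two, ← Cfsg.Agent.Lib.Helper33.TI.pow_val_add p w hw1, hk2v]; congr 2; ring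
      have hsq2 : (w ^ (-(u * t)).val) ^ 2 =
          w ^ (u * ((-k2 : (ZMod p)ˣ) : ZMod p) * t).val := by
        rw [pow_two, ← Cfsg.Agent.Lib.Helper33.TI.pow_val_add p w hw1, Units.val_neg, hk2v]
        congr 2; ring
      have hmul : w ^ (u * t).val * w ^ (-(u * t)).val = 1 := by
        rw [← Cfsg.Agent.Lib.Helper33.TI.pow_val_add p w hw1, add_neg_cancel, ZMod.val_zero,
          pow_zero]
      have hI : ∑ k : (ZMod p)ˣ,
          (if (k : ZMod p) = 2 ∨ (k : ZMod p) = -2 then (1 : ℂ) else 0) *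
            w ^ (u * (k : ZMod p) * t).val =
          w ^ (u * (k2 : ZMod p) * t).val + w ^ (u * ((-k2 : (ZMod p)ˣ) : ZMod p) * t).val := by
        simp_rw [hind, add_mul, ite_mul, one_mul, zero_mul]
        rw [Finset.sum_add_distrib, Finset.sum_ite_eq' Finset.univ k2,
          Finset.sum_ite_eq' Finset.univ (-k2)]
        simp
      have hS : ∑ k : (ZMod p)ˣ, (n k : ℂ) *
          (-(w ^ (u * (k : ZMod p) * t).val + w ^ (-(u * (k : ZMod p) * t)).val)) =
          -2 * ∑ k : (ZMod p)ˣ, (n k : ℂ) * w ^ (u * (k : ZMod p) * t).val := by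
        simp_rw [mul_neg, mul_add]
        rw [Finset.sum_neg_distrib, Finset.sum_add_distrib, hneg]; ring
      rw [hS] at hE
      simp_rw [add_mul]
      rw [Finset.sum_add_distrib, hI, ← hsq1, ← hsq2]
      linear_combination (1 / 2 : ℂ) * hE - 2 * hmul
  obtain ⟨N, hN⟩ : ∃ N : ℕ, N = n k2 := ⟨_, rfl⟩
  have hγ : (N : ℂ) + 1 = 2 - α + β := by
    have h1 := hF k2
    rw [if_pos (Or.inl hk2v), ← hN] at h1
    exact h1
  have hnk : ∀ k : (ZMod p)ˣ, (n k : ℂ) = (N : ℂ) + 1 -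
      (if (k : ZMod p) = 2 ∨ (k : ZMod p) = -2 then (1 : ℂ) else 0) := by
    intro k
    have h1 := hF k
    rw [← hγ] at h1
    linear_combination h1
  have hsumind : ∑ k : (ZMod p)ˣ,
      (if (k : ZMod p) = 2 ∨ (k : ZMod p) = -2 then (1 : ℂ) else 0) = 2 := by
    simp_rw [hind]
    rw [Finset.sum_add_distrib, Finset.sum_ite_eq' Finset.univ k2,
      Finset.sum_ite_eq' Finset.univ (-k2)]
    simp only [Finset.mem_univ, if_true]
    norm_num
  have hcardU : (Fintype.card (ZMod p)ˣ : ℂ) = (p : ℂ) - 1 := by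
    rw [ZMod.card_units_eq_totient, Nat.totient_prime hp, Nat.cast_sub hp.one_le]; simp
  have hsumn : ∑ k : (ZMod p)ˣ, (n k : ℂ) = ((p : ℂ) - 1) * ((N : ℂ) + 1) - 2 := by
    simp_rw [hnk]
    rw [Finset.sum_sub_distrib, hsumind, Finset.sum_const, Finset.card_univ, nsmul_eq_mul,
      hcardU]
  obtain ⟨a, ha⟩ := hB.deg1
  have hE1 := hD 1
  simp only at hE1
  rw [h.deg, hB.deg2, ha, hd] at hE1
  simp_rw [hB.degY] at hE1
  rw [← Finset.sum_mul, hsumn] at hE1
  have hZ : (2 * (α : ℤ) * (1 + a * p) + 2 * (β : ℤ) * (a * p + p - 1) + 2 * (d : ℤ) +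
      ((p : ℤ) - 2) * ((p : ℤ) - 1) * ((N : ℤ) - 1)) = 0 := by
    have h1 : ((2 * (α : ℤ) * (1 + a * p) + 2 * (β : ℤ) * (a * p + p - 1) + 2 * (d : ℤ) +
        ((p : ℤ) - 2) * ((p : ℤ) - 1) * ((N : ℤ) - 1) : ℤ) : ℂ) = 0 := by
      push_cast
      linear_combination (-1 : ℂ) * hE1
    exact_mod_cast h1
  have hP : (6 : ℤ) ≤ (p : ℤ) := by exact_mod_cast hp5
  have hap : (0 : ℤ) ≤ (a : ℤ) * (p : ℤ) := by positivity
  have t1 : (0 : ℤ) ≤ (α : ℤ) * (1 + a * p) := mul_nonneg (by positivity) (by linarith)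
  have t2 : (0 : ℤ) ≤ (β : ℤ) * (a * p + p - 1) := mul_nonneg (by positivity) (by linarith)
  have t3 : (0 : ℤ) ≤ (d : ℤ) := by positivity
  have hO : ∀ φ ψ : IrrCharacter G, ∑ g : G, φ.1 g * conj (ψ.1 g) =
      (Nat.card G : ℂ) * (if φ = ψ then 1 else 0) := by
    intro φ ψ
    have h1 := Cfsg.Agent.Lib.Helper83.irr_orthonormal φ ψ
    unfold classInner at h1
    rw [← h1, ← mul_assoc, mul_inv_cancel₀ hG0, one_mul]
  by_cases hN0 : N = 0
  · -- γ = 1
    left
    have h1ne : ¬ (((1 : (ZMod p)ˣ) : ZMod p) = 2 ∨ ((1 : (ZMod p)ˣ) : ZMod p) = -2) := by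
      rw [Units.val_one]
      rintro (h1 | h1)
      · have h2 : (1 : ZMod p) = 0 := by linear_combination (-1 : ZMod p) * h1
        exact one_ne_zero h2
      · have h2 : (3 : ZMod p) = 0 := by linear_combination h1
        exact h3ne h2
    have hn1 : (n 1 : ℂ) = 1 := by
      rw [hnk 1, if_neg h1ne, hN0]; simp
    have hsum : ∑ g : G, (2 * ζ g ^ 2) * conj ((Y 1).1 g) = 2 * (Nat.card G : ℂ) := by
      have e1 : ∀ g : G, (2 * ζ g ^ 2) * conj ((Y 1).1 g) =
          2 * (α : ℂ) * (χ₁.1 g * conj ((Y 1).1 g)) + 2 * (β : ℂ) * (χ₂.1 g * conj ((Y 1).1 g)) +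
          ∑ k : (ZMod p)ˣ, (n k : ℂ) * ((Y k).1 g * conj ((Y 1).1 g)) +
          2 * (Δ g * conj ((Y 1).1 g)) := by
        intro g
        have h1 := hD g
        simp only at h1
        rw [h1, add_mul, add_mul, add_mul, Finset.sum_mul]
        have h2 : ∀ k : (ZMod p)ˣ, (n k : ℂ) * (Y k).1 g * conj ((Y 1).1 g) =
            (n k : ℂ) * ((Y k).1 g * conj ((Y 1).1 g)) := fun k => by ring
        simp_rw [h2]
        ring
      simp_rw [e1]
      rw [Finset.sum_add_distrib, Finset.sum_add_distrib, Finset.sum_add_distrib,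
        ← Finset.mul_sum, ← Finset.mul_sum, ← Finset.mul_sum, Finset.sum_comm]
      simp_rw [← Finset.mul_sum]
      rw [hO χ₁ (Y 1), hO χ₂ (Y 1), hΔY 1, if_neg (hB.neY1 1).symm, if_neg (hB.neY2 1).symm]
      simp_rw [hO]
      have e2 : ∀ k : (ZMod p)ˣ, (n k : ℂ) * ((Nat.card G : ℂ) * (if Y k = Y 1 then 1 else 0)) =
          (if k = 1 then (Nat.card G : ℂ) else 0) + (if k = -1 then (Nat.card G : ℂ) else 0) := by
        intro k
        by_cases c1 : k = 1
        · have c2 : ¬ k = -1 := by rw [c1]; exact sqdec_ne_neg p hp2 1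
          rw [if_pos c1, if_neg c2, if_pos (by rw [c1]), c1, hn1]; ring
        · by_cases c2 : k = -1
          · rw [if_neg c1, if_pos c2, if_pos ((hB.eqY k 1).mpr (Or.inr c2)), c2, hn 1, hn1]
            ring
          · rw [if_neg c1, if_neg c2, if_neg]
            · ring
            · intro h3
              rcases (hB.eqY k 1).mp h3 with h4 | h4
              · exact c1 h4
              · exact c2 h4
      simp_rw [e2]
      rw [Finset.sum_add_distrib, Finset.sum_ite_eq' Finset.univ (1 : (ZMod p)ˣ),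
        Finset.sum_ite_eq' Finset.univ (-1 : (ZMod p)ˣ)]
      simp only [Finset.mem_univ, if_true]
      ring
    have h3 : ∑ g : G, (2 * ζ g ^ 2) * conj ((Y 1).1 g) =
        2 * ∑ g : G, ζ g ^ 2 * conj ((Y 1).1 g) := by
      rw [Finset.mul_sum]
      exact Finset.sum_congr rfl fun g _ => by ring
    rw [h3] at hsum
    exact mul_left_cancel₀ (two_ne_zero) hsum
  · by_cases hN1 : N = 1
    · -- γ = 2
      right
      rw [hN1] at hZ
      simp only [Nat.cast_one, sub_self, mul_zero, add_zero] at hZ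
      have hα0 : (α : ℤ) * (1 + a * p) = 0 := by linarith
      have hβ0 : (β : ℤ) * (a * p + p - 1) = 0 := by linarith
      have hd0 : (d : ℤ) = 0 := by linarith
      have hα : α = 0 := by
        rcases mul_eq_zero.mp hα0 with h1 | h1
        · exact_mod_cast h1
        · exfalso; linarith
      have hβ : β = 0 := by
        rcases mul_eq_zero.mp hβ0 with h1 | h1
        · exact_mod_cast h1
        · exfalso; linarith
      have hd0' : d = 0 := by exact_mod_cast hd0
      have hΔ : ∀ g, Δ g = 0 := hΔ0 (by rw [hd, hd0']; simp)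
      intro g
      have h1 := hD g
      simp only at h1
      rw [h1, hα, hβ, hΔ g]
      simp only [Nat.cast_zero, mul_zero, zero_mul, zero_add, add_zero]
      refine Finset.sum_congr rfl fun k _ => ?_
      rw [hnk k, hN1]
      by_cases c : (k : ZMod p) = 2 ∨ (k : ZMod p) = -2
      · rw [if_pos c, if_pos c]; norm_num
      · rw [if_neg c, if_neg c]; norm_num
    · -- γ ≥ 3 is impossible
      exfalso
      have hN2 : (2 : ℤ) ≤ (N : ℤ) := by
        have : 2 ≤ N := by omega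
        exact_mod_cast this
      have t4 : (0 : ℤ) < ((p : ℤ) - 2) * ((p : ℤ) - 1) * ((N : ℤ) - 1) :=
        mul_pos (mul_pos (by linarith) (by linarith)) (by linarith)
      linarith

end Cfsg.Agent.Lib.Helper64.PT
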