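import Cfsg.Agent.Lib.Helper96.PiDefs
import Cfsg.Agent.Lib.Helper96.PiGlueB
import Cfsg.Agent.Lib.Helper96.PiOmega
import Cfsg.Agent.Lib.Helper9.HeUNIPPOW

/-!
Project PI (S5989, helper96): piece EXB (helper64).
-/

set_option autoImplicit false
set_option linter.unusedSectionVars false
set_option linter.unusedVariables false

namespace Cfsg.Agent.Lib.Helper64.Pi

open Module Cfsg.Agent.Lib.Helper96.Sp Cfsg.Agent.Lib.Helper96.BG Cfsg.Agent.Lib.Helper96.Hy
  Cfsg.Agent.Lib.Helper96.Pi Cfsg.Agent.Lib.Helper47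

universe u

section Concrete

open Matrix
open scoped MatrixGroups

variable {F : Type u} [Field F] [Fintype F]

-- PIECE EXB
theorem exists_sq_neg_of_sq (d : ℕ) (hsq : IsSquare (-1 : F)) :
    ∃ x : GL (Fin d ⊕ Fin d) F,
      (∀ v, Cfsg.quadFormPlus d F ((x : Matrix (Fin d ⊕ Fin d) (Fin d ⊕ Fin d) F) *ᵥ v)
        = Cfsg.quadFormPlus d F v) ∧
      (x : Matrix (Fin d ⊕ Fin d) (Fin d ⊕ Fin d) F) * (x : Matrix (Fin d ⊕ Fin d) (Fin d ⊕ Fin d) F)
        = -1 := by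
  obtain ⟨j, hj⟩ := hsq
  obtain ⟨D, hD⟩ : ∃ D : Fin d ⊕ Fin d → F, D = Sum.elim (fun _ => j) (fun _ => -j) := ⟨_, rfl⟩
  have hDD : ∀ i, D i * D i = -1 := by
    intro i
    cases i with
    | inl i => rw [hD]; simp only [Sum.elim_inl]; exact hj.symm
    | inr i => rw [hD]; simp only [Sum.elim_inr]; rw [neg_mul_neg]; exact hj.symm
  have hMM : Matrix.diagonal D * Matrix.diagonal D =
      (-1 : Matrix (Fin d ⊕ Fin d) (Fin d ⊕ Fin d) F) := by
    rw [Matrix.diagonal_mul_diagonal, ← Matrix.diagonal_one, Matrix.diagonal_neg]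
    congr 1
    funext i
    exact hDD i
  refine ⟨⟨Matrix.diagonal D, -Matrix.diagonal D, ?_, ?_⟩, ?_, ?_⟩
  · rw [mul_neg, hMM, neg_neg]
  · rw [neg_mul, hMM, neg_neg]
  · intro v
    show Cfsg.quadFormPlus d F (Matrix.diagonal D *ᵥ v) = Cfsg.quadFormPlus d F v
    unfold Cfsg.quadFormPlus
    refine Finset.sum_congr rfl fun i _ => ?_
    rw [Matrix.mulVec_diagonal, Matrix.mulVec_diagonal, hD]
    simp only [Sum.elim_inl, Sum.elim_inr]
    linear_combination (v (Sum.inl i) * v (Sum.inr i)) * hj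
  · exact hMM

end Concrete

end Cfsg.Agent.Lib.Helper64.Pi
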