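import Mathlib
import Cfsg.Agent.Lib.Helper91.PslU

/-!
# S5163 piece B5: the normalizer of the upper unitriangular group is upper triangular
-/

set_option autoImplicit false

namespace Cfsg.Agent.Lib.Helper64.PslB5

open Matrix Matrix.SpecialLinearGroup Cfsg.Agent.Lib.Helper91.PslU

theorem transvection_mem_UU (n : ℕ) (K : Type*) [Field K] {c r : Fin n} (hcr : c < r) (b : K) :
    transvection (ne_of_lt hcr) b ∈ UU n K := by
  rw [mem_UU_iff]
  refine ⟨fun i j hji => ?_, fun i => ?_⟩
  · rw [transvection_coe, Matrix.add_apply, Matrix.one_apply_ne (ne_of_gt hji),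
      Matrix.single_apply, zero_add]
    rw [if_neg]
    rintro ⟨h1, h2⟩
    rw [← h1, ← h2] at hji
    exact absurd hji (not_lt.mpr hcr.le)
  · rw [transvection_coe, Matrix.add_apply, Matrix.one_apply_eq, Matrix.single_apply]
    rw [if_neg, add_zero]
    rintro ⟨h1, h2⟩
    rw [← h1] at h2
    exact (ne_of_lt hcr) h2.symm

theorem normalizer_UU_tri (n : ℕ) (K : Type*) [Field K] (g : SpecialLinearGroup (Fin n) K)
    (hg : g ∈ Subgroup.normalizer ((UU n K : Subgroup (SpecialLinearGroup (Fin n) K)) :
      Set (SpecialLinearGroup (Fin n) K))) :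
    ∀ i j : Fin n, j < i → g.1 i j = 0 := by
  have key : ∀ k : ℕ, ∀ r c : Fin n, (c : ℕ) < k → k ≤ (r : ℕ) → g.1 r c = 0 := by
    intro k
    induction k with
    | zero => intro r c hc _; exact absurd hc (Nat.not_lt_zero _)
    | succ k ih =>
      intro r c hc hr
      by_cases hck : (c : ℕ) < k
      · exact ih r c hck (by omega)
      · have hck' : (c : ℕ) = k := by omega
        have hcr : c < r := by
          rw [Fin.lt_def]; omega
        have hu := transvection_mem_UU n K hcr (1 : K)
        have hu' : g⁻¹ * transvection (ne_of_lt hcr) (1 : K) * g ∈ UU n K := by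
          rw [Subgroup.mem_normalizer_iff.mp hg]
          have : g * (g⁻¹ * transvection (ne_of_lt hcr) (1 : K) * g) * g⁻¹
              = transvection (ne_of_lt hcr) (1 : K) := by group
          rw [this]; exact hu
        obtain ⟨hu'1, hu'2⟩ := (mem_UU_iff n K _).mp hu'
        have heq : transvection (ne_of_lt hcr) (1 : K) * g
            = g * (g⁻¹ * transvection (ne_of_lt hcr) (1 : K) * g) := by group
        have h0 : (transvection (ne_of_lt hcr) (1 : K)).1 * g.1
            = g.1 * (g⁻¹ * transvection (ne_of_lt hcr) (1 : K) * g).1 :=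
          congrArg Subtype.val heq
        have h1 := congrFun (congrFun h0 c) c
        have hL : ((transvection (ne_of_lt hcr) (1 : K)).1 * g.1) c c = g.1 c c + g.1 r c := by
          rw [transvection_coe, Matrix.add_mul, Matrix.one_mul, Matrix.add_apply,
            Matrix.single_mul_apply_same, one_mul]
        have hR : (g.1 * (g⁻¹ * transvection (ne_of_lt hcr) (1 : K) * g).1) c c = g.1 c c := by
          rw [Matrix.mul_apply]
          rw [Finset.sum_eq_single c]
          · rw [hu'2 c, mul_one]
          · intro s _ hsc
            rcases lt_or_gt_of_ne hsc with hlt | hgt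
            · rw [ih c s (by rw [Fin.lt_def] at hlt; omega) (by omega), zero_mul]
            · rw [hu'1 s c hgt, mul_zero]
          · intro h; exact absurd (Finset.mem_univ c) h
        rw [hL, hR] at h1
        exact add_eq_left.mp h1
  intro i j hji
  exact key ((j : ℕ) + 1) i j (Nat.lt_succ_self _) (by rw [Fin.lt_def] at hji; omega)

end Cfsg.Agent.Lib.Helper64.PslB5
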