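import Mathlib
import Cfsg.Agent.Lib.Helper91.PslU

/-!
# S5163 piece B6: upper triangular matrices lie in the closure of `UU` and adjacent `diag2n`
-/

set_option autoImplicit false

namespace Cfsg.Agent.Lib.Helper64.PslB6

open Matrix Matrix.SpecialLinearGroup Cfsg.Agent.Lib.Helper91.PslU

/-- the set of adjacent `diag2n` -/
def adjSet (n : ℕ) (K : Type*) [Field K] : Set (SpecialLinearGroup (Fin n) K) :=
  {h | ∃ (i j : Fin n) (hij : i ≠ j) (a : K) (ha : a ≠ 0),
    (i : ℕ) + 1 = (j : ℕ) ∧ h = diag2n hij a ha}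

theorem diag2n_split (n : ℕ) (K : Type*) [Field K] {i j' j : Fin n} (h1 : i ≠ j') (h2 : j' ≠ j)
    (h3 : i ≠ j) (a : K) (ha : a ≠ 0) :
    diag2n h3 a ha = diag2n h1 a ha * diag2n h2 a ha := by
  apply Subtype.ext
  show (diag2n h3 a ha).1 = (diag2n h1 a ha).1 * (diag2n h2 a ha).1
  rw [diag2n_coe, diag2n_coe, diag2n_coe, Matrix.diagonal_mul_diagonal]
  congr 1
  funext k
  by_cases hki : k = i
  · rw [if_pos hki, if_pos hki, if_neg (fun h => h1 (hki.symm.trans h)),
      if_neg (fun h => h3 (hki.symm.trans h)), mul_one]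
  · by_cases hkj' : k = j'
    · rw [if_neg hki, if_neg hki, if_pos hkj', if_pos hkj',
        if_neg (fun h => h2 (hkj'.symm.trans h)), inv_mul_cancel₀ ha]
    · by_cases hkj : k = j
      · rw [if_neg hki, if_neg hki, if_neg hkj', if_neg hkj', if_pos hkj, one_mul]
      · rw [if_neg hki, if_neg hki, if_neg hkj', if_neg hkj', if_neg hkj, one_mul]

theorem diag2n_swap (n : ℕ) (K : Type*) [Field K] {i j : Fin n} (h : i ≠ j) (a : K)
    (ha : a ≠ 0) : diag2n h a ha = diag2n h.symm a⁻¹ (inv_ne_zero ha) := by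
  apply Subtype.ext
  rw [diag2n_coe, diag2n_coe]
  congr 1
  funext k
  by_cases hki : k = i
  · rw [if_pos hki, if_neg (fun hh => h (hki.symm.trans hh)), if_pos hki, inv_inv]
  · by_cases hkj : k = j
    · rw [if_neg hki, if_pos hkj, if_pos hkj]
    · rw [if_neg hki, if_neg hkj, if_neg hkj, if_neg hki]

theorem diag2n_mem_lt (n : ℕ) (K : Type*) [Field K] :
    ∀ m : ℕ, ∀ i j : Fin n, (i : ℕ) + m + 1 = (j : ℕ) → ∀ (hij : i ≠ j) (a : K) (ha : a ≠ 0),
      diag2n hij a ha ∈ Subgroup.closure (adjSet n K) := by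
  intro m
  induction m with
  | zero =>
    intro i j h hij a ha
    exact Subgroup.subset_closure ⟨i, j, hij, a, ha, by omega, rfl⟩
  | succ m ih =>
    intro i j h hij a ha
    have hj := j.2
    have h1 : i ≠ (⟨(j : ℕ) - 1, by omega⟩ : Fin n) := by
      intro hh
      have := congrArg Fin.val hh
      simp only at this
      omega
    have h2 : (⟨(j : ℕ) - 1, by omega⟩ : Fin n) ≠ j := by
      intro hh
      have := congrArg Fin.val hh
      simp only at this
      omega
    rw [diag2n_split n K h1 h2 hij a ha]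
    refine Subgroup.mul_mem _ (ih i _ (by simp only; omega) h1 a ha) ?_
    exact Subgroup.subset_closure ⟨_, j, h2, a, ha, by simp only; omega, rfl⟩

theorem diag2n_mem (n : ℕ) (K : Type*) [Field K] (i j : Fin n) (hij : i ≠ j) (a : K)
    (ha : a ≠ 0) : diag2n hij a ha ∈ Subgroup.closure (adjSet n K) := by
  rcases lt_or_gt_of_ne hij with hlt | hgt
  · rw [Fin.lt_def] at hlt
    exact diag2n_mem_lt n K ((j : ℕ) - (i : ℕ) - 1) i j (by omega) hij a ha
  · rw [Fin.lt_def] at hgt
    rw [diag2n_swap n K hij a ha]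
    exact diag2n_mem_lt n K ((i : ℕ) - (j : ℕ) - 1) j i (by omega) hij.symm a⁻¹ (inv_ne_zero ha)

theorem tri_mem_closure (n : ℕ) (K : Type*) [Field K] (g : SpecialLinearGroup (Fin n) K)
    (hg : ∀ i j : Fin n, j < i → g.1 i j = 0) :
    g ∈ Subgroup.closure (((UU n K : Subgroup (SpecialLinearGroup (Fin n) K)) :
        Set (SpecialLinearGroup (Fin n) K)) ∪
      {h | ∃ (i j : Fin n) (hij : i ≠ j) (a : K) (ha : a ≠ 0),
        (i : ℕ) + 1 = (j : ℕ) ∧ h = diag2n hij a ha}) := by
  have hle : Subgroup.closure (adjSet n K) ≤ Subgroup.closure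
      (((UU n K : Subgroup (SpecialLinearGroup (Fin n) K)) :
        Set (SpecialLinearGroup (Fin n) K)) ∪
      {h | ∃ (i j : Fin n) (hij : i ≠ j) (a : K) (ha : a ≠ 0),
        (i : ℕ) + 1 = (j : ℕ) ∧ h = diag2n hij a ha}) :=
    Subgroup.closure_mono Set.subset_union_right
  rcases Nat.eq_zero_or_pos n with hn | hn
  · subst hn
    have : g = 1 := Subsingleton.elim _ _
    rw [this]; exact Subgroup.one_mem _
  -- the diagonal part
  have htri : g.1.BlockTriangular id := fun i j hji => hg i j hji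
  have hdet : ∏ i, g.1 i i = 1 := by
    rw [← Matrix.det_of_isUpperTriangular htri]; exact g.2
  have hD : det (diagonal (fun i => g.1 i i)) = 1 := by rw [Matrix.det_diagonal]; exact hdet
  have hne : ∀ i, g.1 i i ≠ 0 := diagonal_neZero _ hD
  have hDinv : det (diagonal (fun i => (g.1 i i)⁻¹)) = 1 := by
    rw [Matrix.det_diagonal, Finset.prod_inv_distrib, hdet, inv_one]
  obtain ⟨d, hdval⟩ : ∃ d : SpecialLinearGroup (Fin n) K, d.1 = diagonal (fun i => g.1 i i) :=
    ⟨⟨_, hD⟩, rfl⟩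
  obtain ⟨e, heval⟩ : ∃ e : SpecialLinearGroup (Fin n) K,
      e.1 = diagonal (fun i => (g.1 i i)⁻¹) := ⟨⟨_, hDinv⟩, rfl⟩
  have hd : d ∈ Subgroup.closure (adjSet n K) := by
    have hdeq : d = (⟨diagonal (fun i => g.1 i i), hD⟩ : SpecialLinearGroup (Fin n) K) :=
      Subtype.ext hdval
    rw [hdeq, diag_eq_diag2n_prod (⟨0, hn⟩ : Fin n) (fun i => g.1 i i) hD]
    apply Subgroup.noncommProd_mem
    intro i hi
    have hi' : i ≠ (⟨0, hn⟩ : Fin n) := (Finset.mem_filter.1 hi).2
    rw [dif_pos hi']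
    exact diag2n_mem n K i _ hi' _ _
  have hu : e * g ∈ UU n K := by
    rw [mem_UU_iff]
    refine ⟨fun i j hji => ?_, fun i => ?_⟩
    · show (e.1 * g.1) i j = 0
      rw [heval, Matrix.diagonal_mul, hg i j hji, mul_zero]
    · show (e.1 * g.1) i i = 1
      rw [heval, Matrix.diagonal_mul, inv_mul_cancel₀ (hne i)]
  have hprod : g = d * (e * g) := by
    have h1 : d * e = 1 := by
      apply Subtype.ext
      show d.1 * e.1 = 1
      rw [hdval, heval, Matrix.diagonal_mul_diagonal, ← Matrix.diagonal_one]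
      congr 1
      funext i
      exact mul_inv_cancel₀ (hne i)
    rw [← mul_assoc, h1, one_mul]
  rw [hprod]
  exact Subgroup.mul_mem _ (hle hd) (Subgroup.subset_closure (Or.inl hu))

end Cfsg.Agent.Lib.Helper64.PslB6
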