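import Mathlib
import Cfsg.Agent.Lib.Helper36.R23Defs
import Cfsg.Agent.Lib.Helper24.ChevGL
import Cfsg.Agent.Lib.Helper24.ChevCols
import Cfsg.Agent.Lib.Helper24.CommFAll

/-!
S1788 piece R23-G2 (helper36's project; written by helper64): `G_2(F)`, `|F| ≥ 4`, characteristic
2, has an elementary abelian subgroup of order at least 8: the product of the root subgroups of
the two highest roots (indices 11 and 10), of order `q ^ 2 ≥ 16`.
-/

set_option autoImplicit false

namespace Cfsg.Agent.Lib.Helper64.R23

open Cfsg Cfsg.Agent.Lib.Helper36.R23 Cfsg.Lie Cfsg.Agent.Lib.Helper24 Matrix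

theorem g2_mem : chevG2 ∈ chevList := by
  unfold chevList
  exact List.mem_cons_self

theorem g2_comm {F : Type*} [Field F] (t u : F) :
    chevG2.x F 10 u * chevG2.x F 11 t = chevG2.x F 11 t * chevG2.x F 10 u := by
  have h := comm_formula (F := F) chevG2 g2_mem 11 10 (by decide) (by decide) (by decide)
    (by decide) t u
  have hw : chevG2.commWord F 11 10 t u = [] := by
    unfold ChevalleyDatum.commWord
    have : chevG2.commTerms 11 10 = [] := by decide
    rw [this]; rfl
  rw [hw] at h
  rw [h]
  unfold ChevalleyDatum.wordMat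
  simp

theorem g2_inj {F : Type*} [Field F] (t u : F)
    (h : chevG2.x F 11 t * chevG2.x F 10 u = 1) : t = 0 ∧ u = 0 := by
  have h1 : (chevG2.x F 11 t * chevG2.x F 10 u) *ᵥ hv F chevG2 1 = hv F chevG2 1 := by
    rw [h, Matrix.one_mulVec]
  rw [← Matrix.mulVec_mulVec, x_mulVec_hv chevG2 10 (by decide) u 1 (by decide),
    Matrix.mulVec_sub, Matrix.mulVec_smul, x_mulVec_hv chevG2 11 (by decide) t 1 (by decide),
    x_mulVec_rv chevG2 11 (by decide) t 10 (by decide) (by decide) (by decide)] at h1
  have hc : cent chevG2 11 10 = [] := by decide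
  have hc1 : chevG2.cartan 1 11 = 1 := by decide
  have hc2 : chevG2.cartan 1 10 = -1 := by decide
  rw [hc, hc1, hc2] at h1
  simp only [List.map_nil, List.sum_nil, add_zero, Int.cast_one, one_mul, Int.cast_neg,
    neg_mul] at h1
  have e11 := congrFun h1 (Sum.inr (⟨11, by decide⟩ : Fin chevG2.nroots))
  have e10 := congrFun h1 (Sum.inr (⟨10, by decide⟩ : Fin chevG2.nroots))
  simp [hv, rv] at e11 e10
  exact ⟨e11, e10⟩

theorem g2 : G2Stmt := by
  intro F _ _ _ hF
  have hV : ∀ v : F × F, v + v = 0 := fun v =>
    Prod.ext (CharTwo.add_self_eq_zero v.1) (CharTwo.add_self_eq_zero v.2)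
  let f : Multiplicative (F × F) →* ↥(chevG2.group F) :=
    MonoidHom.mk' (fun v => ⟨xGL chevG2 g2_mem 11 (Multiplicative.toAdd v).1 *
        xGL chevG2 g2_mem 10 (Multiplicative.toAdd v).2,
      Subgroup.mul_mem _ (xGL_mem_group chevG2 g2_mem 11 _) (xGL_mem_group chevG2 g2_mem 10 _)⟩)
      (by
        intro v w
        apply Subtype.ext
        apply Units.ext
        simp only [Subgroup.coe_mul, Units.val_mul, xGL_val, toAdd_mul, Prod.fst_add,
          Prod.snd_add]
        rw [← x_add chevG2 g2_mem 11 (by decide), ← x_add chevG2 g2_mem 10 (by decide)]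
        calc chevG2.x F 11 (Multiplicative.toAdd v).1 * chevG2.x F 11 (Multiplicative.toAdd w).1 *
              (chevG2.x F 10 (Multiplicative.toAdd v).2 * chevG2.x F 10 (Multiplicative.toAdd w).2)
            = chevG2.x F 11 (Multiplicative.toAdd v).1 *
              (chevG2.x F 11 (Multiplicative.toAdd w).1 * chevG2.x F 10 (Multiplicative.toAdd v).2) *
              chevG2.x F 10 (Multiplicative.toAdd w).2 := by simp only [mul_assoc]
          _ = chevG2.x F 11 (Multiplicative.toAdd v).1 *
              (chevG2.x F 10 (Multiplicative.toAdd v).2 * chevG2.x F 11 (Multiplicative.toAdd w).1) *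
              chevG2.x F 10 (Multiplicative.toAdd w).2 := by rw [g2_comm]
          _ = chevG2.x F 11 (Multiplicative.toAdd v).1 * chevG2.x F 10 (Multiplicative.toAdd v).2 *
              (chevG2.x F 11 (Multiplicative.toAdd w).1 *
                chevG2.x F 10 (Multiplicative.toAdd w).2) := by simp only [mul_assoc])
  have hf : Function.Injective f := by
    rw [injective_iff_map_eq_one]
    intro v hv1
    have h1 : ((f v : ↥(chevG2.group F)) : GL chevG2.Idx F) = 1 := by rw [hv1]; rfl
    have h2 : chevG2.x F 11 (Multiplicative.toAdd v).1 * chevG2.x F 10 (Multiplicative.toAdd v).2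
        = 1 := by
      have := congrArg (fun g : GL chevG2.Idx F => (g : Matrix chevG2.Idx chevG2.Idx F)) h1
      simpa [f, xGL_val] using this
    obtain ⟨ht, hu⟩ := g2_inj _ _ h2
    have h3 : Multiplicative.toAdd v = 0 := Prod.ext ht hu
    exact Multiplicative.toAdd.injective h3
  have hc : 8 ≤ Nat.card (F × F) := by
    rw [Nat.card_prod, Nat.card_eq_fintype_card]
    nlinarith
  exact prank_of_hom hV f hf hc

end Cfsg.Agent.Lib.Helper64.R23
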