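import Mathlib
import Cfsg.Agent.Lib.Helper72.S3Defs

/-!
# S4305 piece ES (helper64 for helper72): extraspecial-type independence

For `z = [x₀, x₁]` central of order dividing a prime `r`, with `x₀ ^ r = 1`, acting on a subgroup
`W` on which `z` has no nontrivial fixed point, the "norms" `nrm r (x₀ * z ^ k)` are used to show
the two assertions of `EsStmt`.
-/

set_option autoImplicit false

universe u

namespace Cfsg.Agent.Lib.Helper64.S3F

open Cfsg.Agent.Lib.Helper72.S3F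

section Nrm

variable {V : Type u} [CommGroup V]

/-- The "norm" `∏_{j<r} g^j v`. -/
def nrm (r : ℕ) (g : MulAut V) (v : V) : V := ∏ j ∈ Finset.range r, (g ^ j) v

theorem nrm_mul (r : ℕ) (g : MulAut V) (v w : V) :
    nrm r g (v * w) = nrm r g v * nrm r g w := by
  unfold nrm
  rw [← Finset.prod_mul_distrib]
  exact Finset.prod_congr rfl (fun j _ => map_mul _ _ _)

theorem nrm_one_right (r : ℕ) (g : MulAut V) : nrm r g (1 : V) = 1 := by
  unfold nrm
  exact Finset.prod_eq_one (fun j _ => map_one _)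

theorem nrm_one_left (r : ℕ) (v : V) : nrm r (1 : MulAut V) v = v ^ r := by
  unfold nrm
  simp [Finset.prod_const]

theorem pow_apply_fixed {g : MulAut V} {v : V} (h : g v = v) (j : ℕ) : (g ^ j) v = v := by
  induction j with
  | zero => simp
  | succ n ih =>
    rw [pow_succ]
    change (g ^ n) (g v) = v
    rw [h, ih]

theorem nrm_fixed {r : ℕ} {g : MulAut V} (h : g ^ r = 1) (v : V) :
    g (nrm r g v) = nrm r g v := by
  unfold nrm
  rw [map_prod]
  have h1 : ∏ j ∈ Finset.range (r + 1), (g ^ j) v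
      = (∏ j ∈ Finset.range r, (g ^ j) v) * (g ^ r) v :=
    Finset.prod_range_succ _ _
  have h2 : ∏ j ∈ Finset.range (r + 1), (g ^ j) v
      = (∏ j ∈ Finset.range r, (g ^ (j + 1)) v) * (g ^ 0) v :=
    Finset.prod_range_succ' _ _
  rw [h] at h1
  rw [pow_zero] at h2
  have h3 : ∏ j ∈ Finset.range r, (g ^ (j + 1)) v = ∏ j ∈ Finset.range r, (g ^ j) v :=
    mul_right_cancel (h2.symm.trans h1)
  rw [← h3]
  refine Finset.prod_congr rfl (fun j _ => ?_)
  rw [pow_succ']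
  rfl

theorem nrm_conj (r : ℕ) (h g : MulAut V) (v : V) :
    h (nrm r g v) = nrm r (h * g * h⁻¹) (h v) := by
  unfold nrm
  rw [map_prod]
  refine Finset.prod_congr rfl (fun j _ => ?_)
  rw [conj_pow]
  change h ((g ^ j) v) = h ((g ^ j) (h⁻¹ (h v)))
  rw [MulAut.inv_apply_self]

theorem nrm_comm (r : ℕ) {h g : MulAut V} (hc : Commute h g) (v : V) :
    h (nrm r g v) = nrm r g (h v) := by
  rw [nrm_conj, hc.eq, mul_inv_cancel_right]

theorem nrm_inv_apply {r : ℕ} {g : MulAut V} (hg : g ^ r = 1) (v : V) :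
    nrm r g (g⁻¹ v) = nrm r g v := by
  rw [← nrm_comm r (Commute.refl g).inv_left v]
  conv_lhs => rw [← nrm_fixed hg v]
  rw [MulAut.inv_apply_self]

theorem pow_mem_of_inv {W : Subgroup V} {g : MulAut V} (hW : ∀ w ∈ W, g w ∈ W) (j : ℕ) :
    ∀ w ∈ W, (g ^ j) w ∈ W := by
  induction j with
  | zero =>
    intro w hw
    simpa using hw
  | succ n ih =>
    intro w hw
    rw [pow_succ]
    exact ih _ (hW w hw)

theorem nrm_mem {W : Subgroup V} {g : MulAut V} (hW : ∀ w ∈ W, g w ∈ W) (r : ℕ) {v : V}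
    (hv : v ∈ W) : nrm r g v ∈ W := by
  unfold nrm
  exact Subgroup.prod_mem _ (fun j _ => pow_mem_of_inv hW j v hv)

theorem nrm_of_fixed {x y : MulAut V} (hc : Commute x y) {v : V} (hx : x v = v) (r : ℕ) :
    nrm r (x * y) v = nrm r y v := by
  unfold nrm
  refine Finset.prod_congr rfl (fun j _ => ?_)
  rw [hc.eq, hc.symm.mul_pow]
  change (y ^ j) ((x ^ j) v) = (y ^ j) v
  rw [pow_apply_fixed hx]

theorem fixed_of_pow_fixed {z : MulAut V} {r k : ℕ} (hr : r.Prime) (hz : z ^ r = 1)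
    (hk : ¬ r ∣ k) {u : V} (hu : (z ^ k) u = u) : z u = u := by
  have hcop : Nat.Coprime k r := ((Nat.Prime.coprime_iff_not_dvd hr).mpr hk).symm
  obtain ⟨m, -, hm⟩ := Nat.exists_mul_mod_eq_one_of_coprime hcop hr.one_lt
  have h1 : z ^ (k * m) = z := by
    rw [← Nat.div_add_mod (k * m) r, hm, pow_add, pow_mul, hz, one_pow, one_mul, pow_one]
  have h2 : ((z ^ k) ^ m) u = u := pow_apply_fixed hu m
  rw [← pow_mul, h1] at h2
  exact h2

end Nrm

theorem es : EsStmt.{u} := by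
  intro V _ _ x₀ x₁ r W hr hr3 hcop hx₀ hz hzx₀ hzx₁ hW₀ hW₁ hW₀' hW₁' hzW
  obtain ⟨z, hzdef⟩ : ∃ z, z = x₀ * x₁ * x₀⁻¹ * x₁⁻¹ := ⟨_, rfl⟩
  rw [← hzdef] at hz hzx₀ hzx₁ hzW
  have cz0 : Commute z x₀ := hzx₀
  have cz1 : Commute z x₁ := hzx₁
  have hWz : ∀ w ∈ W, z w ∈ W := by
    intro w hw
    rw [hzdef]
    exact hW₀ _ (hW₁ _ (hW₀' _ (hW₁' _ hw)))
  have hpow : ∀ v : V, v ^ r = 1 → v = 1 := by
    intro v hv
    have h1 : orderOf v ∣ r := orderOf_dvd_of_pow_eq_one hv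
    have h2 : orderOf v ∣ Nat.card V := orderOf_dvd_natCard v
    have h3 : orderOf v ∣ 1 := by
      have h4 := Nat.dvd_gcd h1 h2
      rwa [Nat.Coprime.gcd_eq_one hcop] at h4
    rwa [Nat.dvd_one, orderOf_eq_one_iff] at h3
  have hzk : ∀ k : ℕ, (z ^ k) ^ r = 1 := by
    intro k
    rw [← pow_mul, mul_comm, pow_mul, hz, one_pow]
  have hnz : ∀ k : ℕ, ¬ r ∣ k → ∀ w ∈ W, nrm r (z ^ k) w = 1 := by
    intro k hk w hw
    apply hzW _ (nrm_mem (pow_mem_of_inv hWz k) r hw)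
    apply fixed_of_pow_fixed hr hz hk
    exact nrm_fixed (hzk k) w
  have cg : ∀ k : ℕ, Commute x₀ (z ^ k) := fun k => (cz0.symm).pow_right k
  have hgr : ∀ k : ℕ, (x₀ * z ^ k) ^ r = 1 := by
    intro k
    rw [(cg k).mul_pow, hx₀, one_mul, hzk k]
  have hconj : ∀ k : ℕ, x₁ * (x₀ * z ^ (k + 1)) * x₁⁻¹ = x₀ * z ^ k := by
    intro k
    have h1 : x₁ * x₀ * x₁⁻¹ = z⁻¹ * x₀ := by
      rw [hzdef]
      group
    have h2 : x₁ * z ^ (k + 1) * x₁⁻¹ = z ^ (k + 1) := by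
      rw [← (cz1.pow_left (k + 1)).eq, mul_inv_cancel_right]
    calc x₁ * (x₀ * z ^ (k + 1)) * x₁⁻¹
        = (x₁ * x₀ * x₁⁻¹) * (x₁ * z ^ (k + 1) * x₁⁻¹) := by
          simp only [mul_assoc, inv_mul_cancel_left]
      _ = z⁻¹ * x₀ * z ^ (k + 1) := by rw [h1, h2]
      _ = x₀ * (z⁻¹ * z ^ (k + 1)) := by
          rw [(cz0.inv_left).eq, mul_assoc]
      _ = x₀ * z ^ k := by rw [pow_succ', inv_mul_cancel_left]
  have hWg : ∀ k : ℕ, ∀ w ∈ W, (x₀ * z ^ k) w ∈ W := by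
    intro k w hw
    exact hW₀ _ (pow_mem_of_inv hWz k w hw)
  refine ⟨?_, ?_⟩
  · intro v₀ hv₀ v₁ hv₁ v₂ hv₂ h0 h1 h2 hprod
    obtain ⟨A, hA⟩ : ∃ A : ℕ → V, ∀ k, A k = nrm r (x₀ * z ^ k) v₁ := ⟨fun k => _, fun k => rfl⟩
    obtain ⟨B, hB⟩ : ∃ B : ℕ → V, ∀ k, B k = nrm r (x₀ * z ^ k) v₂ := ⟨fun k => _, fun k => rfl⟩
    have hAW : ∀ k, A k ∈ W := by
      intro k
      rw [hA]
      exact nrm_mem (hWg k) r hv₁
    have hrel : ∀ k : ℕ, nrm r (z ^ k) v₀ * A k * B k = 1 := by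
      intro k
      rw [hA, hB, ← nrm_of_fixed (cg k) h0 r, ← nrm_mul, ← nrm_mul, hprod, nrm_one_right]
    have ha : ∀ k : ℕ, x₁ (A (k + 1)) = A k := by
      intro k
      rw [hA, hA, nrm_conj, hconj, h1]
    have hb : ∀ k : ℕ, x₁ (B (k + 1)) = (z ^ k) (B k) := by
      intro k
      rw [hB, hB, nrm_conj, hconj]
      have e1 : x₁ v₂ = x₀⁻¹ v₂ := by
        conv_lhs => rw [← h2]
        change x₁ (x₁⁻¹ (x₀⁻¹ v₂)) = x₀⁻¹ v₂
        rw [MulAut.apply_inv_self]
      have e2 : x₀⁻¹ v₂ = (z ^ k) ((x₀ * z ^ k)⁻¹ v₂) := by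
        have e : x₀⁻¹ = z ^ k * (x₀ * z ^ k)⁻¹ := by
          rw [mul_inv_rev, mul_inv_cancel_left]
        conv_lhs => rw [e]
        rfl
      have e3 : Commute (z ^ k) (x₀ * z ^ k) := (cg k).symm.mul_right (Commute.refl _)
      rw [e1, e2, ← nrm_comm r e3, nrm_inv_apply (hgr k)]
    have c1 : nrm r (z ^ 1) v₀ = 1 := by
      refine hnz 1 ?_ v₀ hv₀
      intro h
      have := Nat.le_of_dvd one_pos h
      omega
    have c2 : nrm r (z ^ 2) v₀ = 1 := by
      refine hnz 2 ?_ v₀ hv₀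
      intro h
      have := Nat.le_of_dvd (by norm_num) h
      omega
    have r1 := hrel 1
    rw [c1, one_mul] at r1
    have r2 := hrel 2
    rw [c2, one_mul] at r2
    have r0 := hrel 0
    have hB1 : B 1 = (A 1)⁻¹ := eq_inv_of_mul_eq_one_right r1
    have hB2 : B 2 = (A 2)⁻¹ := eq_inv_of_mul_eq_one_right r2
    have hb1 := hb 1
    rw [hB1, hB2, map_inv, map_inv, ha 1, inv_inj, pow_one] at hb1
    have hA1 : A 1 = 1 := hzW _ (hAW 1) hb1.symm
    have hA0 : A 0 = 1 := by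
      rw [← ha 0, hA1, map_one]
    have hB1' : B 1 = 1 := by
      rw [hB1, hA1, inv_one]
    have hB0 : B 0 = 1 := by
      have hb0 := hb 0
      rw [hB1', map_one, pow_zero] at hb0
      exact hb0.symm
    rw [hA0, hB0, mul_one, mul_one, pow_zero, nrm_one_left] at r0
    exact hpow v₀ r0
  · intro hne
    obtain ⟨w, hw, hw1⟩ : ∃ w ∈ W, w ≠ 1 := by
      by_contra hcon
      apply hne
      rw [Subgroup.eq_bot_iff_forall]
      intro x hx
      by_contra hx1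
      exact hcon ⟨x, hx, hx1⟩
    have hsum : ∏ k ∈ Finset.range r, nrm r (x₀ * z ^ k) w = w ^ r := by
      unfold nrm
      rw [Finset.prod_comm, Finset.prod_eq_single 0]
      · simp [Finset.prod_const]
      · intro j hj hj0
        have hjr : ¬ r ∣ j := by
          intro hd
          have h5 := Nat.le_of_dvd (Nat.pos_of_ne_zero hj0) hd
          have h6 := Finset.mem_range.mp hj
          omega
        have h7 : ∏ k ∈ Finset.range r, ((x₀ * z ^ k) ^ j) w = (x₀ ^ j) (nrm r (z ^ j) w) := by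
          unfold nrm
          rw [map_prod]
          refine Finset.prod_congr rfl (fun k _ => ?_)
          have e : (x₀ * z ^ k) ^ j = x₀ ^ j * (z ^ j) ^ k := by
            rw [(cg k).mul_pow, pow_right_comm z k j]
          rw [e]
          rfl
        rw [h7, hnz j hjr w hw, map_one]
      · intro h0
        exact absurd (Finset.mem_range.mpr hr.pos) h0
    obtain ⟨k, hk⟩ : ∃ k, nrm r (x₀ * z ^ k) w ≠ 1 := by
      by_contra hcon
      apply hw1
      apply hpow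
      rw [← hsum]
      refine Finset.prod_eq_one (fun k _ => ?_)
      by_contra hk1
      exact hcon ⟨k, hk1⟩
    have hxx : x₀ * x₁ = x₁ * x₀ * z := by
      have h8 : x₁ * x₀ * z = z * (x₁ * x₀) := ((cz1.mul_right cz0).eq).symm
      rw [h8, hzdef]
      group
    have hx : ∀ k : ℕ, x₀ * x₁ ^ k = x₁ ^ k * (x₀ * z ^ k) := by
      intro k
      induction k with
      | zero => simp
      | succ n ih =>
        calc x₀ * x₁ ^ (n + 1) = (x₀ * x₁ ^ n) * x₁ := by rw [pow_succ, mul_assoc]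
          _ = x₁ ^ n * (x₀ * z ^ n) * x₁ := by rw [ih]
          _ = x₁ ^ n * (x₀ * x₁) * z ^ n := by
              simp only [mul_assoc]
              rw [(cz1.pow_left n).eq]
          _ = x₁ ^ n * (x₁ * x₀ * z) * z ^ n := by rw [hxx]
          _ = x₁ ^ (n + 1) * (x₀ * z ^ (n + 1)) := by
              rw [pow_succ x₁, pow_succ' z]
              simp only [mul_assoc]
    refine ⟨(x₁ ^ k) (nrm r (x₀ * z ^ k) w), pow_mem_of_inv hW₁ k _ (nrm_mem (hWg k) r hw), ?_, ?_⟩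
    · intro h
      exact hk ((map_eq_one_iff (x₁ ^ k) (MulEquiv.injective _)).mp h)
    · change (x₀ * x₁ ^ k) (nrm r (x₀ * z ^ k) w) = (x₁ ^ k) (nrm r (x₀ * z ^ k) w)
      rw [hx k]
      change (x₁ ^ k) ((x₀ * z ^ k) (nrm r (x₀ * z ^ k) w)) = _
      rw [nrm_fixed (hgr k)]

end Cfsg.Agent.Lib.Helper64.S3F
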