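import Mathlib
import Cfsg.Agent.Lib.Helper72.S3Defs

/-!
# S4305 piece ZF (helper64 for helper72): a nontrivial central invariant coprime subgroup of a
non-commutative `H` is centralised by `f`, and the norm of `f` vanishes on `V`
-/

set_option autoImplicit false

universe u

namespace Cfsg.Agent.Lib.Helper64.S3F

open Cfsg.Agent.Lib.Helper72.S3F

theorem zf (hg : GenStepStmt.{u}) : ZfStmt.{u} := by
  intro V _ _ H Z f t hAct hfpf hIrr hnc hZH hZc hfZ htZ hcop hZne
  have hs3 := hAct.s3
  -- (a) `f` centralises `Z`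
  have ha : ∀ z ∈ Z, f * z * f⁻¹ = z := by
    intro z hz
    by_contra hne
    exact hnc (hg V H Z f t hAct hfpf hIrr hZH hZc hfZ htZ hcop ⟨z, hz, hne⟩)
  refine ⟨ha, ?_⟩
  -- basic relations
  have hf3 : ∀ v : V, f (f (f v)) = v := by
    intro v
    have h := DFunLike.congr_fun hs3.f3 v
    simpa [pow_succ] using h
  have ht2 : ∀ v : V, t (t v) = v := by
    intro v
    have h := DFunLike.congr_fun hs3.t2 v
    simpa [pow_succ] using h
  have htf : t * f = f⁻¹ * t := by
    rw [← hs3.tf]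
    group
  have hfixt : ∀ u : V, f u = u → f (t u) = t u := by
    intro u hu
    have h1 : (f * (t * f)) u = t u := by
      rw [htf, mul_inv_cancel_left]
    have h2 : (f * (t * f)) u = f (t (f u)) := rfl
    rw [h2, hu] at h1
    exact h1
  have hinv : ∀ u : V, f u = u → t u = u⁻¹ := by
    intro u hu
    have h1 : u * t u = 1 := by
      apply hfpf
      · rw [map_mul, hu, hfixt u hu]
      · rw [map_mul, ht2, mul_comm]
    exact eq_inv_of_mul_eq_one_right h1
  -- (b) `t` inverts `Z`
  have hb : ∀ z ∈ Z, t * z * t⁻¹ = z⁻¹ := by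
    intro z hz
    have hz' : t * z * t⁻¹ ∈ Z := htZ z hz
    have he : z * (t * z * t⁻¹) = 1 := by
      apply hAct.fpf _ (hZH (Z.mul_mem hz hz'))
      · have h1 : f * (z * (t * z * t⁻¹)) * f⁻¹ =
            (f * z * f⁻¹) * (f * (t * z * t⁻¹) * f⁻¹) := by group
        rw [h1, ha z hz, ha _ hz']
      · have h1 : t * (z * (t * z * t⁻¹)) * t⁻¹ =
            (t * z * t⁻¹) * (t ^ 2 * z * (t ^ 2)⁻¹) := by group
        rw [h1, hs3.t2]
        simp only [one_mul, inv_one, mul_one]
        exact (hZc z hz _ (hZH hz')).symm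
    exact eq_inv_of_mul_eq_one_right he
  -- pick `z ≠ 1` in `Z`; then `z ^ 2 ≠ 1`
  obtain ⟨z, hz, hz1⟩ : ∃ z ∈ Z, z ≠ 1 := by
    by_contra hcon
    push Not at hcon
    exact hZne ((Subgroup.eq_bot_iff_forall _).mpr hcon)
  have hy1 : z ^ 2 ≠ 1 := by
    intro h2
    have h3 : orderOf z ∣ 2 := orderOf_dvd_of_pow_eq_one h2
    have h4 : orderOf z ∣ Nat.card H := by
      have h := orderOf_dvd_natCard (⟨z, hZH hz⟩ : H)
      rwa [Subgroup.orderOf_mk] at h
    have h6 : Nat.Coprime (Nat.card H) 2 :=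
      Nat.Coprime.coprime_dvd_right (by norm_num : 2 ∣ 6) hAct.cop
    have h5 : orderOf z ∣ 1 := by
      have := Nat.dvd_gcd h4 h3
      rwa [h6] at this
    rw [Nat.dvd_one, orderOf_eq_one_iff] at h5
    exact hz1 h5
  have hyZ : z ^ 2 ∈ Z := Z.pow_mem hz 2
  have hle : Subgroup.zpowers (z ^ 2) ≤ Z := (Subgroup.zpowers_le).mpr hyZ
  -- (c) `fix (zpowers (z ^ 2)) = ⊥`
  have hfix : fix (Subgroup.zpowers (z ^ 2)) = ⊥ := by
    have hi1 : ∀ x ∈ H, ∀ w ∈ fix (Subgroup.zpowers (z ^ 2)), x w ∈ fix (Subgroup.zpowers (z ^ 2)) := by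
      intro x hx w hw b hb
      have hbx : b * x = x * b := hZc b (hle hb) x hx
      have h1 : b (x w) = x (b w) := by
        change (b * x) w = (x * b) w
        rw [hbx]
      rw [h1, hw b hb]
    have hi2 : ∀ w ∈ fix (Subgroup.zpowers (z ^ 2)), f w ∈ fix (Subgroup.zpowers (z ^ 2)) := by
      intro w hw b hb
      have hbf : b * f = f * b := by
        have h := ha b (hle hb)
        calc b * f = (f * b * f⁻¹) * f := by rw [h]
          _ = f * b := by group
      have h1 : b (f w) = f (b w) := by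
        change (b * f) w = (f * b) w
        rw [hbf]
      rw [h1, hw b hb]
    have hi3 : ∀ w ∈ fix (Subgroup.zpowers (z ^ 2)), t w ∈ fix (Subgroup.zpowers (z ^ 2)) := by
      intro w hw b hbm
      have hbt : b * t = t * b⁻¹ := by
        have h := hb b⁻¹ (Z.inv_mem (hle hbm))
        calc b * t = (t * b⁻¹ * t⁻¹) * t := by rw [h, inv_inv]
          _ = t * b⁻¹ := by group
      have h1 : b (t w) = t (b⁻¹ w) := by
        change (b * t) w = (t * b⁻¹) w
        rw [hbt]
      rw [h1, hw b⁻¹ (Subgroup.inv_mem _ hbm)]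
    rcases hIrr (fix (Subgroup.zpowers (z ^ 2))) hi1 hi2 hi3 with h | h
    · exact h
    · exfalso
      apply hy1
      ext v
      have hv : v ∈ fix (Subgroup.zpowers (z ^ 2)) := by
        rw [h]
        exact Subgroup.mem_top v
      exact hv _ (Subgroup.mem_zpowers _)
  -- (d) the norm of `f` vanishes
  intro v
  obtain ⟨n, hn⟩ : ∃ n, n = v * f v * f (f v) := ⟨_, rfl⟩
  rw [← hn]
  have hfn : f n = n := by
    rw [hn, map_mul, map_mul, hf3, mul_comm (f v * f (f v)) v, mul_assoc]
  have htn : t n = n⁻¹ := hinv n hfn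
  have hzf : f * z = z * f := by
    have h := ha z hz
    calc f * z = (f * z * f⁻¹) * f := by group
      _ = z * f := by rw [h]
  have hfzn : f (z n) = z n := by
    change (f * z) n = z n
    rw [hzf]
    change z (f n) = z n
    rw [hfn]
  have htzn : t (z n) = (z n)⁻¹ := hinv (z n) hfzn
  have htz : t * z = z⁻¹ * t := by
    have h := hb z hz
    calc t * z = (t * z * t⁻¹) * t := by group
      _ = z⁻¹ * t := by rw [h]
  have h1 : t (z n) = z⁻¹ (n⁻¹) := by
    change (t * z) n = _
    rw [htz]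
    change z⁻¹ (t n) = _
    rw [htn]
  have h2 : z (z n) = n := by
    have h3 : (z n)⁻¹ = (z⁻¹ n)⁻¹ := by rw [← htzn, h1, map_inv]
    have h4 : z n = z⁻¹ n := inv_injective h3
    rw [h4]
    change (z * z⁻¹) n = n
    rw [mul_inv_cancel]
    rfl
  have hmem : n ∈ fix (Subgroup.zpowers (z ^ 2)) := by
    intro b hb
    have hstab : Subgroup.zpowers (z ^ 2) ≤ MulAction.stabilizer (MulAut V) n := by
      rw [Subgroup.zpowers_le, MulAction.mem_stabilizer_iff]
      change (z ^ 2) n = n
      rw [pow_two]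
      exact h2
    have h5 := hstab hb
    rw [MulAction.mem_stabilizer_iff] at h5
    exact h5
  rw [hfix, Subgroup.mem_bot] at hmem
  exact hmem

end Cfsg.Agent.Lib.Helper64.S3F
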