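import Mathlib
import Cfsg.Prelude.Def_Blocks
import Cfsg.Prelude.Def_Local
import Cfsg.Agent.S0904

/-!
# S4501 piece C1 (helper64 for helper30): the Sylow 3-subgroups of a simple group of order
`3 * p ^ a * 2 ^ b` (`p ≥ 5`) have order 3 and are self-centralizing
-/

set_option autoImplicit false
open Cfsg
open scoped ComplexConjugate

namespace Cfsg.Agent.Lib.Helper30.S4501.C1

/-- C1 -/
theorem sylow_three {G : Type*} [Group G] [Finite G] [IsSimpleGroup G] (p a b : ℕ)
    (hp : p.Prime) (hp5 : 5 ≤ p) (hG : Nat.card G = 3 * p ^ a * 2 ^ b) (S : Sylow 3 G) :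
    Nat.card S = 3 ∧ Subgroup.centralizer ((S : Subgroup G) : Set G) = (S : Subgroup G) ∧
      ∀ x ∈ (S : Subgroup G), x ≠ 1 → orderOf x = 3 ∧
        Subgroup.centralizer ({x} : Set G) = (S : Subgroup G) := by
  have h3p : ¬ 3 ∣ p ^ a * 2 ^ b := by
    intro h
    rcases (Nat.Prime.dvd_mul Nat.prime_three).mp h with h1 | h1
    · have h2 := Nat.Prime.dvd_of_dvd_pow Nat.prime_three h1
      have h4 := (Nat.prime_dvd_prime_iff_eq Nat.prime_three hp).mp h2
      omega
    · have h2 := Nat.Prime.dvd_of_dvd_pow Nat.prime_three h1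
      have h4 := Nat.le_of_dvd (by norm_num) h2
      omega
  have hcard : Nat.card S = 3 := by
    have h1 : Nat.card S = 3 ^ (Nat.card G).factorization 3 := Sylow.card_eq_multiplicity S
    have hpos : 0 < (Nat.card G).factorization 3 := by
      apply Nat.Prime.factorization_pos_of_dvd Nat.prime_three Nat.card_pos.ne'
      rw [hG, mul_assoc]
      exact dvd_mul_right 3 _
    have hle : (Nat.card G).factorization 3 ≤ 1 := by
      by_contra hcon
      have h2 : 2 ≤ (Nat.card G).factorization 3 := by omega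
      have h4 : 3 ^ 2 ∣ Nat.card G :=
        (pow_dvd_pow 3 h2).trans (Nat.ordProj_dvd (Nat.card G) 3)
      rw [hG, mul_assoc] at h4
      apply h3p
      have h5 : 3 * 3 ∣ 3 * (p ^ a * 2 ^ b) := by
        have h6 : (3 : ℕ) ^ 2 = 3 * 3 := by norm_num
        rwa [h6] at h4
      exact (Nat.mul_dvd_mul_iff_left (by norm_num)).mp h5
    have h7 : (Nat.card G).factorization 3 = 1 := by omega
    rw [h1, h7, pow_one]
  have hcent : Subgroup.centralizer ((S : Subgroup G) : Set G) = (S : Subgroup G) := by
    have hcard' : Nat.card G = p ^ a * 2 ^ b * 3 := by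
      rw [hG]
      ring
    exact Cfsg.Agent.S0904.result p 2 3 a b hp Nat.prime_two (by omega) (by omega) (by norm_num)
      hcard' S
  refine ⟨hcard, hcent, ?_⟩
  intro x hx hx1
  have ho : orderOf x = 3 := by
    have h1 : orderOf (⟨x, hx⟩ : (S : Subgroup G)) ∣ Nat.card S := orderOf_dvd_natCard _
    rw [hcard, Subgroup.orderOf_mk] at h1
    rcases (Nat.dvd_prime Nat.prime_three).mp h1 with h2 | h2
    · exact absurd (orderOf_eq_one_iff.mp h2) hx1
    · exact h2
  refine ⟨ho, ?_⟩
  have hzp : Subgroup.zpowers x = (S : Subgroup G) := by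
    apply Subgroup.eq_of_le_of_card_ge
    · rw [Subgroup.zpowers_le]
      exact hx
    · rw [Nat.card_zpowers, ho]
      exact hcard.le
  rw [← hcent]
  ext y
  rw [Subgroup.mem_centralizer_iff, Subgroup.mem_centralizer_iff]
  constructor
  · intro h s hs
    have hs' : s ∈ Subgroup.zpowers x := by
      rw [hzp]
      exact hs
    obtain ⟨k, rfl⟩ := Subgroup.mem_zpowers_iff.mp hs'
    have hc : Commute x y := h x (Set.mem_singleton x)
    exact (hc.zpow_left k).eq
  · intro h s hs
    rw [Set.mem_singleton_iff] at hs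
    rw [hs]
    exact h x hx

end Cfsg.Agent.Lib.Helper30.S4501.C1
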