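import Mathlib
import Cfsg.Agent.Lib.Helper23.Syl
import Cfsg.Agent.Lib.Helper23.Syl2
import Cfsg.Agent.Lib.Helper23.SylInter

/-!
# S0496 piece NSEMB (helper64 for helper11): no simple group of order 600, 900, 945, 960
-/

set_option autoImplicit false

namespace Cfsg.Agent.S496

open Cfsg.Agent.Lib.Helper23

theorem ns600 {G : Type*} [Group G] [Finite G] [IsSimpleGroup G] (h : Nat.card G = 600) :
    False := by
  have hG : ¬ IsMulCommutative G :=
    not_comm_of_simple_of_not_prime (by rw [h]; norm_num)
  have : Fact (Nat.Prime 5) := ⟨by norm_num⟩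
  have h1 : Nat.card G = 5 ^ 2 * 24 := h.trans (by norm_num)
  have hm : ¬ 5 ∣ 24 := by norm_num
  have hmem := card_sylow_mem_filter h1 hm
  have hne := simple_sylow_card_ne_one h1 hm (by norm_num) (by norm_num)
  rw [show (Nat.divisors 24).filter (fun d => d % 5 = 1) = {1, 6} from by decide +kernel] at hmem
  simp only [Finset.mem_insert, Finset.mem_singleton] at hmem
  have hidx : ∀ H : Subgroup G, H ≠ ⊤ → 10 ≤ H.index := by
    intro H hH
    have h2 := simple_two_mul_card_dvd_factorial hG H hH
    rw [h] at h2
    by_contra hlt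
    have hlt' : H.index < 10 := Nat.lt_of_not_le hlt
    interval_cases H.index <;> revert h2 <;> decide
  rcases hmem with h2 | h2
  · exact hne h2
  · obtain ⟨P⟩ : Nonempty (Sylow 5 G) := inferInstance
    have h3 : Nat.card (Sylow 5 G) = (Subgroup.normalizer ((P : Subgroup G) : Set G)).index :=
      Sylow.card_eq_index_normalizer P
    have h4 := hidx (Subgroup.normalizer ((P : Subgroup G) : Set G)) (by
      intro htop
      rw [htop, Subgroup.index_top] at h3
      omega)
    omega

theorem ns945 {G : Type*} [Group G] [Finite G] [IsSimpleGroup G] (h : Nat.card G = 945) :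
    False := by
  have hG : ¬ IsMulCommutative G :=
    not_comm_of_simple_of_not_prime (by rw [h]; norm_num)
  have : Fact (Nat.Prime 3) := ⟨by norm_num⟩
  have h1 : Nat.card G = 3 ^ 3 * 35 := h.trans (by norm_num)
  have hm : ¬ 3 ∣ 35 := by norm_num
  have hmem := card_sylow_mem_filter h1 hm
  have hne := simple_sylow_card_ne_one h1 hm (by norm_num) (by norm_num)
  rw [show (Nat.divisors 35).filter (fun d => d % 3 = 1) = {1, 7} from by decide +kernel] at hmem
  simp only [Finset.mem_insert, Finset.mem_singleton] at hmem
  have hidx : ∀ H : Subgroup G, H ≠ ⊤ → 9 ≤ H.index := by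
    intro H hH
    have h2 := simple_two_mul_card_dvd_factorial hG H hH
    rw [h] at h2
    by_contra hlt
    have hlt' : H.index < 9 := Nat.lt_of_not_le hlt
    interval_cases H.index <;> revert h2 <;> decide
  rcases hmem with h2 | h2
  · exact hne h2
  · obtain ⟨P⟩ : Nonempty (Sylow 3 G) := inferInstance
    have h3 : Nat.card (Sylow 3 G) = (Subgroup.normalizer ((P : Subgroup G) : Set G)).index :=
      Sylow.card_eq_index_normalizer P
    have h4 := hidx (Subgroup.normalizer ((P : Subgroup G) : Set G)) (by
      intro htop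
      rw [htop, Subgroup.index_top] at h3
      omega)
    omega

theorem ns900 {G : Type*} [Group G] [Finite G] [IsSimpleGroup G] (h : Nat.card G = 900) :
    False := by
  have hG : ¬ IsMulCommutative G :=
    not_comm_of_simple_of_not_prime (by rw [h]; norm_num)
  have : Fact (Nat.Prime 5) := ⟨by norm_num⟩
  have h1 : Nat.card G = 5 ^ 2 * 36 := h.trans (by norm_num)
  have hm : ¬ 5 ∣ 36 := by norm_num
  have hmem := card_sylow_mem_filter h1 hm
  have hne := simple_sylow_card_ne_one h1 hm (by norm_num) (by norm_num)
  rw [show (Nat.divisors 36).filter (fun d => d % 5 = 1) = {1, 6, 36} from by decide +kernel]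
    at hmem
  simp only [Finset.mem_insert, Finset.mem_singleton] at hmem
  have hidx : ∀ H : Subgroup G, H ≠ ⊤ → 10 ≤ H.index := by
    intro H hH
    have h2 := simple_two_mul_card_dvd_factorial hG H hH
    rw [h] at h2
    by_contra hlt
    have hlt' : H.index < 10 := Nat.lt_of_not_le hlt
    interval_cases H.index <;> revert h2 <;> decide
  rcases hmem with h2 | h2 | h2
  · exact hne h2
  · obtain ⟨P⟩ : Nonempty (Sylow 5 G) := inferInstance
    have h3 : Nat.card (Sylow 5 G) = (Subgroup.normalizer ((P : Subgroup G) : Set G)).index :=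
      Sylow.card_eq_index_normalizer P
    have h4 := hidx (Subgroup.normalizer ((P : Subgroup G) : Set G)) (by
      intro htop
      rw [htop, Subgroup.index_top] at h3
      omega)
    omega
  · have hmod : ¬ Nat.card (Sylow 5 G) ≡ 1 [MOD 5 ^ 2] := by rw [h2]; decide
    obtain ⟨P⟩ : Nonempty (Sylow 5 G) := inferInstance
    obtain ⟨R, hPR, hle⟩ := exists_sylow_pair_large_inter 5 2 hmod P
    have hPc : Nat.card (P : Subgroup G) = 5 ^ 2 := sylow_card_of_eq h1 hm P
    have hRc : Nat.card (R : Subgroup G) = 5 ^ 2 := sylow_card_of_eq h1 hm R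
    have hD := card_inf_mul_index_subgroupOf (P : Subgroup G) (R : Subgroup G)
    generalize hDdef : ((P : Subgroup G) ⊓ (R : Subgroup G) : Subgroup G) = D at hD
    have hDP : D ≤ (P : Subgroup G) := hDdef ▸ inf_le_left
    have hDR : D ≤ (R : Subgroup G) := hDdef ▸ inf_le_right
    have hDcard : 5 ≤ Nat.card D := by
      rw [hPc] at hD
      norm_num at hle
      nlinarith
    have hDbot : D ≠ ⊥ := by
      intro hb
      rw [hb, Subgroup.card_bot] at hDcard
      omega
    have hDtop : D ≠ ⊤ := by
      intro ht
      have h3 : Nat.card D ≤ Nat.card (P : Subgroup G) := Subgroup.card_le_of_le hDP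
      rw [ht, Subgroup.card_top, h, hPc] at h3
      omega
    have hNtop := simple_normalizer_ne_top D hDbot hDtop
    have : IsMulCommutative (P : Subgroup G) := IsPGroup.isMulCommutative_of_card_eq_prime_sq hPc
    have : IsMulCommutative (R : Subgroup G) := IsPGroup.isMulCommutative_of_card_eq_prime_sq hRc
    have hPN : (P : Subgroup G) ≤ Subgroup.normalizer (D : Set G) :=
      le_normalizer_of_le_of_comm hDP
    have hRN : (R : Subgroup G) ≤ Subgroup.normalizer (D : Set G) :=
      le_normalizer_of_le_of_comm hDR
    obtain ⟨j, hj1, hj2, hj3, hj4⟩ := card_sylow_subgroup_facts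
      (Subgroup.normalizer (D : Set G)) P R hPN hRN hPR
    have h5 := hidx _ hNtop
    have h6 := Subgroup.card_mul_index (Subgroup.normalizer (D : Set G))
    rw [hj1, hPc, h] at h6
    have hjpos : 0 < j := by
      rcases Nat.eq_zero_or_pos j with h0 | h0
      · rw [h0] at h6
        omega
      · exact h0
    have h7 := Nat.le_of_dvd hjpos hj2
    have h8 : 6 ≤ Nat.card (Sylow 5 ↥(Subgroup.normalizer (D : Set G))) := by omega
    nlinarith

theorem ns960 {G : Type*} [Group G] [Finite G] [IsSimpleGroup G] (h : Nat.card G = 960) :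
    False := by
  have hG : ¬ IsMulCommutative G :=
    not_comm_of_simple_of_not_prime (by rw [h]; norm_num)
  have : Fact (Nat.Prime 2) := ⟨by norm_num⟩
  have h1 : Nat.card G = 2 ^ 6 * 15 := h.trans (by norm_num)
  have hm : ¬ 2 ∣ 15 := by norm_num
  have hmem := card_sylow_mem_filter h1 hm
  have hne := simple_sylow_card_ne_one h1 hm (by norm_num) (by norm_num)
  rw [show (Nat.divisors 15).filter (fun d => d % 2 = 1) = {1, 3, 5, 15} from by decide +kernel]
    at hmem
  simp only [Finset.mem_insert, Finset.mem_singleton] at hmem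
  have hidx : ∀ H : Subgroup G, H ≠ ⊤ → 8 ≤ H.index := by
    intro H hH
    have h2 := simple_two_mul_card_dvd_factorial hG H hH
    rw [h] at h2
    by_contra hlt
    have hlt' : H.index < 8 := Nat.lt_of_not_le hlt
    interval_cases H.index <;> revert h2 <;> decide
  have hsmall : ∀ P : Sylow 2 G, 8 ≤ Nat.card (Sylow 2 G) := by
    intro P
    have h3 : Nat.card (Sylow 2 G) = (Subgroup.normalizer ((P : Subgroup G) : Set G)).index :=
      Sylow.card_eq_index_normalizer P
    have h4 := hidx (Subgroup.normalizer ((P : Subgroup G) : Set G)) (by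
      intro htop
      rw [htop, Subgroup.index_top] at h3
      exact hne h3)
    omega
  obtain ⟨P⟩ : Nonempty (Sylow 2 G) := inferInstance
  have h8 := hsmall P
  rcases hmem with h2 | h2 | h2 | h2
  · exact hne h2
  · omega
  · omega
  · have hmod : ¬ Nat.card (Sylow 2 G) ≡ 1 [MOD 2 ^ 2] := by rw [h2]; decide
    obtain ⟨R, hPR, hle⟩ := exists_sylow_pair_large_inter 2 2 hmod P
    have hPc : Nat.card (P : Subgroup G) = 2 ^ 6 := sylow_card_of_eq h1 hm P
    have hRc : Nat.card (R : Subgroup G) = 2 ^ 6 := sylow_card_of_eq h1 hm R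
    have hD := card_inf_mul_index_subgroupOf (P : Subgroup G) (R : Subgroup G)
    have hD' := card_inf_mul_index_subgroupOf (R : Subgroup G) (P : Subgroup G)
    rw [inf_comm] at hD'
    -- the index is not 1
    have hi1 : ((R : Subgroup G).subgroupOf (P : Subgroup G)).index ≠ 1 := by
      intro hi
      rw [Subgroup.index_eq_one, Subgroup.subgroupOf_eq_top] at hi
      exact hPR (Sylow.ext (Subgroup.eq_of_le_of_card_ge hi (by rw [hPc, hRc])))
    have hi0 : ((R : Subgroup G).subgroupOf (P : Subgroup G)).index ≠ 0 := by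
      intro hi
      rw [hi, mul_zero, hPc] at hD
      norm_num at hD
    have hi2 : ((R : Subgroup G).subgroupOf (P : Subgroup G)).index = 2 := by
      norm_num at hle
      omega
    rw [hi2, hPc] at hD
    have hDc : Nat.card ((P : Subgroup G) ⊓ (R : Subgroup G) : Subgroup G) = 32 := by omega
    rw [hDc, hRc] at hD'
    have hi2' : ((P : Subgroup G).subgroupOf (R : Subgroup G)).index = 2 := by omega
    have hn1 : ((R : Subgroup G).subgroupOf (P : Subgroup G)).Normal :=
      Subgroup.normal_of_index_eq_two hi2
    have hn2 : ((P : Subgroup G).subgroupOf (R : Subgroup G)).Normal :=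
      Subgroup.normal_of_index_eq_two hi2'
    have hPN : (P : Subgroup G) ≤
        Subgroup.normalizer (((P : Subgroup G) ⊓ (R : Subgroup G) : Subgroup G) : Set G) := by
      have := Subgroup.normal_subgroupOf_iff_le_normalizer_inf.mp hn1
      rwa [inf_comm] at this
    have hRN : (R : Subgroup G) ≤
        Subgroup.normalizer (((P : Subgroup G) ⊓ (R : Subgroup G) : Subgroup G) : Set G) :=
      Subgroup.normal_subgroupOf_iff_le_normalizer_inf.mp hn2
    generalize hDdef : ((P : Subgroup G) ⊓ (R : Subgroup G) : Subgroup G) = D at hDc hPN hRN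
    have hDbot : D ≠ ⊥ := by
      intro hb
      rw [hb, Subgroup.card_bot] at hDc
      omega
    have hDtop : D ≠ ⊤ := by
      intro ht
      rw [ht, Subgroup.card_top, h] at hDc
      omega
    have hNtop := simple_normalizer_ne_top D hDbot hDtop
    obtain ⟨j, hj1, hj2, hj3, hj4⟩ := card_sylow_subgroup_facts
      (Subgroup.normalizer (D : Set G)) P R hPN hRN hPR
    have h5 := hidx _ hNtop
    have h6 := Subgroup.card_mul_index (Subgroup.normalizer (D : Set G))
    rw [hj1, hPc, h] at h6
    have hjpos : 0 < j := by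
      rcases Nat.eq_zero_or_pos j with h0 | h0
      · rw [h0] at h6
        omega
      · exact h0
    have h7 := Nat.le_of_dvd hjpos hj2
    have h9 : 3 ≤ j := by omega
    nlinarith

end Cfsg.Agent.S496
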