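import Mathlib
import Cfsg.Prelude.Def_GeometricClasses
import Cfsg.Agent.Lib.Helper71.SLP0

/-!
# SLP piece N5 (helper64 for helper71): `SL_n(F)` is not contained in a subfield group
-/

set_option autoImplicit false
set_option linter.unusedSectionVars false

namespace Cfsg.Agent.Lib.Helper64.SLPN5

open Matrix Cfsg.Geo Cfsg.Agent.Lib.Helper71.SLP
open scoped Pointwise

variable {n : ℕ} {F : Type*} [Field F] [Fintype F]

/-- N5 -/
theorem N5 (hn : 2 ≤ n) (F₀ : Subfield F) (hF₀ : F₀ ≠ ⊤) (P : GL (Fin n) F) :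
    ¬ specialLinear (Fin n) F ≤ subfieldSubgroup F₀ P := by
  intro hle
  obtain ⟨c, hc⟩ : ∃ c : F, c ∉ F₀ := by
    by_contra h
    exact hF₀ (eq_top_iff.mpr fun x _ => by
      by_contra hx
      exact h ⟨x, hx⟩)
  obtain ⟨i₀, i₁, hi⟩ : ∃ i₀ i₁ : Fin n, i₀ ≠ i₁ :=
    ⟨⟨0, by omega⟩, ⟨1, by omega⟩, fun h => by simpa using congrArg Fin.val h⟩
  have hφw : (c • (Pi.single i₁ (1 : F) : Fin n → F)) ⬝ᵥ (Pi.single i₀ (1 : F) : Fin n → F) = 0 := by
    rw [dotProduct_single, Pi.smul_apply, Pi.single_eq_of_ne hi, smul_zero, mul_one]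
  obtain ⟨e, hedef⟩ : ∃ e : GL (Fin n) F,
      e = tv (Pi.single i₀ (1 : F)) (c • (Pi.single i₁ (1 : F) : Fin n → F)) hφw := ⟨_, rfl⟩
  have he00 : e.1 i₀ i₀ = 1 := by
    rw [hedef, tv_val]
    simp [tvm, Matrix.vecMulVec_apply, Pi.single_eq_of_ne hi]
  have he01 : e.1 i₀ i₁ = c := by
    rw [hedef, tv_val]
    simp [tvm, Matrix.vecMulVec_apply, Matrix.one_apply_ne hi]
  have heSL : e ∈ specialLinear (Fin n) F := by
    rw [hedef]
    exact tv_mem_specialLinear _ _ _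
  have hnormal : (specialLinear (Fin n) F).Normal := by
    unfold specialLinear
    infer_instance
  have hgSL : P * e * P⁻¹ ∈ specialLinear (Fin n) F := hnormal.conj_mem e heSL P
  have hg := hle hgSL
  unfold subfieldSubgroup at hg
  rw [Subgroup.mem_map] at hg
  obtain ⟨y, hy, hyg⟩ := hg
  have hye : y = e := by
    have h1 : P * y * P⁻¹ = P * e * P⁻¹ := hyg
    have h2 : P * y = P * e := mul_right_cancel h1
    exact mul_left_cancel h2
  rw [hye] at hy
  have hy' : e ∈ (((Matrix.GeneralLinearGroup.map (F₀.subtype : F₀ →+* F)).range :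
      Subgroup (GL (Fin n) F)) : Set (GL (Fin n) F)) * (scalars (Fin n) F : Set (GL (Fin n) F)) := by
    rw [← Subgroup.mul_normal]
    exact hy
  obtain ⟨b, hb, s, hs, hbs⟩ := Set.mem_mul.mp hy'
  obtain ⟨b₀, hb₀⟩ := hb
  have hs' : s ∈ scalars (Fin n) F := hs
  rw [mem_scalars_iff] at hs'
  obtain ⟨l, hl⟩ := hs'
  have hbentry : ∀ i j, b.1 i j ∈ F₀ := by
    intro i j
    rw [← hb₀]
    have := Matrix.GeneralLinearGroup.map_apply (F₀.subtype : F₀ →+* F) i j b₀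
    rw [show (Matrix.GeneralLinearGroup.map (F₀.subtype : F₀ →+* F) b₀).1 i j
      = (F₀.subtype : F₀ →+* F) (b₀.1 i j) from this]
    exact (b₀.1 i j).2
  have hentry : ∀ i j, e.1 i j = (l : F) * b.1 i j := by
    intro i j
    rw [← hbs, Units.val_mul, hl, Matrix.mul_smul, Matrix.mul_one, Matrix.smul_apply, smul_eq_mul]
  have h00 := hentry i₀ i₀
  rw [he00] at h00
  have hlF : (l : F) ∈ F₀ := by
    have h1 : (l : F) = (b.1 i₀ i₀)⁻¹ := eq_inv_of_mul_eq_one_left h00.symm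
    rw [h1]
    exact F₀.inv_mem (hbentry i₀ i₀)
  have h01 := hentry i₀ i₁
  rw [he01] at h01
  apply hc
  rw [h01]
  exact F₀.mul_mem hlF (hbentry i₀ i₁)

end Cfsg.Agent.Lib.Helper64.SLPN5
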