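import Mathlib
import Cfsg.Agent.Lib.Helper91.SpU

/-!
# S5171 piece P2: `P` is normal in `U` and self-centralizing in `U`
-/

set_option autoImplicit false

namespace Cfsg.Agent.Lib.Helper64.SpP2

open Matrix Cfsg.Agent.Lib.Helper91.SpU

/-- block shape of an element with `InU` -/
theorem coe_of_inU (m : ℕ) (K : Type*) [Field K] (g : Matrix.symplecticGroup (Fin m) K)
    (hg : InU m K g) :
    g.1 = fromBlocks g.1.toBlocks₁₁ g.1.toBlocks₁₂ 0 g.1.toBlocks₂₂ := by
  have h := Matrix.fromBlocks_toBlocks g.1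
  rw [hg.1] at h
  exact h.symm

/-- `Aᵀ * D = 1` for an element with `InU` -/
theorem transpose_mul_of_inU (m : ℕ) (K : Type*) [Field K]
    (g : Matrix.symplecticGroup (Fin m) K) (hg : InU m K g) :
    g.1.toBlocks₁₁ᵀ * g.1.toBlocks₂₂ = 1 := by
  have h := g.2
  rw [coe_of_inU m K g hg, SymplecticGroup.fromBlocks_mem_iff] at h
  have h3 := h.2.2
  rw [Matrix.transpose_zero, Matrix.zero_mul, sub_zero] at h3
  exact h3

/-- the last row of an upper unitriangular matrix -/
theorem row_last (m : ℕ) (K : Type*) [Field K] (i₀ : Fin m) (hi₀ : (i₀ : ℕ) + 1 = m)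
    (A : Matrix (Fin m) (Fin m) K) (hA : IsUT m K A) (k : Fin m) :
    A i₀ k = if k = i₀ then 1 else 0 := by
  by_cases hk : k = i₀
  · rw [if_pos hk, hk]
    exact hA.2 i₀
  · rw [if_neg hk]
    apply hA.1
    have hk' := k.2
    have hne : (k : ℕ) ≠ (i₀ : ℕ) := fun h => hk (Fin.ext h)
    rw [Fin.lt_def]
    omega

/-- the last column of the `D`-block of an element with `InU` -/
theorem col_last (m : ℕ) (K : Type*) [Field K] (i₀ : Fin m) (hi₀ : (i₀ : ℕ) + 1 = m)
    (g : Matrix.symplecticGroup (Fin m) K) (hg : InU m K g) (k : Fin m) :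
    g.1.toBlocks₂₂ k i₀ = if k = i₀ then 1 else 0 := by
  have h1 : g.1.toBlocks₂₂ * g.1.toBlocks₁₁ᵀ = 1 :=
    _root_.mul_eq_one_comm.1 (transpose_mul_of_inU m K g hg)
  have h2 := congrFun (congrFun h1 k) i₀
  rw [Matrix.mul_apply] at h2
  have h3 : ∀ l : Fin m, g.1.toBlocks₂₂ k l * g.1.toBlocks₁₁ᵀ l i₀
      = if l = i₀ then g.1.toBlocks₂₂ k i₀ else 0 := by
    intro l
    rw [Matrix.transpose_apply, row_last m K i₀ hi₀ _ hg.2 l]
    by_cases hl : l = i₀
    · rw [if_pos hl, if_pos hl, mul_one, hl]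
    · rw [if_neg hl, if_neg hl, mul_zero]
  rw [Finset.sum_congr rfl (fun l _ => h3 l), Finset.sum_ite_eq' Finset.univ i₀,
    if_pos (Finset.mem_univ _)] at h2
  rw [h2, Matrix.one_apply]

/-- the `(e_last, f_last)` entry is additive on `U` -/
theorem entry_mul (m : ℕ) (K : Type*) [Field K] (i₀ : Fin m) (hi₀ : (i₀ : ℕ) + 1 = m)
    (g h : Matrix.symplecticGroup (Fin m) K) (hg : InU m K g) (hh : InU m K h) :
    (g * h).1.toBlocks₁₂ i₀ i₀ = g.1.toBlocks₁₂ i₀ i₀ + h.1.toBlocks₁₂ i₀ i₀ := by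
  have hgh : (g * h).1 = g.1 * h.1 := rfl
  rw [hgh]
  conv_lhs => rw [coe_of_inU m K g hg, coe_of_inU m K h hh, Matrix.fromBlocks_multiply,
    Matrix.toBlocks_fromBlocks₁₂]
  rw [Matrix.add_apply, Matrix.mul_apply, Matrix.mul_apply]
  have h1 : ∀ k : Fin m, g.1.toBlocks₁₁ i₀ k * h.1.toBlocks₁₂ k i₀
      = if k = i₀ then h.1.toBlocks₁₂ i₀ i₀ else 0 := by
    intro k
    rw [row_last m K i₀ hi₀ _ hg.2 k]
    by_cases hk : k = i₀
    · rw [if_pos hk, if_pos hk, one_mul, hk]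
    · rw [if_neg hk, if_neg hk, zero_mul]
  have h2 : ∀ k : Fin m, g.1.toBlocks₁₂ i₀ k * h.1.toBlocks₂₂ k i₀
      = if k = i₀ then g.1.toBlocks₁₂ i₀ i₀ else 0 := by
    intro k
    rw [col_last m K i₀ hi₀ h hh k]
    by_cases hk : k = i₀
    · rw [if_pos hk, if_pos hk, mul_one, hk]
    · rw [if_neg hk, if_neg hk, mul_zero]
  rw [Finset.sum_congr rfl (fun k _ => h1 k), Finset.sum_congr rfl (fun k _ => h2 k),
    Finset.sum_ite_eq' Finset.univ i₀, Finset.sum_ite_eq' Finset.univ i₀,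
    if_pos (Finset.mem_univ _), if_pos (Finset.mem_univ _), add_comm]

/-- the entry of the identity -/
theorem entry_one (m : ℕ) (K : Type*) [Field K] (i₀ : Fin m) :
    (1 : Matrix.symplecticGroup (Fin m) K).1.toBlocks₁₂ i₀ i₀ = 0 := by
  show (1 : Matrix (Fin m ⊕ Fin m) (Fin m ⊕ Fin m) K) (Sum.inl i₀) (Sum.inr i₀) = 0
  exact Matrix.one_apply_ne (by simp)

/-- the entry of an inverse -/
theorem entry_inv (m : ℕ) (K : Type*) [Field K] (i₀ : Fin m) (hi₀ : (i₀ : ℕ) + 1 = m)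
    (g : Matrix.symplecticGroup (Fin m) K) (hg : InU m K g) (hg' : InU m K g⁻¹) :
    (g⁻¹).1.toBlocks₁₂ i₀ i₀ = - g.1.toBlocks₁₂ i₀ i₀ := by
  have h := entry_mul m K i₀ hi₀ g g⁻¹ hg hg'
  rw [mul_inv_cancel, entry_one] at h
  exact eq_neg_of_add_eq_zero_right h.symm

/-- PIECE P2 -/
theorem Plong_props (m : ℕ) (K : Type*) [Field K] (hm : 2 ≤ m)
    (U : Subgroup (Matrix.symplecticGroup (Fin m) K)) (hU : ∀ g, g ∈ U ↔ InU m K g)
    (i₀ : Fin m) (hi₀ : (i₀ : ℕ) + 1 = m) (P : Subgroup (Matrix.symplecticGroup (Fin m) K))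
    (hP : ∀ g, g ∈ P ↔ g ∈ U ∧ g.1.toBlocks₁₂ i₀ i₀ = 0) :
    (∀ u ∈ U, ∀ x ∈ P, u * x * u⁻¹ ∈ P) ∧ (∀ c ∈ U, (∀ x ∈ P, c * x = x * c) → c ∈ P) := by
  refine ⟨?_, ?_⟩
  · intro u hu x hx
    have hxU := ((hP x).1 hx).1
    have hx0 := ((hP x).1 hx).2
    rw [hP]
    refine ⟨U.mul_mem (U.mul_mem hu hxU) (U.inv_mem hu), ?_⟩
    rw [entry_mul m K i₀ hi₀ (u * x) u⁻¹ ((hU _).1 (U.mul_mem hu hxU))
      ((hU _).1 (U.inv_mem hu)), entry_mul m K i₀ hi₀ u x ((hU _).1 hu) ((hU _).1 hxU),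
      entry_inv m K i₀ hi₀ u ((hU _).1 hu) ((hU _).1 (U.inv_mem hu)), hx0]
    ring
  · intro c hc hcomm
    rw [hP]
    refine ⟨hc, ?_⟩
    have hcU := (hU c).1 hc
    -- the index before the last one
    have hi₀' := i₀.2
    obtain ⟨im, him⟩ : ∃ im : Fin m, (im : ℕ) + 1 = (i₀ : ℕ) :=
      ⟨⟨(i₀ : ℕ) - 1, by omega⟩, by simp only; omega⟩
    have hne : im ≠ i₀ := by
      intro h
      rw [h] at him
      omega
    have hlt : im < i₀ := by
      rw [Fin.lt_def]; omega
    -- the transvection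
    have hxUT : IsUT m K (SpecialLinearGroup.toGL (SpecialLinearGroup.transvection hne (1 : K))).1 := by
      have hcoe : (SpecialLinearGroup.toGL (SpecialLinearGroup.transvection hne (1 : K))).1
          = (1 : Matrix (Fin m) (Fin m) K) + Matrix.single im i₀ 1 := rfl
      rw [hcoe]
      refine ⟨?_, ?_⟩
      · intro i j hji
        rw [Matrix.add_apply, Matrix.one_apply_ne (ne_of_gt hji), zero_add, Matrix.single_apply,
          if_neg]
        rintro ⟨h1, h2⟩
        rw [← h1, ← h2] at hji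
        exact absurd hji (not_lt.2 (le_of_lt hlt))
      · intro i
        rw [Matrix.add_apply, Matrix.one_apply_eq, Matrix.single_apply, if_neg, add_zero]
        rintro ⟨h1, h2⟩
        exact hne (h1.trans h2.symm)
    have hxInU : InU m K (slphi m K (SpecialLinearGroup.transvection hne (1 : K))) :=
      sphi_inU m K _ hxUT
    have hx12 : (slphi m K (SpecialLinearGroup.transvection hne (1 : K))).1.toBlocks₁₂ = 0 := by
      rw [slphi_apply, sphi_coe, Matrix.toBlocks_fromBlocks₁₂]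
    have hx11 : (slphi m K (SpecialLinearGroup.transvection hne (1 : K))).1.toBlocks₁₁
        = (1 : Matrix (Fin m) (Fin m) K) + Matrix.single im i₀ 1 := by
      rw [slphi_apply, sphi_coe, Matrix.toBlocks_fromBlocks₁₁]
      rfl
    have hxP : slphi m K (SpecialLinearGroup.transvection hne (1 : K)) ∈ P := by
      rw [hP]
      refine ⟨(hU _).2 hxInU, ?_⟩
      rw [hx12]
      rfl
    have heq := hcomm _ hxP
    have heq1 : (c * slphi m K (SpecialLinearGroup.transvection hne (1 : K))).1.toBlocks₁₂ im i₀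
        = (slphi m K (SpecialLinearGroup.transvection hne (1 : K)) * c).1.toBlocks₁₂ im i₀ := by
      rw [heq]
    have hL : (c * slphi m K (SpecialLinearGroup.transvection hne (1 : K))).1.toBlocks₁₂ im i₀
        = c.1.toBlocks₁₂ im i₀ := by
      have hcx : (c * slphi m K (SpecialLinearGroup.transvection hne (1 : K))).1
          = c.1 * (slphi m K (SpecialLinearGroup.transvection hne (1 : K))).1 := rfl
      rw [hcx]
      conv_lhs => rw [coe_of_inU m K c hcU, coe_of_inU m K _ hxInU, Matrix.fromBlocks_multiply,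
        Matrix.toBlocks_fromBlocks₁₂]
      rw [hx12, Matrix.mul_zero, zero_add, Matrix.mul_apply]
      have h2 : ∀ k : Fin m, c.1.toBlocks₁₂ im k *
          (slphi m K (SpecialLinearGroup.transvection hne (1 : K))).1.toBlocks₂₂ k i₀
          = if k = i₀ then c.1.toBlocks₁₂ im i₀ else 0 := by
        intro k
        rw [col_last m K i₀ hi₀ _ hxInU k]
        by_cases hk : k = i₀
        · rw [if_pos hk, if_pos hk, mul_one, hk]
        · rw [if_neg hk, if_neg hk, mul_zero]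
      rw [Finset.sum_congr rfl (fun k _ => h2 k), Finset.sum_ite_eq' Finset.univ i₀,
        if_pos (Finset.mem_univ _)]
    have hR : (slphi m K (SpecialLinearGroup.transvection hne (1 : K)) * c).1.toBlocks₁₂ im i₀
        = c.1.toBlocks₁₂ im i₀ + c.1.toBlocks₁₂ i₀ i₀ := by
      have hxc : (slphi m K (SpecialLinearGroup.transvection hne (1 : K)) * c).1
          = (slphi m K (SpecialLinearGroup.transvection hne (1 : K))).1 * c.1 := rfl
      rw [hxc]
      conv_lhs => rw [coe_of_inU m K c hcU, coe_of_inU m K _ hxInU, Matrix.fromBlocks_multiply,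
        Matrix.toBlocks_fromBlocks₁₂]
      rw [hx12, Matrix.zero_mul, add_zero, hx11, Matrix.add_mul, Matrix.one_mul, Matrix.add_apply,
        Matrix.single_mul_apply_same, one_mul]
    rw [hL, hR] at heq1
    have := heq1
    linear_combination -this
end Cfsg.Agent.Lib.Helper64.SpP2
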