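import Mathlib
import Cfsg.Agent.Lib.Helper91.SpU
import Cfsg.Agent.Lib.Helper64.SpP2

/-!
# S5171 piece P3: the opposite long root element `zz i₀ a` normalizes `P`
-/

set_option autoImplicit false

namespace Cfsg.Agent.Lib.Helper64.SpP3

open Matrix Cfsg.Agent.Lib.Helper91.SpU Cfsg.Agent.Lib.Helper64.SpP2

theorem single_mul_entry (m : ℕ) (K : Type*) [Field K] (i₀ : Fin m) (a : K)
    (M : Matrix (Fin m) (Fin m) K) (r s : Fin m) :
    (Matrix.single i₀ i₀ a * M) r s = if r = i₀ then a * M i₀ s else 0 := by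
  by_cases hr : r = i₀
  · rw [if_pos hr, hr]
    exact Matrix.single_mul_apply_same a i₀ i₀ s M
  · rw [if_neg hr]
    exact Matrix.single_mul_apply_of_ne a i₀ i₀ r s hr M

theorem mul_single_entry (m : ℕ) (K : Type*) [Field K] (i₀ : Fin m) (c : K)
    (M : Matrix (Fin m) (Fin m) K) (r s : Fin m) :
    (M * Matrix.single i₀ i₀ c) r s = if s = i₀ then M r i₀ * c else 0 := by
  by_cases hs : s = i₀
  · rw [if_pos hs, hs]
    exact Matrix.mul_single_apply_same c i₀ i₀ r M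
  · rw [if_neg hs]
    exact Matrix.mul_single_apply_of_ne c i₀ i₀ r s hs M

/-- PIECE P3 -/
theorem zz_normalizes (m : ℕ) (K : Type*) [Field K]
    (U : Subgroup (Matrix.symplecticGroup (Fin m) K)) (hU : ∀ g, g ∈ U ↔ InU m K g)
    (i₀ : Fin m) (hi₀ : (i₀ : ℕ) + 1 = m) (P : Subgroup (Matrix.symplecticGroup (Fin m) K))
    (hP : ∀ g, g ∈ P ↔ g ∈ U ∧ g.1.toBlocks₁₂ i₀ i₀ = 0) (a : K)
    (x : Matrix.symplecticGroup (Fin m) K) (hx : x ∈ P) :
    zz m K i₀ a * x * (zz m K i₀ a)⁻¹ ∈ P := by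
  have hxU : InU m K x := (hU x).1 ((hP x).1 hx).1
  have hx0 : x.1.toBlocks₁₂ i₀ i₀ = 0 := ((hP x).1 hx).2
  have hrow := row_last m K i₀ hi₀ _ hxU.2
  have hcol := col_last m K i₀ hi₀ x hxU
  have hUT := hxU.2
  have hxe := coe_of_inU m K x hxU
  obtain ⟨A, hAdef⟩ : ∃ A, A = x.1.toBlocks₁₁ := ⟨_, rfl⟩
  obtain ⟨B, hBdef⟩ : ∃ B, B = x.1.toBlocks₁₂ := ⟨_, rfl⟩
  obtain ⟨D, hDdef⟩ : ∃ D, D = x.1.toBlocks₂₂ := ⟨_, rfl⟩
  rw [← hAdef, ← hBdef, ← hDdef] at hxe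
  rw [← hAdef] at hrow hUT
  rw [← hDdef] at hcol
  rw [← hBdef] at hx0
  have hcoe : (zz m K i₀ a * x * (zz m K i₀ a)⁻¹).1
      = fromBlocks (A + B * Matrix.single i₀ i₀ (-a)) B
          (Matrix.single i₀ i₀ a * A + (Matrix.single i₀ i₀ a * B + D) * Matrix.single i₀ i₀ (-a))
          (Matrix.single i₀ i₀ a * B + D) := by
    rw [zz_inv]
    show (zz m K i₀ a).1 * x.1 * (zz m K i₀ (-a)).1 = _
    rw [zz_coe, zz_coe, hxe, Matrix.fromBlocks_multiply, Matrix.fromBlocks_multiply]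
    simp only [Matrix.one_mul, Matrix.zero_mul, Matrix.mul_one, Matrix.mul_zero, add_zero,
      zero_add]
  have hlast : ∀ r : Fin m, r ≤ i₀ := by
    intro r
    have := r.2
    rw [Fin.le_def]
    omega
  rw [hP]
  refine ⟨(hU _).2 ⟨?_, ?_, ?_⟩, ?_⟩
  · rw [hcoe, Matrix.toBlocks_fromBlocks₂₁]
    ext r s
    rw [Matrix.add_apply, Matrix.zero_apply, mul_single_entry, Matrix.add_apply,
      single_mul_entry, single_mul_entry, hrow s, hcol r, hx0]
    split_ifs <;> ring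
  · intro r s hsr
    rw [hcoe, Matrix.toBlocks_fromBlocks₁₁, Matrix.add_apply, mul_single_entry]
    have hs : s ≠ i₀ := by
      intro h
      rw [h] at hsr
      exact absurd (hlast r) (not_le.2 hsr)
    rw [if_neg hs, add_zero]
    exact hUT.1 r s hsr
  · intro r
    rw [hcoe, Matrix.toBlocks_fromBlocks₁₁, Matrix.add_apply, hUT.2 r, mul_single_entry]
    by_cases hr : r = i₀
    · rw [if_pos hr, hr, hx0, zero_mul, add_zero]
    · rw [if_neg hr, add_zero]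
  · rw [hcoe, Matrix.toBlocks_fromBlocks₁₂]
    exact hx0

end Cfsg.Agent.Lib.Helper64.SpP3
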