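import Mathlib
import Cfsg.Agent.Lib.Helper91.SuU
import Cfsg.Agent.Lib.Helper91.PslU
import Cfsg.Agent.Lib.Helper29.PslB4

/-!
# S5172 piece EH1h (helper64 for helper91): the Sylow subgroup `U` of the even unitary group is
generated by the Siegel elements and the upper Levi transvections
-/

set_option autoImplicit false

namespace Cfsg.Agent.Lib.Helper64.SuEH1h

open Matrix Cfsg.Agent.Lib.Helper91.SpU Cfsg.Agent.Lib.Helper91.SuU

theorem block_eqs (l : ℕ) (K : Type*) [Field K] (σ : K →+* K)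
    (g : GU l K σ) (A B D : Matrix (Fin l) (Fin l) K)
    (hform : mat l K σ g = fromBlocks A B 0 D) :
    Aᵀ * D.map σ = 1 ∧ Dᵀ * A.map σ = 1 ∧ Dᵀ * B.map σ + Bᵀ * D.map σ = 0 := by
  have hm := mat_mem l K σ g
  rw [hform, Matrix.fromBlocks_transpose, Matrix.fromBlocks_map, JJ, Matrix.fromBlocks_multiply,
    Matrix.fromBlocks_multiply] at hm
  simp only [Matrix.transpose_zero, Matrix.map_zero _ (map_zero σ), Matrix.mul_zero,
    Matrix.zero_mul, Matrix.mul_one, add_zero, zero_add] at hm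
  have hm' := Matrix.fromBlocks_inj.mp hm
  exact ⟨hm'.2.1, hm'.2.2.1, hm'.2.2.2⟩

theorem U_le_closure_su (l : ℕ) (K : Type*) [Field K] (σ : K →+* K) (hσ : ∀ x, σ (σ x) = x)
    (u : GU l K σ) (hu : InU l K σ u) :
    u ∈ Subgroup.closure
      ({x : GU l K σ | ∃ (B : Matrix (Fin l) (Fin l) K) (hB : B.map σ = -Bᵀ),
          x = usq l K σ B hB} ∪
        {x | ∃ (i j : Fin l) (hij : i ≠ j) (a : K),
          i < j ∧ x = uphi l K σ hσ (SpecialLinearGroup.transvection hij a)}) := by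
  obtain ⟨h21, hUT⟩ := hu
  obtain ⟨A, hA⟩ : ∃ A, A = (mat l K σ u).toBlocks₁₁ := ⟨_, rfl⟩
  obtain ⟨B, hB⟩ : ∃ B, B = (mat l K σ u).toBlocks₁₂ := ⟨_, rfl⟩
  obtain ⟨D, hD⟩ : ∃ D, D = (mat l K σ u).toBlocks₂₂ := ⟨_, rfl⟩
  have hform : mat l K σ u = fromBlocks A B 0 D := by
    rw [hA, hB, hD, ← h21, Matrix.fromBlocks_toBlocks]
  rw [← hA] at hUT
  obtain ⟨-, hDA, -⟩ := block_eqs l K σ u A B D hform
  have hAD : (A.map σ)ᵀ * D = 1 := by
    have := congrArg Matrix.transpose hDA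
    rw [Matrix.transpose_mul, Matrix.transpose_transpose, Matrix.transpose_one] at this
    exact this
  have hDA' : D * (A.map σ)ᵀ = 1 := mul_eq_one_comm.mp hAD
  have hdet : A.det = 1 := by
    rw [Matrix.det_of_isUpperTriangular (M := A) (fun i j hji => hUT.1 i j hji)]
    exact Finset.prod_eq_one (fun i _ => hUT.2 i)
  obtain ⟨s, hs⟩ : ∃ s : SpecialLinearGroup (Fin l) K, s.1 = A := ⟨⟨A, hdet⟩, rfl⟩
  have hsUU : s ∈ Cfsg.Agent.Lib.Helper91.PslU.UU l K := by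
    rw [Cfsg.Agent.Lib.Helper91.PslU.mem_UU_iff, hs]
    exact hUT
  have hs_cl := Cfsg.Agent.Lib.Helper29.PslB4.UU_le_closure l K hsUU
  have huphi : uphi l K σ hσ s ∈ Subgroup.closure
      ({x : GU l K σ | ∃ (B : Matrix (Fin l) (Fin l) K) (hB : B.map σ = -Bᵀ),
          x = usq l K σ B hB} ∪
        {x | ∃ (i j : Fin l) (hij : i ≠ j) (a : K),
          i < j ∧ x = uphi l K σ hσ (SpecialLinearGroup.transvection hij a)}) := by
    have h1 : uphi l K σ hσ s ∈ (Subgroup.closure {x : SpecialLinearGroup (Fin l) K |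
        ∃ (i j : Fin l) (hij : i ≠ j) (a : K),
          i < j ∧ x = SpecialLinearGroup.transvection hij a}).map (uphi l K σ hσ) :=
      Subgroup.mem_map_of_mem _ hs_cl
    rw [MonoidHom.map_closure] at h1
    refine Subgroup.closure_mono ?_ h1
    rintro _ ⟨x, ⟨i, j, hij, a, hlt, rfl⟩, rfl⟩
    exact Or.inr ⟨i, j, hij, a, hlt, rfl⟩
  -- the Siegel part `v = u * (uphi s)⁻¹`
  have hsinv : A * ((s⁻¹ : SpecialLinearGroup (Fin l) K) : Matrix (Fin l) (Fin l) K) = 1 := by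
    rw [← hs]
    exact congrArg Subtype.val (mul_inv_cancel s)
  have hv : mat l K σ (u * uphi l K σ hσ s⁻¹) = fromBlocks 1 (B * (A.map σ)ᵀ) 0 1 := by
    rw [mat_mul, uphi_mat, hform, Matrix.fromBlocks_multiply, inv_inv, hs]
    simp only [Matrix.mul_zero, Matrix.zero_mul, add_zero, zero_add, hsinv, hDA']
  have hskew : (B * (A.map σ)ᵀ).map σ = -(B * (A.map σ)ᵀ)ᵀ := by
    obtain ⟨-, -, h3⟩ := block_eqs l K σ (u * uphi l K σ hσ s⁻¹) 1 (B * (A.map σ)ᵀ) 1 hv
    rw [Matrix.transpose_one, Matrix.one_mul, Matrix.map_one _ (map_zero σ) (map_one σ),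
      Matrix.mul_one] at h3
    exact eq_neg_of_add_eq_zero_left h3
  have hu_eq : u = usq l K σ (B * (A.map σ)ᵀ) hskew * uphi l K σ hσ s := by
    have h4 : u * uphi l K σ hσ s⁻¹ = usq l K σ (B * (A.map σ)ᵀ) hskew := by
      apply mat_ext
      rw [hv, usq_mat]
    rw [← h4, map_inv, inv_mul_cancel_right]
  rw [hu_eq]
  exact Subgroup.mul_mem _ (Subgroup.subset_closure (Or.inl ⟨_, hskew, rfl⟩)) huphi

end Cfsg.Agent.Lib.Helper64.SuEH1h
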