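import Mathlib
import Cfsg.Agent.Lib.Helper91.SuU

/-!
# S5172 piece EH2a (helper64 for helper91): a block upper triangular element of the even unitary
group lies in the subgroup generated by `U`, the diagonal `SL`-torus and a one-parameter torus
-/

set_option autoImplicit false

namespace Cfsg.Agent.Lib.Helper64.SuEH2a

open Matrix Cfsg.Agent.Lib.Helper91.SpU Cfsg.Agent.Lib.Helper91.SuU

theorem block_eqs (l : ℕ) (K : Type*) [Field K] (σ : K →+* K)
    (g : GU l K σ) (A B D : Matrix (Fin l) (Fin l) K)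
    (hform : mat l K σ g = fromBlocks A B 0 D) :
    Aᵀ * D.map σ = 1 ∧ Dᵀ * A.map σ = 1 ∧ Dᵀ * B.map σ + Bᵀ * D.map σ = 0 := by
  have hm := mat_mem l K σ g
  rw [hform, Matrix.fromBlocks_transpose, Matrix.fromBlocks_map, JJ, Matrix.fromBlocks_multiply,
    Matrix.fromBlocks_multiply] at hm
  simp only [Matrix.transpose_zero, Matrix.map_zero _ (map_zero σ), Matrix.mul_zero,
    Matrix.zero_mul, Matrix.mul_one, add_zero, zero_add] at hm
  have hm' := Matrix.fromBlocks_inj.mp hm
  exact ⟨hm'.2.1, hm'.2.2.1, hm'.2.2.2⟩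

/-- the one-parameter torus element `diag(s at i₀; s⁻¹ at i₀)`, `σ s = s` -/
theorem exists_tor (l : ℕ) (K : Type*) [Field K] (σ : K →+* K) (i₀ : Fin l) (s : K)
    (hs : s ≠ 0) (hσs : σ s = s) :
    ∃ x : GU l K σ, mat l K σ x =
      fromBlocks (Matrix.diagonal (fun k => if k = i₀ then s else 1)) 0 0
        (Matrix.diagonal (fun k => if k = i₀ then s⁻¹ else 1)) := by
  have hdet : (fromBlocks (Matrix.diagonal (fun k => if k = i₀ then s else 1)) 0 0
      (Matrix.diagonal (fun k => if k = i₀ then s⁻¹ else 1)) :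
        Matrix (Fin l ⊕ Fin l) (Fin l ⊕ Fin l) K).det = 1 := by
    rw [Matrix.det_fromBlocks_zero₂₁, Matrix.det_diagonal, Matrix.det_diagonal,
      ← Finset.prod_mul_distrib]
    apply Finset.prod_eq_one
    intro k _
    split_ifs
    · exact mul_inv_cancel₀ hs
    · exact mul_one 1
  refine ⟨⟨⟨_, hdet⟩, ?_⟩, rfl⟩
  change (fromBlocks (Matrix.diagonal (fun k => if k = i₀ then s else 1)) 0 0
      (Matrix.diagonal (fun k => if k = i₀ then s⁻¹ else 1)))ᵀ * JJ l K *
    (fromBlocks (Matrix.diagonal (fun k => if k = i₀ then s else 1)) 0 0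
      (Matrix.diagonal (fun k => if k = i₀ then s⁻¹ else 1))).map σ = JJ l K
  rw [Matrix.fromBlocks_transpose, Matrix.fromBlocks_map, JJ, Matrix.fromBlocks_multiply,
    Matrix.fromBlocks_multiply]
  simp only [Matrix.transpose_zero, Matrix.map_zero _ (map_zero σ), Matrix.mul_zero,
    Matrix.zero_mul, Matrix.mul_one, add_zero, zero_add, Matrix.diagonal_transpose,
    Matrix.diagonal_map (map_zero σ), Matrix.diagonal_mul_diagonal]
  have e1 : (fun i : Fin l => (if i = i₀ then s else 1) * σ (if i = i₀ then s⁻¹ else 1)) =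
      fun _ => 1 := by
    funext k
    split_ifs
    · rw [map_inv₀, hσs, mul_inv_cancel₀ hs]
    · rw [map_one, mul_one]
  have e2 : (fun i : Fin l => (if i = i₀ then s⁻¹ else 1) * σ (if i = i₀ then s else 1)) =
      fun _ => 1 := by
    funext k
    split_ifs
    · rw [hσs, inv_mul_cancel₀ hs]
    · rw [map_one, mul_one]
  rw [e1, e2, Matrix.diagonal_one]

theorem tri_mem_closure_su (l : ℕ) (K : Type*) [Field K] (σ : K →+* K) (hσ : ∀ x, σ (σ x) = x)
    (g : GU l K σ) (h1 : (mat l K σ g).toBlocks₂₁ = 0)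
    (h2 : ∀ i j : Fin l, j < i → (mat l K σ g).toBlocks₁₁ i j = 0) (i₀ : Fin l) :
    g ∈ Subgroup.closure
      ({x : GU l K σ | InU l K σ x} ∪
        {x | ∃ s : SpecialLinearGroup (Fin l) K,
          (∀ i j : Fin l, i ≠ j → (s : Matrix (Fin l) (Fin l) K) i j = 0) ∧
            x = uphi l K σ hσ s} ∪
        {x | ∃ s : K, s ≠ 0 ∧ σ s = s ∧
          mat l K σ x = fromBlocks (Matrix.diagonal (fun k => if k = i₀ then s else 1)) 0 0
            (Matrix.diagonal (fun k => if k = i₀ then s⁻¹ else 1))}) := by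
  classical
  obtain ⟨A, hA⟩ : ∃ A, A = (mat l K σ g).toBlocks₁₁ := ⟨_, rfl⟩
  obtain ⟨B, hB⟩ : ∃ B, B = (mat l K σ g).toBlocks₁₂ := ⟨_, rfl⟩
  obtain ⟨D, hD⟩ : ∃ D, D = (mat l K σ g).toBlocks₂₂ := ⟨_, rfl⟩
  have hg : mat l K σ g = fromBlocks A B 0 D := by
    rw [hA, hB, hD, ← h1, Matrix.fromBlocks_toBlocks]
  obtain ⟨hAD, -, -⟩ := block_eqs l K σ g A B D hg
  -- determinants
  have hdet1 : A.det * D.det = 1 := by
    have := mat_det l K σ g
    rw [hg, Matrix.det_fromBlocks_zero₂₁] at this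
    exact this
  have hdet2 : A.det * σ D.det = 1 := by
    have h4 := congrArg Matrix.det hAD
    rw [Matrix.det_mul, Matrix.det_transpose, Matrix.det_one] at h4
    have h5 : (D.map σ).det = σ D.det := by
      rw [← RingHom.mapMatrix_apply, ← RingHom.map_det]
    rw [h5] at h4
    exact h4
  have hdet : A.det ≠ 0 := by
    intro h0
    rw [h0, zero_mul] at hdet1
    exact zero_ne_one hdet1
  have htri : A.BlockTriangular id := by
    intro i j hij
    rw [hA]; exact h2 i j hij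
  have hdet' : A.det = ∏ i, A i i := Matrix.det_of_isUpperTriangular htri
  obtain ⟨τ, hτdef⟩ : ∃ τ : K, τ = ∏ i, A i i := ⟨_, rfl⟩
  have hτA : A.det = τ := by rw [hτdef, hdet']
  have hτ : τ ≠ 0 := by rw [← hτA]; exact hdet
  have hDτ : D.det = τ⁻¹ := by
    rw [hτA] at hdet1
    exact eq_inv_of_mul_eq_one_right hdet1
  have hστ : σ τ = τ := by
    rw [hτA, hDτ, map_inv₀] at hdet2
    have h6 : (σ τ)⁻¹ = τ⁻¹ := eq_inv_of_mul_eq_one_right hdet2
    exact inv_injective h6
  have hστ' : σ τ⁻¹ = τ⁻¹ := by rw [map_inv₀, hστ]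
  have ht : ∀ i, A i i ≠ 0 := by
    intro i
    rw [hτdef] at hτ
    exact (Finset.prod_ne_zero_iff.mp hτ) i (Finset.mem_univ i)
  -- the `SL` part and its inverse
  have hd1 : (Matrix.diagonal (fun k => if k = i₀ then A k k * τ⁻¹ else A k k)).det = 1 := by
    rw [Matrix.det_diagonal]
    have h5 : ∀ k : Fin l, (if k = i₀ then A k k * τ⁻¹ else A k k)
        = A k k * (if k = i₀ then τ⁻¹ else 1) := by
      intro k
      split_ifs <;> simp
    rw [Finset.prod_congr rfl (fun k _ => h5 k), Finset.prod_mul_distrib,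
      Finset.prod_ite_eq' Finset.univ i₀ (fun _ => τ⁻¹), if_pos (Finset.mem_univ _), ← hτdef]
    exact mul_inv_cancel₀ hτ
  have hd1' : (Matrix.diagonal (fun k => if k = i₀ then (A k k)⁻¹ * τ else (A k k)⁻¹)).det
      = 1 := by
    rw [Matrix.det_diagonal]
    have h5 : ∀ k : Fin l, (if k = i₀ then (A k k)⁻¹ * τ else (A k k)⁻¹)
        = (A k k)⁻¹ * (if k = i₀ then τ else 1) := by
      intro k
      split_ifs <;> simp
    rw [Finset.prod_congr rfl (fun k _ => h5 k), Finset.prod_mul_distrib,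
      Finset.prod_ite_eq' Finset.univ i₀ (fun _ => τ), if_pos (Finset.mem_univ _),
      Finset.prod_inv_distrib, ← hτdef]
    exact inv_mul_cancel₀ hτ
  obtain ⟨d₁, hd1def⟩ : ∃ d₁ : SpecialLinearGroup (Fin l) K,
      d₁.1 = Matrix.diagonal (fun k => if k = i₀ then A k k * τ⁻¹ else A k k) :=
    ⟨⟨_, hd1⟩, rfl⟩
  obtain ⟨d₂, hd2def⟩ : ∃ d₂ : SpecialLinearGroup (Fin l) K,
      d₂.1 = Matrix.diagonal (fun k => if k = i₀ then (A k k)⁻¹ * τ else (A k k)⁻¹) :=
    ⟨⟨_, hd1'⟩, rfl⟩
  have hd12 : d₁ * d₂ = 1 := by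
    apply Subtype.ext
    change d₁.1 * d₂.1 = 1
    rw [hd1def, hd2def, Matrix.diagonal_mul_diagonal, ← Matrix.diagonal_one]
    congr 1; funext k
    split_ifs
    · field_simp [ht k]
    · exact mul_inv_cancel₀ (ht k)
  -- the one-parameter parts
  obtain ⟨x₂, hx2⟩ := exists_tor l K σ i₀ τ hτ hστ
  obtain ⟨x₃, hx3⟩ := exists_tor l K σ i₀ τ⁻¹ (inv_ne_zero hτ) hστ'
  have hx23 : x₂ * x₃ = 1 := by
    apply mat_ext
    rw [mat_mul, hx2, hx3, mat_one, Matrix.fromBlocks_multiply]
    simp only [Matrix.mul_zero, Matrix.zero_mul, add_zero, zero_add,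
      Matrix.diagonal_mul_diagonal]
    have e1 : (fun i : Fin l => (if i = i₀ then τ else 1) * (if i = i₀ then τ⁻¹ else 1)) =
        fun _ => 1 := by
      funext k
      split_ifs
      · exact mul_inv_cancel₀ hτ
      · exact mul_one 1
    have e2 : (fun i : Fin l => (if i = i₀ then τ⁻¹ else 1) * (if i = i₀ then τ⁻¹⁻¹ else 1)) =
        fun _ => 1 := by
      funext k
      split_ifs
      · exact mul_inv_cancel₀ (inv_ne_zero hτ)
      · exact mul_one 1
    rw [e1, e2, Matrix.diagonal_one, Matrix.fromBlocks_one]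
  -- the unipotent part
  have hg' : InU l K σ (x₃ * uphi l K σ hσ d₂ * g) := by
    have hcoe : mat l K σ (x₃ * uphi l K σ hσ d₂ * g) =
        fromBlocks (Matrix.diagonal (fun k => (A k k)⁻¹) * A)
          (Matrix.diagonal (fun k => (A k k)⁻¹) * B) 0
          (Matrix.diagonal (fun k => if k = i₀ then τ⁻¹⁻¹ else 1) *
            (((d₂⁻¹ : SpecialLinearGroup (Fin l) K) : Matrix (Fin l) (Fin l) K).map σ)ᵀ * D) := by
      rw [mat_mul, mat_mul, hx3, uphi_mat, hg, Matrix.fromBlocks_multiply,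
        Matrix.fromBlocks_multiply, hd2def]
      simp only [Matrix.mul_zero, Matrix.zero_mul, add_zero, zero_add,
        Matrix.diagonal_mul_diagonal]
      have e1 : (fun i : Fin l => (if i = i₀ then τ⁻¹ else 1) *
          (if i = i₀ then (A i i)⁻¹ * τ else (A i i)⁻¹)) = fun k => (A k k)⁻¹ := by
        funext k
        split_ifs
        · field_simp
        · exact one_mul _
      rw [e1]
    constructor
    · rw [hcoe, Matrix.toBlocks_fromBlocks₂₁]
    · rw [hcoe, Matrix.toBlocks_fromBlocks₁₁]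
      constructor
      · intro i j hji
        rw [Matrix.diagonal_mul, htri hji, mul_zero]
      · intro i
        rw [Matrix.diagonal_mul, inv_mul_cancel₀ (ht i)]
  have hgeq : g = uphi l K σ hσ d₁ * x₂ * (x₃ * uphi l K σ hσ d₂ * g) := by
    have h7 : uphi l K σ hσ d₁ * x₂ * (x₃ * uphi l K σ hσ d₂ * g) =
        uphi l K σ hσ d₁ * (x₂ * x₃) * uphi l K σ hσ d₂ * g := by group
    rw [h7, hx23, mul_one, ← map_mul, hd12, map_one, one_mul]
  rw [hgeq]
  refine mul_mem (mul_mem ?_ ?_) ?_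
  · apply Subgroup.subset_closure
    refine Or.inl (Or.inr ⟨d₁, ?_, rfl⟩)
    intro i j hij
    rw [hd1def, Matrix.diagonal_apply_ne _ hij]
  · apply Subgroup.subset_closure
    exact Or.inr ⟨τ, hτ, hστ, hx2⟩
  · apply Subgroup.subset_closure
    exact Or.inl (Or.inl hg')

end Cfsg.Agent.Lib.Helper64.SuEH2a
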