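import Mathlib
import Cfsg.Agent.Lib.Helper44.UDDefs
import Cfsg.Agent.Lib.Helper44.UDKit2

/-!
# S5655 piece E5 (helper64 for helper44): an element of `X` fixing `F c0` whose block is a
non-monomial transvection contradicts `NoCol1` (characteristic 2)
-/

set_option autoImplicit false

namespace Cfsg.Agent.Lib.Helper44.UD

open Matrix Cfsg.Agent.Lib.Helper93 Cfsg.Agent.Lib.Helper18 Cfsg.Agent.Lib.Helper7

theorem ud_e5 {F : Type*} [Field F] [Fintype F] (q : ℕ) : E5Stmt F q := by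
  intro hF h2 N hN X hX hM hNC g hg ⟨κ, hκ⟩ ⟨a, b, ε, a', hab, hε, ha'L, ha'0, ha'1, hblk⟩
  classical
  have hq0 : q ≠ 0 := herm_q_ne_zero hF
  have hpres : suPres q (N + 2) g.1 := (hX hg).1
  have hκ' : g.1 *ᵥ c0 N = κ • c0 N := hκ
  have hblk' : ∀ i j : Fin N, g.1 i.succ.succ j.succ.succ =
      Cfsg.unitaryTransvection N q (Pi.single a 1 + ε • Pi.single b 1) a' i j := hblk
  -- characteristic 2
  have hneg : ∀ x : F, -x = x := by
    intro x
    have h1 : x + x = 0 := by rw [← two_mul, h2, zero_mul]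
    exact neg_eq_of_add_eq_zero_left h1
  have hε0 : ε ≠ 0 := by
    rintro rfl
    rw [zero_pow (Nat.succ_ne_zero q)] at hε
    exact one_ne_zero (neg_eq_zero.mp hε.symm)
  -- values of `c0`
  have hC0 : c0 (F := F) N 0 = 1 := by
    simp [c0]
  have hC1 : c0 (F := F) N (Fin.succ 0) = 1 := by
    simp [c0]
  have hCs : ∀ i : Fin N, c0 (F := F) N i.succ.succ = 0 := by
    intro i
    have h1 : i.succ.succ ≠ (0 : Fin (N + 2)) := Fin.succ_ne_zero _
    have h3 : i.succ.succ ≠ (1 : Fin (N + 2)) := Fin.succ_succ_ne_one i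
    simp [c0, h1, h3]
  have hκ0 : κ ≠ 0 := by
    rintro rfl
    rw [zero_smul] at hκ'
    have h1 := udk_inv_mulVec g (c0 N)
    rw [hκ', Matrix.mulVec_zero] at h1
    have h3 := congrFun h1 0
    rw [hC0] at h3
    exact zero_ne_one h3
  -- rows `0` and `1` agree in the columns where `c0` vanishes
  have hrow : ∀ c : Fin (N + 2), c0 (F := F) N c = 0 → g.1 (Fin.succ 0) c = g.1 0 c := by
    intro c hc
    have h1 := hpres (Pi.single c 1) (c0 N)
    rw [hκ', hf_smul_right] at h1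
    have h3 : Cfsg.hermForm (N + 2) F q (Pi.single c 1) (c0 N) = 0 := by
      rw [hf_single_left, hc, zero_pow hq0]
    rw [h3] at h1
    have h4 : Cfsg.hermForm (N + 2) F q (g.1 *ᵥ Pi.single c 1) (c0 N)
        = g.1 0 c + g.1 (Fin.succ 0) c := by
      unfold c0
      rw [hf_add_right hF, hf_single_right hF, hf_single_right hF, udk_col, udk_col,
        Fin.succ_zero_eq_one]
    rw [h4] at h1
    have h5 : g.1 0 c + g.1 (Fin.succ 0) c = 0 := by
      rcases mul_eq_zero.mp h1 with h | h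
      · exact absurd ((pow_eq_zero_iff hq0).mp h) hκ0
      · exact h
    rw [eq_neg_of_add_eq_zero_right h5, hneg]
  -- entries of the transvection
  have hT : ∀ i j : Fin N,
      Cfsg.unitaryTransvection N q (Pi.single a 1 + ε • Pi.single b (1 : F)) a' i j
        = (if i = j then 1 else 0) + a' * (((if i = a then 1 else 0) + ε * (if i = b then 1 else 0))
          * ((if j = a then 1 else 0) + ε * (if j = b then 1 else 0)) ^ q) := by
    intro i j
    simp [Cfsg.unitaryTransvection, Matrix.vecMulVec_apply, Matrix.one_apply, Pi.single_apply]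
  have haa : g.1 a.succ.succ a.succ.succ = 1 + a' := by
    rw [hblk', hT]
    simp [hab]
  have hba : g.1 b.succ.succ a.succ.succ = a' * ε := by
    rw [hblk', hT]
    simp [hab, hab.symm]
  have hk : ∀ k : Fin N, k ≠ a → k ≠ b → ∀ i : Fin N,
      g.1 i.succ.succ k.succ.succ = if i = k then 1 else 0 := by
    intro k hka hkb i
    rw [hblk', hT]
    simp [hka, hkb, hq0]
  -- `g` is not monomial
  have hnm : ¬ IsMono g.1 := by
    intro hmono
    obtain ⟨i, hi⟩ := hmono a.succ.succ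
    have h1 : a.succ.succ = i := by
      apply hi
      rw [haa]
      intro h
      apply ha'1
      rw [eq_neg_of_add_eq_zero_right h, hneg]
    have h3 : b.succ.succ = i := by
      apply hi
      rw [hba]
      exact mul_ne_zero ha'0 hε0
    exact hab (Fin.succ_injective _ (Fin.succ_injective _ (h1.trans h3.symm)))
  have hNC1 := hNC g hg hnm
  -- the columns `k + 2`, `k ∉ {a, b}`
  have hcolk : ∀ k : Fin N, k ≠ a → k ≠ b →
      g.1 *ᵥ Pi.single k.succ.succ (1 : F)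
        = Pi.single k.succ.succ 1 + (g.1 0 k.succ.succ) • c0 N := by
    intro k hka hkb
    funext i
    rw [udk_col, Pi.add_apply, Pi.smul_apply, smul_eq_mul]
    refine Fin.cases ?_ (fun i' => Fin.cases ?_ (fun i'' => ?_) i') i
    · rw [hC0, mul_one, Pi.single_eq_of_ne (Fin.succ_ne_zero _).symm, zero_add]
    · rw [hrow _ (hCs k), hC1, mul_one, Pi.single_eq_of_ne
        (fun h => (Fin.succ_ne_zero k) (Fin.succ_injective _ h).symm), zero_add]
    · rw [hk k hka hkb i'', hCs, mul_zero, add_zero, Pi.single_apply]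
      by_cases hik : i'' = k
      · rw [if_pos hik, if_pos (by rw [hik])]
      · rw [if_neg hik, if_neg (fun h => hik (Fin.succ_injective _ (Fin.succ_injective _ h)))]
  have hbne : ∀ k : Fin N, k ≠ a → k ≠ b → g.1 0 k.succ.succ ≠ 0 := by
    intro k hka hkb h0
    apply hNC1 k.succ.succ
    refine ⟨k.succ.succ, fun i' hi' => ?_⟩
    by_contra hne
    apply hi'
    have e1 := udk_col g.1 k.succ.succ i'
    rw [← e1, hcolk k hka hkb, h0, zero_smul, add_zero, Pi.single_eq_of_ne hne]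
  -- three further indices
  obtain ⟨k, l, j, hk_, hl_, hj_, hkl, hkj, hlj⟩ : ∃ k l j : Fin N,
      (k ≠ b ∧ k ≠ a) ∧ (l ≠ b ∧ l ≠ a) ∧ (j ≠ b ∧ j ≠ a) ∧ k ≠ l ∧ k ≠ j ∧ l ≠ j := by
    have hcard : 2 < ((Finset.univ.erase a).erase b).card := by
      rw [Finset.card_erase_of_mem (Finset.mem_erase.mpr ⟨hab.symm, Finset.mem_univ b⟩),
        Finset.card_erase_of_mem (Finset.mem_univ a), Finset.card_univ, Fintype.card_fin]
      omega
    obtain ⟨k, hk1, l, hl1, j, hj1, h1, h3, h4⟩ := Finset.two_lt_card.mp hcard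
    simp only [Finset.mem_erase, Finset.mem_univ, and_true] at hk1 hl1 hj1
    exact ⟨k, l, j, hk1, hl1, hj1, h1, h3, h4⟩
  obtain ⟨ζ, hζ⟩ := udk_exists_order (F := F) hF
  have hs : (ζ : F) ^ (q + 1) = 1 := udk_order_pow ζ hζ
  have hs1 : (ζ : F) ≠ 1 := by
    have h1 := udk_order_ne ζ hζ 1 (by norm_num) (by have := herm_two_le hF; omega)
    rwa [pow_one] at h1
  have hζ0 : (ζ : F) ≠ 0 := ζ.ne_zero
  have hkl2 : k.succ.succ ≠ l.succ.succ :=
    fun h => hkl (Fin.succ_injective _ (Fin.succ_injective _ h))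
  obtain ⟨d, hddef⟩ : ∃ d : GL (Fin (N + 2)) F,
      d = Cfsg.Agent.Lib.Helper65.Mono.dg k.succ.succ l.succ.succ ζ := ⟨_, rfl⟩
  have hdX : d ∈ X := by
    rw [hddef]
    exact udk_dg_mem' hM _ _ hkl2 ζ hs
  have hdmul : ∀ (v : Fin (N + 2) → F) (i : Fin (N + 2)), (d.1 *ᵥ v) i
      = (if i = k.succ.succ then (ζ : F) else if i = l.succ.succ then ((ζ⁻¹ : Fˣ) : F) else 1)
        * v i := by
    intro v i
    rw [hddef]
    exact udk_dg_mulVec _ _ ζ v i
  have hdv : ∀ v : Fin (N + 2) → F,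
      (∀ i, v i ≠ 0 → i ≠ k.succ.succ ∧ i ≠ l.succ.succ) → d.1 *ᵥ v = v := by
    intro v hv
    funext i
    rw [hdmul]
    by_cases hvi : v i = 0
    · rw [hvi, mul_zero]
    · obtain ⟨h1, h3⟩ := hv i hvi
      rw [if_neg h1, if_neg h3, one_mul]
  have hdC : d.1 *ᵥ c0 N = c0 N := by
    apply hdv
    intro i hi
    constructor
    · intro h
      rw [h, hCs] at hi
      exact hi rfl
    · intro h
      rw [h, hCs] at hi
      exact hi rfl
  have hdEj : d.1 *ᵥ Pi.single j.succ.succ (1 : F) = Pi.single j.succ.succ 1 := by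
    apply hdv
    intro i hi
    have hij : i = j.succ.succ := by
      by_contra hne
      exact hi (Pi.single_eq_of_ne hne 1)
    rw [hij]
    exact ⟨fun h => hkj (Fin.succ_injective _ (Fin.succ_injective _ h)).symm,
      fun h => hlj (Fin.succ_injective _ (Fin.succ_injective _ h)).symm⟩
  have hdEk : d.1 *ᵥ Pi.single k.succ.succ (1 : F) = (ζ : F) • Pi.single k.succ.succ 1 := by
    funext i
    rw [hdmul, Pi.smul_apply, smul_eq_mul]
    by_cases hik : i = k.succ.succ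
    · rw [if_pos hik]
    · rw [Pi.single_eq_of_ne hik, mul_zero, mul_zero]
  have hdiC : d⁻¹.1 *ᵥ c0 N = c0 N := by
    have h1 := udk_inv_mulVec d (c0 N)
    rwa [hdC] at h1
  have hdiEj : d⁻¹.1 *ᵥ Pi.single j.succ.succ (1 : F) = Pi.single j.succ.succ 1 := by
    have h1 := udk_inv_mulVec d (Pi.single j.succ.succ (1 : F))
    rwa [hdEj] at h1
  have hdiEk : d⁻¹.1 *ᵥ Pi.single k.succ.succ (1 : F)
      = (ζ : F)⁻¹ • Pi.single k.succ.succ 1 := by
    have h1 := udk_inv_mulVec d ((ζ : F)⁻¹ • Pi.single k.succ.succ (1 : F))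
    rw [Matrix.mulVec_smul, hdEk, smul_smul, inv_mul_cancel₀ hζ0, one_smul] at h1
    exact h1
  have hgiC : g⁻¹.1 *ᵥ c0 N = κ⁻¹ • c0 N := by
    have h1 := udk_inv_mulVec g (κ⁻¹ • c0 N)
    rw [Matrix.mulVec_smul, hκ', smul_smul, inv_mul_cancel₀ hκ0, one_smul] at h1
    exact h1
  have hgiEk : g⁻¹.1 *ᵥ Pi.single k.succ.succ (1 : F)
      = Pi.single k.succ.succ 1 - (g.1 0 k.succ.succ * κ⁻¹) • c0 N := by
    have h1 := udk_inv_mulVec g
      (Pi.single k.succ.succ (1 : F) - (g.1 0 k.succ.succ * κ⁻¹) • c0 N)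
    have h3 : g.1 *ᵥ (Pi.single k.succ.succ (1 : F) - (g.1 0 k.succ.succ * κ⁻¹) • c0 N)
        = Pi.single k.succ.succ 1 := by
      rw [Matrix.mulVec_sub, Matrix.mulVec_smul, hκ', hcolk k hk_.2 hk_.1, smul_smul,
        mul_assoc, inv_mul_cancel₀ hκ0, mul_one, add_sub_cancel_right]
    rw [h3] at h1
    exact h1
  -- the commutator
  have hg3X : g⁻¹ * d⁻¹ * g * d ∈ X :=
    X.mul_mem (X.mul_mem (X.mul_mem (X.inv_mem hg) (X.inv_mem hdX)) hg) hdX
  have hg3 : ∀ v : Fin (N + 2) → F, (g⁻¹ * d⁻¹ * g * d).1 *ᵥ v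
      = g⁻¹.1 *ᵥ (d⁻¹.1 *ᵥ (g.1 *ᵥ (d.1 *ᵥ v))) := by
    intro v
    rw [Units.val_mul, Units.val_mul, Units.val_mul, ← Matrix.mulVec_mulVec,
      ← Matrix.mulVec_mulVec, ← Matrix.mulVec_mulVec]
  have hg3Ej : (g⁻¹ * d⁻¹ * g * d).1 *ᵥ Pi.single j.succ.succ (1 : F)
      = Pi.single j.succ.succ 1 := by
    rw [hg3, hdEj, hcolk j hj_.2 hj_.1, Matrix.mulVec_add, Matrix.mulVec_smul, hdiEj, hdiC,
      ← hcolk j hj_.2 hj_.1, udk_inv_mulVec]
  have hg3Ek : (g⁻¹ * d⁻¹ * g * d).1 *ᵥ Pi.single k.succ.succ (1 : F)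
      = Pi.single k.succ.succ 1
        + (g.1 0 k.succ.succ * κ⁻¹ * ((ζ : F) - 1)) • c0 N := by
    simp only [hg3, hdEk, Matrix.mulVec_smul, Matrix.mulVec_add, hcolk k hk_.2 hk_.1, hdiEk,
      hdiC, hgiEk, hgiC]
    funext i
    simp only [Pi.add_apply, Pi.smul_apply, Pi.sub_apply, smul_eq_mul]
    field_simp
    ring
  have hval : g.1 0 k.succ.succ * κ⁻¹ * ((ζ : F) - 1) ≠ 0 :=
    mul_ne_zero (mul_ne_zero (hbne k hk_.2 hk_.1) (inv_ne_zero hκ0)) (sub_ne_zero.mpr hs1)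
  have hnm3 : ¬ IsMono (g⁻¹ * d⁻¹ * g * d).1 := by
    intro hmono
    obtain ⟨i, hi⟩ := hmono k.succ.succ
    have h1 : (0 : Fin (N + 2)) = i := by
      apply hi
      have e1 := udk_col (g⁻¹ * d⁻¹ * g * d).1 k.succ.succ 0
      rw [← e1, hg3Ek, Pi.add_apply, Pi.smul_apply, smul_eq_mul, hC0, mul_one,
        Pi.single_eq_of_ne (Fin.succ_ne_zero _).symm, zero_add]
      exact hval
    have h3 : (Fin.succ 0 : Fin (N + 2)) = i := by
      apply hi
      have e1 := udk_col (g⁻¹ * d⁻¹ * g * d).1 k.succ.succ (Fin.succ 0)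
      rw [← e1, hg3Ek, Pi.add_apply, Pi.smul_apply, smul_eq_mul, hC1, mul_one,
        Pi.single_eq_of_ne (fun h => (Fin.succ_ne_zero k) (Fin.succ_injective _ h).symm),
        zero_add]
      exact hval
    exact Fin.succ_ne_zero (0 : Fin (N + 1)) (h3.trans h1.symm)
  apply hNC _ hg3X hnm3 j.succ.succ
  refine ⟨j.succ.succ, fun i' hi' => ?_⟩
  by_contra hne
  apply hi'
  have e1 := udk_col (g⁻¹ * d⁻¹ * g * d).1 j.succ.succ i'
  rw [← e1, hg3Ej, Pi.single_eq_of_ne hne]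

end Cfsg.Agent.Lib.Helper44.UD
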