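import Mathlib
import Cfsg.Agent.Lib.Helper44.UDDefs

/-!
# S5655 piece LIFT (helper64 for helper44): lift a monomial unitary `N × N` matrix to a monomial
element of `SU_{N+2}` fixing `F c0` (characteristic 2)
-/

set_option autoImplicit false

namespace Cfsg.Agent.Lib.Helper44.UD

open Matrix Cfsg.Agent.Lib.Helper93 Cfsg.Agent.Lib.Helper18 Cfsg.Agent.Lib.Helper7

section
variable {F : Type*} [Field F]

/-- `diag(c, B)` -/
def udlift_ext {m : ℕ} (c : F) (B : Matrix (Fin m) (Fin m) F) :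
    Matrix (Fin (m + 1)) (Fin (m + 1)) F :=
  Matrix.of fun i j =>
    Fin.cases (Fin.cases c (fun _ => 0) j) (fun i' => Fin.cases 0 (fun j' => B i' j') j) i

theorem udlift_ext_zero_zero {m : ℕ} (c : F) (B : Matrix (Fin m) (Fin m) F) :
    udlift_ext c B 0 0 = c := rfl

theorem udlift_ext_zero_succ {m : ℕ} (c : F) (B : Matrix (Fin m) (Fin m) F) (j : Fin m) :
    udlift_ext c B 0 j.succ = 0 := rfl

theorem udlift_ext_succ_zero {m : ℕ} (c : F) (B : Matrix (Fin m) (Fin m) F) (i : Fin m) :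
    udlift_ext c B i.succ 0 = 0 := rfl

theorem udlift_ext_succ_succ {m : ℕ} (c : F) (B : Matrix (Fin m) (Fin m) F) (i j : Fin m) :
    udlift_ext c B i.succ j.succ = B i j := rfl

theorem udlift_mulVec_zero {m : ℕ} (c : F) (B : Matrix (Fin m) (Fin m) F)
    (v : Fin (m + 1) → F) : (udlift_ext c B *ᵥ v) 0 = c * v 0 := by
  simp only [Matrix.mulVec, dotProduct]
  rw [Fin.sum_univ_succ]
  simp [udlift_ext_zero_zero, udlift_ext_zero_succ]

theorem udlift_mulVec_succ {m : ℕ} (c : F) (B : Matrix (Fin m) (Fin m) F)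
    (v : Fin (m + 1) → F) (i : Fin m) :
    (udlift_ext c B *ᵥ v) i.succ = (B *ᵥ (fun j => v j.succ)) i := by
  simp only [Matrix.mulVec, dotProduct]
  rw [Fin.sum_univ_succ]
  simp [udlift_ext_succ_zero, udlift_ext_succ_succ]

theorem udlift_herm (q m : ℕ) (u v : Fin (m + 1) → F) :
    Cfsg.hermForm (m + 1) F q u v =
      u 0 * v 0 ^ q + Cfsg.hermForm m F q (fun j => u j.succ) (fun j => v j.succ) := by
  unfold Cfsg.hermForm
  rw [Fin.sum_univ_succ]

theorem udlift_pres (q m : ℕ) (c : F) (hc : c ^ (q + 1) = 1) (B : Matrix (Fin m) (Fin m) F)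
    (hB : suPres q m B) : suPres q (m + 1) (udlift_ext c B) := by
  intro u v
  rw [udlift_herm, udlift_herm, udlift_mulVec_zero, udlift_mulVec_zero]
  have e1 : (fun j : Fin m => (udlift_ext c B *ᵥ u) j.succ) = B *ᵥ (fun j => u j.succ) :=
    funext (fun i => udlift_mulVec_succ c B u i)
  have e2 : (fun j : Fin m => (udlift_ext c B *ᵥ v) j.succ) = B *ᵥ (fun j => v j.succ) :=
    funext (fun i => udlift_mulVec_succ c B v i)
  rw [e1, e2, hB, mul_pow]
  have h1 : c * c ^ q = 1 := by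
    rw [← pow_succ']
    exact hc
  linear_combination (u 0 * v 0 ^ q) * h1

theorem udlift_det {m : ℕ} (c : F) (B : Matrix (Fin m) (Fin m) F) :
    (udlift_ext c B).det = c * B.det := by
  rw [Matrix.det_succ_row_zero, Fin.sum_univ_succ]
  have h0 : (udlift_ext c B).submatrix Fin.succ (Fin.succAbove 0) = B := by
    ext i j
    rw [Matrix.submatrix_apply, Fin.succAbove_zero, udlift_ext_succ_succ]
  rw [h0]
  simp [udlift_ext_zero_zero, udlift_ext_zero_succ]

theorem udlift_mono {m : ℕ} (c : F) (B : Matrix (Fin m) (Fin m) F) (hB : IsMono B) :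
    IsMono (udlift_ext c B) := by
  intro j
  refine Fin.cases ?_ (fun j' => ?_) j
  · refine ⟨0, fun i' => ?_⟩
    refine Fin.cases ?_ (fun i'' => ?_) i'
    · intro _
      rfl
    · intro h
      exact absurd (udlift_ext_succ_zero c B i'') h
  · obtain ⟨i₀, hi₀⟩ := hB j'
    refine ⟨i₀.succ, fun i' => ?_⟩
    refine Fin.cases ?_ (fun i'' => ?_) i'
    · intro h
      exact absurd (udlift_ext_zero_succ c B j') h
    · intro h
      rw [hi₀ i'' h]

end

theorem ud_lift {F : Type*} [Field F] [Fintype F] (q : ℕ) : LiftStmt F q := by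
  intro hF h2 N A hA hmono
  have hApres : suPres q N (A : Matrix (Fin N) (Fin N) F) := hA
  have hdet : (A : Matrix (Fin N) (Fin N) F).det ^ (q + 1) = 1 :=
    det_pow_of_isFr hF _ (isFr_of_preserves hF _ hApres)
  have hd0 : (A : Matrix (Fin N) (Fin N) F).det ≠ 0 := by
    intro h0
    rw [h0, zero_pow (Nat.succ_ne_zero q)] at hdet
    exact zero_ne_one hdet
  have hqe : Even q := by
    have hc : CharP F 2 := CharTwo.of_one_ne_zero_of_two_eq_zero one_ne_zero h2
    obtain ⟨n, -, hn⟩ := FiniteField.card F 2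
    have h2q : 2 ∣ q ^ 2 := by
      rw [← hF, hn]
      exact dvd_pow_self 2 n.ne_zero
    exact even_iff_two_dvd.mpr (Nat.Prime.dvd_of_dvd_pow Nat.prime_two h2q)
  obtain ⟨r, hr⟩ := hqe
  obtain ⟨lam, hlamdef⟩ : ∃ lam : F, lam = ((A : Matrix (Fin N) (Fin N) F).det⁻¹) ^ (r + 1) :=
    ⟨_, rfl⟩
  have hlam2 : lam * lam = (A : Matrix (Fin N) (Fin N) F).det⁻¹ := by
    rw [hlamdef, ← pow_add]
    have e : r + 1 + (r + 1) = (q + 1) + 1 := by omega
    rw [e, pow_succ, inv_pow, hdet, inv_one, one_mul]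
  have hlamN : lam ^ (q + 1) = 1 := by
    rw [hlamdef, ← pow_mul, mul_comm, pow_mul, inv_pow, hdet, inv_one, one_pow]
  obtain ⟨g, hgdef⟩ : ∃ g : Matrix (Fin (N + 2)) (Fin (N + 2)) F,
      g = udlift_ext lam (udlift_ext lam (A : Matrix (Fin N) (Fin N) F)) := ⟨_, rfl⟩
  have hgdet : g.det = 1 := by
    rw [hgdef, udlift_det, udlift_det, ← mul_assoc, hlam2]
    exact inv_mul_cancel₀ hd0
  have hgne : g.det ≠ 0 := by
    rw [hgdet]
    exact one_ne_zero
  refine ⟨Matrix.GeneralLinearGroup.mkOfDetNeZero g hgne, ?_, hgdet, ?_, ⟨lam, ?_⟩, ?_⟩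
  · show suPres q (N + 2) g
    rw [hgdef]
    exact udlift_pres q _ lam hlamN _ (udlift_pres q _ lam hlamN _ hApres)
  · show IsMono g
    rw [hgdef]
    exact udlift_mono _ _ (udlift_mono _ _ hmono)
  · show g *ᵥ c0 N = lam • c0 N
    have hcol : ∀ (c i : Fin (N + 2)), (g *ᵥ Pi.single c 1) i = g i c := by
      intro c i
      rw [Matrix.mulVec_single_one]
      rfl
    funext i
    unfold c0
    rw [Matrix.mulVec_add, Pi.add_apply, hcol, hcol, Pi.smul_apply, Pi.add_apply, smul_eq_mul,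
      hgdef, ← Fin.succ_zero_eq_one]
    refine Fin.cases ?_ (fun i' => ?_) i
    · rw [udlift_ext_zero_zero, udlift_ext_zero_succ, Pi.single_eq_same,
        Pi.single_eq_of_ne (Fin.succ_ne_zero 0).symm, add_zero, add_zero, mul_one]
    · rw [udlift_ext_succ_zero, udlift_ext_succ_succ,
        Pi.single_eq_of_ne (Fin.succ_ne_zero i')]
      refine Fin.cases ?_ (fun i'' => ?_) i'
      · rw [udlift_ext_zero_zero, Pi.single_eq_same, zero_add, zero_add, mul_one]
      · rw [udlift_ext_succ_zero, Pi.single_eq_of_ne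
          (fun h => Fin.succ_ne_zero i'' (Fin.succ_injective _ h)), add_zero, mul_zero]
  · intro i j
    show (A : Matrix (Fin N) (Fin N) F) i j = g i.succ.succ j.succ.succ
    rw [hgdef]
    rfl

end Cfsg.Agent.Lib.Helper44.UD
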