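import Cfsg.Agent.Lib.Helper47.UniDefs

/-!
# S2676 piece EXDATA (helper64 for helper47): Gram data with prescribed sizes and prescribed
standard / non-standard even layers
-/

set_option autoImplicit false

namespace Cfsg.Agent.Lib.Helper64.Uni

open Cfsg.Agent.Lib.Helper47 Module

universe u

variable {F : Type u} [Field F]

/-- reindexing a Gram form along an equivalence -/
theorem gForm_formIso {κ κ' : Type*} [Fintype κ] [Fintype κ'] (e : κ ≃ κ') (G : κ → κ → F)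
    (G' : κ' → κ' → F) (h : ∀ a b, G a b = G' (e a) (e b)) : FormIso (gForm G) (gForm G') := by
  refine ⟨LinearEquiv.funCongrLeft F F e.symm, fun v w => ?_⟩
  unfold gForm
  symm
  refine Fintype.sum_equiv e _ _ (fun a => ?_)
  refine Fintype.sum_equiv e _ _ (fun b => ?_)
  simp [LinearEquiv.funCongrLeft_apply, h]

theorem nondeg_of_formIso {L L' : Type*} [AddCommGroup L] [Module F L] [AddCommGroup L']
    [Module F L'] {s : L → L → F} {s' : L' → L' → F} (h : FormIso s s') (hs' : Nondeg s') :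
    Nondeg s := by
  obtain ⟨ψ, hψ⟩ := h
  intro x hx
  have h1 : ψ x = 0 := hs' (ψ x) (fun y' => by
    have h2 := hx (ψ.symm y')
    rw [← hψ, ψ.apply_symm_apply] at h2
    exact h2)
  exact ψ.map_eq_zero_iff.mp h1

theorem exists_block
    (hsym : ∀ k : ℕ, 0 < k → ∀ b : Prop, ∃ G : Fin k → Fin k → F,
      (∀ a c, G c a = G a c) ∧ Nondeg (gForm G) ∧ (IsStd (gForm G) ↔ b))
    (halt : ∀ c : ℕ, ∃ G : Fin (2 * c) → Fin (2 * c) → F,
      (∀ a b, G b a = -G a b) ∧ Nondeg (gForm G))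
    (A : Finset ℕ) (j n : ℕ) (hn : 0 < n) (hodd : Odd j → Even n) :
    ∃ g : Fin n → Fin n → F, (∀ a c, g c a = (-1) ^ j * g a c) ∧ Nondeg (gForm g) ∧
      (Even j → (IsStd (gForm g) ↔ j ∈ A)) := by
  rcases Nat.even_or_odd j with hj | hj
  · obtain ⟨g, h1, h2, h3⟩ := hsym n hn (j ∈ A)
    refine ⟨g, fun a c => ?_, h2, fun _ => h3⟩
    rw [hj.neg_one_pow, one_mul, h1]
  · obtain ⟨c, hc⟩ := hodd hj
    have hn2 : n = 2 * c := by omega
    subst hn2
    obtain ⟨g, h1, h2⟩ := halt c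
    refine ⟨g, fun a c => ?_, h2, fun he => absurd he (Nat.not_even_iff_odd.mpr hj)⟩
    rw [hj.neg_one_pow, neg_one_mul, h1]

theorem exists_blockN
    (hsym : ∀ k : ℕ, 0 < k → ∀ b : Prop, ∃ G : Fin k → Fin k → F,
      (∀ a c, G c a = G a c) ∧ Nondeg (gForm G) ∧ (IsStd (gForm G) ↔ b))
    (halt : ∀ c : ℕ, ∃ G : Fin (2 * c) → Fin (2 * c) → F,
      (∀ a b, G b a = -G a b) ∧ Nondeg (gForm G))
    (μ : Multiset ℕ) (hcnt : ∀ j, Odd j → Even (μ.count j)) (A : Finset ℕ) :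
    ∀ j ∈ μ, ∃ gN : ℕ → ℕ → F,
      (∀ a c : Fin (μ.count j), gN c a = (-1) ^ j * gN a c) ∧
      Nondeg (gForm (fun a c : Fin (μ.count j) => gN a c)) ∧
      (Even j → (IsStd (gForm (fun a c : Fin (μ.count j) => gN a c)) ↔ j ∈ A)) := by
  intro j hj
  obtain ⟨g, h1, h2, h3⟩ :=
    exists_block hsym halt A j (μ.count j) (Multiset.count_pos.mpr hj) (hcnt j)
  have key : (fun a c : Fin (μ.count j) =>
      (if h : (a : ℕ) < μ.count j ∧ (c : ℕ) < μ.count j then g ⟨a, h.1⟩ ⟨c, h.2⟩ else 0)) = g := by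
    funext a c
    rw [dif_pos ⟨a.2, c.2⟩]
  refine ⟨fun a b => if h : a < μ.count j ∧ b < μ.count j then g ⟨a, h.1⟩ ⟨b, h.2⟩ else 0,
    ?_, ?_, ?_⟩
  · intro a c
    beta_reduce
    rw [dif_pos ⟨c.2, a.2⟩, dif_pos ⟨a.2, c.2⟩]
    exact h1 a c
  · rw [key]; exact h2
  · rw [key]; exact h3

/-- the layers of the block-diagonal Gram data are the blocks -/
theorem layer_formIso (μ : Multiset ℕ) (S : Finset (ℕ × ℕ))
    (hS : ∀ p : ℕ × ℕ, p ∈ S ↔ p.2 < μ.count p.1) (gN : ℕ → ℕ → ℕ → F) (j : ℕ) :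
    FormIso (layerForm (fun i : ↥S => i.1.1)
      (fun i k : ↥S => if i.1.1 = k.1.1 then gN i.1.1 i.1.2 k.1.2 else 0) j)
      (gForm (fun a c : Fin (μ.count j) => gN j a c)) := by
  classical
  let e : {i : ↥S // i.1.1 = j} ≃ Fin (μ.count j) :=
    { toFun := fun i => ⟨i.1.1.2, by
        have h := (hS i.1.1).mp i.1.2
        rw [i.2] at h
        exact h⟩
      invFun := fun a => ⟨⟨(j, a), (hS (j, a)).mpr a.2⟩, rfl⟩
      left_inv := fun i => Subtype.ext (Subtype.ext (Prod.ext i.2.symm rfl))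
      right_inv := fun a => rfl }
  change FormIso (gForm (fun a b : {i : ↥S // i.1.1 = j} =>
    if a.1.1.1 = b.1.1.1 then gN a.1.1.1 a.1.1.2 b.1.1.2 else 0)) _
  refine gForm_formIso e _ _ ?_
  intro a b
  have ha : a.1.1.1 = j := a.2
  have hb : b.1.1.1 = j := b.2
  simp only [e, Equiv.coe_fn_mk]
  rw [if_pos (ha.trans hb.symm), ha]

-- PIECE EXDATA
theorem exists_data
    (hsym : ∀ k : ℕ, 0 < k → ∀ b : Prop, ∃ G : Fin k → Fin k → F,
      (∀ a c, G c a = G a c) ∧ Nondeg (gForm G) ∧ (IsStd (gForm G) ↔ b))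
    (halt : ∀ c : ℕ, ∃ G : Fin (2 * c) → Fin (2 * c) → F,
      (∀ a b, G b a = -G a b) ∧ Nondeg (gForm G))
    (μ : Multiset ℕ) (hpos : ∀ a ∈ μ, 0 < a) (hcnt : ∀ j, Odd j → Even (μ.count j))
    (A : Finset ℕ) :
    ∃ (ι : Type) (_ : Fintype ι) (d : ι → ℕ) (G : ι → ι → F),
      Multiset.map d Finset.univ.val = μ ∧
      (∀ i k, d i = d k → G k i = (-1) ^ d i * G i k) ∧
      (∀ j, Nondeg (layerForm d G j)) ∧
      (∀ j, Even j → j ∈ μ → (IsStd (layerForm d G j) ↔ j ∈ A)) := by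
  classical
  choose! gN hgN using exists_blockN hsym halt μ hcnt A
  -- the index set
  obtain ⟨S, hS⟩ : ∃ S : Finset (ℕ × ℕ), ∀ p : ℕ × ℕ, p ∈ S ↔ p.2 < μ.count p.1 := by
    refine ⟨(μ.toFinset ×ˢ Finset.range (Multiset.card μ + 1)).filter
      (fun p => p.2 < μ.count p.1), fun p => ?_⟩
    rw [Finset.mem_filter, Finset.mem_product, Multiset.mem_toFinset, Finset.mem_range]
    constructor
    · exact fun h => h.2
    · intro h
      refine ⟨⟨Multiset.count_pos.mp (by omega), ?_⟩, h⟩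
      have := Multiset.count_le_card p.1 μ
      omega
  have hSmem : ∀ p : ℕ × ℕ, p ∈ S → p.1 ∈ μ := fun p hp =>
    Multiset.count_pos.mp (by have := (hS p).mp hp; omega)
  refine ⟨↥S, inferInstance, fun i => i.1.1,
    fun i k => if i.1.1 = k.1.1 then gN i.1.1 i.1.2 k.1.2 else 0, ?_, ?_, ?_, ?_⟩
  · -- the multiset of sizes
    ext n
    rw [Multiset.count_map]
    change (Finset.univ.filter (fun i : ↥S => n = i.1.1)).card = _
    rw [← Finset.card_range (μ.count n)]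
    refine Finset.card_bij (fun i _ => i.1.2) ?_ ?_ ?_
    · intro i hi
      rw [Finset.mem_filter] at hi
      rw [Finset.mem_range, hi.2]
      exact (hS i.1).mp i.2
    · intro i hi i' hi' h
      rw [Finset.mem_filter] at hi hi'
      exact Subtype.ext (Prod.ext (hi.2.symm.trans hi'.2) h)
    · intro a ha
      rw [Finset.mem_range] at ha
      exact ⟨⟨(n, a), (hS (n, a)).mpr ha⟩, by simp, rfl⟩
  · -- symmetry
    intro i k h
    change (if k.1.1 = i.1.1 then gN k.1.1 k.1.2 i.1.2 else 0) =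
      (-1) ^ i.1.1 * (if i.1.1 = k.1.1 then gN i.1.1 i.1.2 k.1.2 else 0)
    change i.1.1 = k.1.1 at h
    rw [if_pos h.symm, if_pos h, ← h]
    have hi := (hS i.1).mp i.2
    have hk := (hS k.1).mp k.2
    rw [← h] at hk
    exact (hgN i.1.1 (hSmem i.1 i.2)).1 ⟨i.1.2, hi⟩ ⟨k.1.2, hk⟩
  · -- nondegeneracy of the layers
    intro j
    refine nondeg_of_formIso (layer_formIso μ S hS gN j) ?_
    by_cases hj : j ∈ μ
    · exact (hgN j hj).2.1
    · intro x _
      funext a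
      have h0 := Multiset.count_eq_zero_of_notMem hj
      have := a.2
      omega
  · intro j hev hj
    exact (layer_formIso μ S hS gN j).isStd_iff.trans ((hgN j hj).2.2 hev)

end Cfsg.Agent.Lib.Helper64.Uni
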