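import Cfsg.Agent.Lib.Helper22.W2Defs
import Cfsg.Agent.Lib.Helper83.Ortho

/-!
# W2 piece COL (helper64, for helper22's S4707 project)

Column orthogonality on the powers of the `p`-element `z`.
-/

set_option autoImplicit false

namespace Cfsg.Agent.Lib.Helper64.W2

open Cfsg Cfsg.Agent.Lib.Helper83 Cfsg.Agent.Lib.Helper22.W2
open scoped ComplexConjugate

universe u

variable {G : Type u} [Group G] [Fintype G]

omit [Fintype G] in
theorem col_pow_mul (p : ℕ) [Fact p.Prime] (z : G) (hz : orderOf z = p) (a b : ZMod p) :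
    (z ^ a.val) ^ b.val = z ^ (a * b).val := by
  have : NeZero p := ⟨(Fact.out : p.Prime).ne_zero⟩
  have h := pow_mod_orderOf z (a.val * b.val)
  rw [hz] at h
  rw [← pow_mul, ZMod.val_mul, h]

omit [Fintype G] in
theorem col_pow_neg (p : ℕ) [Fact p.Prime] (z : G) (hz : orderOf z = p) (a : ZMod p) :
    z ^ (-a).val = (z ^ a.val)⁻¹ := by
  have : NeZero p := ⟨(Fact.out : p.Prime).ne_zero⟩
  have h := pow_mod_orderOf z ((-a).val + a.val)
  rw [hz, ← ZMod.val_add, neg_add_cancel, ZMod.val_zero, pow_zero] at h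
  rw [eq_inv_iff_mul_eq_one, ← pow_add]
  exact h.symm

/-- PIECE COL -/
theorem col [Fintype (IrrCharacter G)] (p : ℕ) [Fact p.Prime] (hp2 : p ≠ 2) (z : G)
    (hl : Loc2 G p z) (t t' : ZMod p) :
    ∑ χ : IrrCharacter G, χ.1 (z ^ t.val) * conj (χ.1 (z ^ t'.val)) =
      if t = 0 ∧ t' = 0 then (Nat.card G : ℂ)
      else if t ≠ 0 ∧ (t = t' ∨ t = -t') then (p : ℂ) else 0 := by
  classical
  have hp : p.Prime := Fact.out
  have : NeZero p := ⟨hp.ne_zero⟩
  have hz := hl.ord
  rw [Cfsg.Agent.Lib.Helper83.column_orthogonality]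
  have hpow1 : ∀ a : ZMod p, z ^ a.val = 1 → a = 0 := by
    intro a ha
    have h1 := orderOf_dvd_of_pow_eq_one ha
    rw [hz] at h1
    have h2 : a.val < p := ZMod.val_lt a
    have h3 : a.val = 0 := Nat.eq_zero_of_dvd_of_lt h1 h2
    exact (ZMod.val_eq_zero a).mp h3
  by_cases ht : t = 0
  · by_cases ht' : t' = 0
    · have eR : (if t = 0 ∧ t' = 0 then (Nat.card G : ℂ)
          else if t ≠ 0 ∧ (t = t' ∨ t = -t') then (p : ℂ) else 0) = (Nat.card G : ℂ) :=
        if_pos ⟨ht, ht'⟩
      rw [eR, ht, ht']
      simp only [ZMod.val_zero, pow_zero]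
      rw [if_pos (IsConj.refl 1)]
      have h1 : Subgroup.centralizer ({1} : Set G) = ⊤ := by
        ext x
        simp [Subgroup.mem_centralizer_iff]
      rw [h1, Subgroup.card_top]
    · have eR : (if t = 0 ∧ t' = 0 then (Nat.card G : ℂ)
          else if t ≠ 0 ∧ (t = t' ∨ t = -t') then (p : ℂ) else 0) = 0 := by
        rw [if_neg (fun h => ht' h.2), if_neg (fun h => h.1 ht)]
      rw [eR, if_neg]
      intro hc
      rw [ht, ZMod.val_zero, pow_zero] at hc
      exact ht' (hpow1 t' (isConj_one_left.mp hc))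
  · by_cases ht' : t' = 0
    · have eR : (if t = 0 ∧ t' = 0 then (Nat.card G : ℂ)
          else if t ≠ 0 ∧ (t = t' ∨ t = -t') then (p : ℂ) else 0) = 0 := by
        rw [if_neg (fun h => ht h.1), if_neg]
        rintro ⟨-, h | h⟩
        · exact ht (h.trans ht')
        · rw [ht', neg_zero] at h
          exact ht h
      rw [eR, if_neg]
      intro hc
      rw [ht', ZMod.val_zero, pow_zero] at hc
      exact ht (hpow1 t (isConj_one_right.mp hc))
    · have hcen : Subgroup.centralizer ({z ^ t'.val} : Set G) = Subgroup.zpowers z := by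
        rw [← hl.cen]
        apply le_antisymm
        · intro x hx
          rw [Subgroup.mem_centralizer_singleton_iff] at hx ⊢
          have h1 : z = (z ^ t'.val) ^ (t'⁻¹).val := by
            rw [col_pow_mul p z hz, mul_inv_cancel₀ ht', ZMod.val_one, pow_one]
          have hc : Commute x (z ^ t'.val) := hx
          rw [h1]
          exact (hc.pow_right _).eq
        · intro x hx
          rw [Subgroup.mem_centralizer_singleton_iff] at hx ⊢
          have hc : Commute x z := hx
          exact (hc.pow_right _).eq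
      have hcard : (Nat.card (Subgroup.centralizer ({z ^ t'.val} : Set G)) : ℂ) = p := by
        rw [hcen, Nat.card_zpowers, hz]
      have hconj : IsConj (z ^ t'.val) (z ^ t.val) ↔ (t = t' ∨ t = -t') := by
        constructor
        · intro hc
          obtain ⟨g, hg⟩ := isConj_iff.mp hc
          have h1 : g * z * g⁻¹ = z ^ (t * t'⁻¹).val := by
            have h2 : (g * z ^ t'.val * g⁻¹) ^ (t'⁻¹).val = (z ^ t.val) ^ (t'⁻¹).val := by
              rw [hg]
            rw [conj_pow, col_pow_mul p z hz, col_pow_mul p z hz, mul_inv_cancel₀ ht',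
              ZMod.val_one, pow_one] at h2
            exact h2
          have h3 : IsConj (z ^ (t * t'⁻¹).val) z := (isConj_iff.mpr ⟨g, h1⟩).symm
          rcases hl.cnj _ h3 with h4 | h4
          · left
            have h5 : t * t'⁻¹ * t' = 1 * t' := by rw [h4]
            rw [mul_assoc, inv_mul_cancel₀ ht', mul_one, one_mul] at h5
            exact h5
          · right
            have h5 : t * t'⁻¹ * t' = -1 * t' := by rw [h4]
            rw [mul_assoc, inv_mul_cancel₀ ht', mul_one, neg_one_mul] at h5
            exact h5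
        · rintro (h | h)
          · rw [h]
          · obtain ⟨n, hn⟩ := hl.inv
            rw [h, col_pow_neg p z hz]
            refine isConj_iff.mpr ⟨n, ?_⟩
            rw [← conj_pow, hn, inv_pow]
      by_cases hc : (t = t' ∨ t = -t')
      · have eR : (if t = 0 ∧ t' = 0 then (Nat.card G : ℂ)
            else if t ≠ 0 ∧ (t = t' ∨ t = -t') then (p : ℂ) else 0) = (p : ℂ) := by
          rw [if_neg (fun h => ht h.1), if_pos ⟨ht, hc⟩]
        rw [eR, if_pos (hconj.mpr hc), hcard]
      · have eR : (if t = 0 ∧ t' = 0 then (Nat.card G : ℂ)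
            else if t ≠ 0 ∧ (t = t' ∨ t = -t') then (p : ℂ) else 0) = 0 := by
          rw [if_neg (fun h => ht h.1), if_neg (fun h => hc h.2)]
        rw [eR, if_neg (fun h => hc (hconj.mp h))]

end Cfsg.Agent.Lib.Helper64.W2
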