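import Cfsg.Agent.Lib.Helper22.W2Defs
import Cfsg.Agent.Lib.Helper83.Ortho
import Cfsg.Agent.Lib.Helper33.TIFour

/-!
# W2 piece GRAM (helper64, for helper22's S4707 project)

The Gram identity for the Fourier coefficients of the irreducible characters on `⟨z⟩`.
-/

set_option autoImplicit false

namespace Cfsg.Agent.Lib.Helper64.W2

open Cfsg Cfsg.Agent.Lib.Helper83 Cfsg.Agent.Lib.Helper22.W2
open scoped ComplexConjugate

universe u

variable {G : Type u} [Group G] [Fintype G]

/-- PIECE GRAM -/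
theorem gram [Fintype (IrrCharacter G)] (p : ℕ) [Fact p.Prime] (hp2 : p ≠ 2) (w : ℂ)
    (hw : IsPrimitiveRoot w p) (z : G)
    (hcol : ∀ t t' : ZMod p,
      ∑ χ : IrrCharacter G, χ.1 (z ^ t.val) * conj (χ.1 (z ^ t'.val)) =
        if t = 0 ∧ t' = 0 then (Nat.card G : ℂ)
        else if t ≠ 0 ∧ (t = t' ∨ t = -t') then (p : ℂ) else 0)
    (v v' : ZMod p) :
    ∑ χ : IrrCharacter G, fc p w z χ.1 v * conj (fc p w z χ.1 v') =
      ((Nat.card G : ℂ) - 2 * (p : ℂ)) / (p : ℂ) ^ 2 + (if v = v' then 1 else 0) +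
        (if v = -v' then 1 else 0) := by
  classical
  have hp : p.Prime := Fact.out
  have hw1 : w ^ p = 1 := hw.pow_eq_one
  have hp0 : (p : ℂ) ≠ 0 := by exact_mod_cast hp.ne_zero
  have h2ne : (2 : ZMod p) ≠ 0 := by
    intro h4
    have h5 : ((2 : ℕ) : ZMod p) = 0 := by exact_mod_cast h4
    rw [ZMod.natCast_eq_zero_iff] at h5
    exact hp2 ((Nat.prime_dvd_prime_iff_eq hp Nat.prime_two).mp h5)
  have hneg : ∀ t : ZMod p, t ≠ 0 → t ≠ -t := by
    intro t ht h
    have h2 : (2 : ZMod p) * t = 0 := by linear_combination h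
    rcases mul_eq_zero.mp h2 with h4 | h4
    · exact h2ne h4
    · exact ht h4
  have hterm : ∀ χ : IrrCharacter G, fc p w z χ.1 v * conj (fc p w z χ.1 v') =
      (p : ℂ)⁻¹ * (p : ℂ)⁻¹ * ∑ t : ZMod p, ∑ t' : ZMod p,
        (conj (w ^ (v * t).val) * w ^ (v' * t').val) *
          (χ.1 (z ^ t.val) * conj (χ.1 (z ^ t'.val))) := by
    intro χ
    unfold fc
    rw [map_mul, map_inv₀, Complex.conj_natCast, map_sum]
    simp only [map_mul, Complex.conj_conj]
    rw [mul_mul_mul_comm, Finset.sum_mul_sum]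
    congr 1
    refine Finset.sum_congr rfl fun t _ => Finset.sum_congr rfl fun t' _ => ?_
    ring
  have hswap : ∑ χ : IrrCharacter G, ∑ t : ZMod p, ∑ t' : ZMod p,
      (conj (w ^ (v * t).val) * w ^ (v' * t').val) *
        (χ.1 (z ^ t.val) * conj (χ.1 (z ^ t'.val))) =
      ∑ t : ZMod p, ∑ t' : ZMod p, (conj (w ^ (v * t).val) * w ^ (v' * t').val) *
        (if t = 0 ∧ t' = 0 then (Nat.card G : ℂ)
          else if t ≠ 0 ∧ (t = t' ∨ t = -t') then (p : ℂ) else 0) := by
    rw [Finset.sum_comm]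
    refine Finset.sum_congr rfl fun t _ => ?_
    rw [Finset.sum_comm]
    refine Finset.sum_congr rfl fun t' _ => ?_
    rw [← Finset.mul_sum, hcol]
  have hinner : ∀ t : ZMod p, ∑ t' : ZMod p, (conj (w ^ (v * t).val) * w ^ (v' * t').val) *
        (if t = 0 ∧ t' = 0 then (Nat.card G : ℂ)
          else if t ≠ 0 ∧ (t = t' ∨ t = -t') then (p : ℂ) else 0) =
      (p : ℂ) * (w ^ ((v' - v) * t).val + w ^ ((-(v + v')) * t).val) +
        (if t = 0 then (Nat.card G : ℂ) - 2 * p else 0) := by
    intro t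
    by_cases ht : t = 0
    · subst ht
      rw [if_pos rfl, Finset.sum_eq_single (0 : ZMod p)]
      · rw [if_pos ⟨rfl, rfl⟩]
        simp only [mul_zero, ZMod.val_zero, pow_zero, map_one, one_mul]
        ring
      · intro t' _ ht'
        rw [if_neg (fun h => ht' h.2), if_neg (fun h => h.1 rfl), mul_zero]
      · intro h
        exact absurd (Finset.mem_univ _) h
    · rw [if_neg ht, add_zero]
      have hsub : ({t, -t} : Finset (ZMod p)) ⊆ Finset.univ := Finset.subset_univ _
      rw [← Finset.sum_subset hsub]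
      · rw [Finset.sum_pair (hneg t ht)]
        rw [if_neg (fun h => ht h.1), if_pos ⟨ht, Or.inl rfl⟩, if_neg (fun h => ht h.1),
          if_pos ⟨ht, Or.inr (neg_neg t).symm⟩]
        rw [Cfsg.Agent.Lib.Helper33.TI.conj_pow_val p w hw1, mul_add,
          ← Cfsg.Agent.Lib.Helper33.TI.pow_val_add p w hw1,
          ← Cfsg.Agent.Lib.Helper33.TI.pow_val_add p w hw1]
        have e1 : -(v * t) + v' * t = (v' - v) * t := by ring
        have e2 : -(v * t) + v' * -t = -(v + v') * t := by ring
        rw [e1, e2]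
        ring
      · intro t' _ ht'
        rw [Finset.mem_insert, Finset.mem_singleton, not_or] at ht'
        rw [if_neg (fun h => ht h.1), if_neg, mul_zero]
        rintro ⟨-, h | h⟩
        · exact ht'.1 h.symm
        · exact ht'.2 (by rw [h, neg_neg])
  simp_rw [hterm]
  rw [← Finset.mul_sum, hswap]
  simp_rw [hinner]
  rw [Finset.sum_add_distrib, ← Finset.mul_sum, Finset.sum_add_distrib,
    Cfsg.Agent.Lib.Helper33.TI.sum_pow_val p w hw, Cfsg.Agent.Lib.Helper33.TI.sum_pow_val p w hw,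
    Finset.sum_ite_eq' Finset.univ (0 : ZMod p)]
  simp only [Finset.mem_univ, if_true]
  have c1 : (v' - v = 0) ↔ (v = v') := by
    rw [sub_eq_zero]
    exact eq_comm
  have c2 : (-(v + v') = 0) ↔ (v = -v') := by
    rw [neg_eq_zero, add_eq_zero_iff_eq_neg]
  simp only [c1, c2]
  by_cases h1 : v = v'
  · by_cases h2 : v = -v'
    · simp only [if_pos h1, if_pos h2]
      field_simp
      ring
    · simp only [if_pos h1, if_neg h2]
      field_simp
      ring
  · by_cases h2 : v = -v'
    · simp only [if_neg h1, if_pos h2]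
      field_simp
      ring
    · simp only [if_neg h1, if_neg h2]
      field_simp
      ring

end Cfsg.Agent.Lib.Helper64.W2
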